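import Mathlib
import Cfsg.Agent.H10.Real2
import Cfsg.Agent.H11.AutU

/-! Two-coverings of unitary groups: general tools. -/

set_option autoImplicit false
set_option linter.unusedSectionVars false

namespace Cfsg.Agent.H27.Cv

open Module Polynomial H11 L0 H10

/-- `G` is the union of the conjugates of two proper subgroups. -/
def Cov (G : Type*) [Group G] : Prop :=
  ∃ H K : Subgroup G, H ≠ ⊤ ∧ K ≠ ⊤ ∧ ∀ g : G, ∃ x : G, x * g * x⁻¹ ∈ H ∨ x * g * x⁻¹ ∈ K

theorem Cov.congr {G G' : Type*} [Group G] [Group G'] (e : G' ≃* G) (h : Cov G) : Cov G' := by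
  obtain ⟨H, K, hH, hK, h⟩ := h
  have key : ∀ L : Subgroup G, L ≠ ⊤ → L.comap e.toMonoidHom ≠ ⊤ := fun L hL h0 => hL (by
    rw [eq_top_iff]
    intro x _
    have : e.symm x ∈ L.comap e.toMonoidHom := h0 ▸ Subgroup.mem_top _
    simpa using this)
  refine ⟨H.comap e.toMonoidHom, K.comap e.toMonoidHom, key H hH, key K hK, fun g => ?_⟩
  obtain ⟨x, hx⟩ := h (e g)
  exact ⟨e.symm x, by simpa using hx⟩

theorem cov_quot {Γ : Type*} [Group Γ] (S H K : Subgroup Γ) [S.Normal] (hH : H ≠ ⊤) (hK : K ≠ ⊤)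
    (h1 : ∀ l, ∃ h ∈ H, h⁻¹ * l ∈ S) (h2 : ∀ l, ∃ h ∈ K, h⁻¹ * l ∈ S)
    (hz : ∀ z ∈ Subgroup.center S, z.1 ∈ H ∧ z.1 ∈ K)
    (hc : ∀ g ∈ S, ∃ x, x * g * x⁻¹ ∈ H ∨ x * g * x⁻¹ ∈ K) :
    Cov (S ⧸ Subgroup.center S) := by
  have key : ∀ L : Subgroup Γ, L ≠ ⊤ → (∀ l, ∃ h ∈ L, h⁻¹ * l ∈ S) →
      (∀ z ∈ Subgroup.center S, z.1 ∈ L) →
      (L.subgroupOf S).map (QuotientGroup.mk' (Subgroup.center S)) ≠ ⊤ := by
    intro L hL hl hzL h0
    apply hL
    rw [eq_top_iff]
    intro l _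
    obtain ⟨h, hh, hs⟩ := hl l
    have : (QuotientGroup.mk' (Subgroup.center S)) ⟨_, hs⟩ ∈
        (L.subgroupOf S).map (QuotientGroup.mk' (Subgroup.center S)) := h0 ▸ Subgroup.mem_top _
    obtain ⟨y, hy, e⟩ := this
    have e2 := hzL _ (QuotientGroup.eq.mp e)
    have : y.1 * (y⁻¹ * ⟨_, hs⟩ : S).1 ∈ L := L.mul_mem hy e2
    have h3 : h * (y.1 * (y⁻¹ * ⟨_, hs⟩ : S).1) ∈ L := L.mul_mem hh this
    simpa using h3
  have key2 : ∀ L : Subgroup Γ, (∀ l, ∃ h ∈ L, h⁻¹ * l ∈ S) → ∀ (g : S) (x : Γ), x * g.1 * x⁻¹ ∈ L →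
      ∃ y : S ⧸ Subgroup.center S, y * (g : S ⧸ Subgroup.center S) * y⁻¹ ∈
        (L.subgroupOf S).map (QuotientGroup.mk' (Subgroup.center S)) := by
    intro L hl g x hx
    obtain ⟨h, hh, hs⟩ := hl x
    refine ⟨((⟨_, hs⟩ : S) : S ⧸ Subgroup.center S), (⟨_, hs⟩ : S) * g * (⟨_, hs⟩ : S)⁻¹, ?_, rfl⟩
    have := L.mul_mem (L.mul_mem (L.inv_mem hh) hx) hh
    refine Subgroup.mem_subgroupOf.mpr ?_
    simpa [mul_assoc] using this
  refine ⟨_, _, key H hH h1 fun z hz' => (hz z hz').1, key K hK h2 fun z hz' => (hz z hz').2,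
    fun g => ?_⟩
  obtain ⟨g, rfl⟩ := QuotientGroup.mk_surjective g
  obtain ⟨x, hx | hx⟩ := hc g g.2
  · obtain ⟨y, hy⟩ := key2 H h1 g x hx
    exact ⟨y, Or.inl hy⟩
  · obtain ⟨y, hy⟩ := key2 K h2 g x hx
    exact ⟨y, Or.inr hy⟩

variable {F : Type} [Field F] {V : Type} [AddCommGroup V] [Module F V] [FiniteDimensional F V]
  {σ : F →+* F} {q : ℕ}

/-- An irreducible endomorphism is multiplication by a root in a field. -/
theorem irr_model {T : End F V} (h0 : 0 < finrank F V)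
    (hT : ∀ U : Submodule F V, (∀ x ∈ U, T x ∈ U) → U = ⊥ ∨ U = ⊤) :
    ∃ p : F[X], Irreducible p ∧ p.Monic ∧ tyE T = {p} ∧ p.natDegree = finrank F V ∧
      ∃ φ : AdjoinRoot p →ₐ[F] End F V, φ (AdjoinRoot.root p) = T := by
  have : Nontrivial V := Module.finrank_pos_iff.mp h0
  have hint : IsIntegral F T := Algebra.IsIntegral.isIntegral T
  obtain ⟨p, hm, hp, r, hr⟩ := exists_monic_irreducible_factor (minpoly F T)
    (minpoly.not_isUnit F T)
  have hz : aeval T p = 0 := by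
    rcases hT (LinearMap.ker (aeval T p)) (fun x hx => by
      rw [LinearMap.mem_ker] at hx ⊢
      have : aeval T p * T = T * aeval T p := by
        have := congrArg (aeval T) (mul_comm p X)
        simpa only [map_mul, aeval_X] using this
      rw [← End.mul_apply, this, End.mul_apply, hx, map_zero]) with h | h
    · exfalso
      have h1 : aeval T r = 0 := by
        ext x
        have : aeval T p (aeval T r x) = 0 := by
          rw [← End.mul_apply, ← map_mul, ← hr, minpoly.aeval]; rfl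
        exact (LinearMap.ker_eq_bot.mp h) (by simpa using this)
      have h2 := minpoly.dvd F T h1
      have hr0 : r ≠ 0 := by
        rintro rfl
        exact minpoly.ne_zero hint (by simpa using hr)
      have h3 := natDegree_le_of_dvd h2 hr0
      rw [hr, natDegree_mul hp.ne_zero hr0] at h3
      have := hp.natDegree_pos
      omega
    · exact LinearMap.ker_eq_top.mp h
  have : Fact (Irreducible p) := ⟨hp⟩
  let φ : AdjoinRoot p →ₐ[F] End F V :=
    Ideal.Quotient.liftₐ (Ideal.span {p}) (aeval T) fun a ha => by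
      obtain ⟨b, rfl⟩ := Ideal.mem_span_singleton.mp ha
      rw [map_mul, hz, zero_mul]
  have hφ : φ (AdjoinRoot.root p) = T := aeval_X T
  obtain ⟨v, hv⟩ := exists_ne (0 : V)
  let e : AdjoinRoot p →ₗ[F] V := (LinearMap.applyₗ v).comp φ.toLinearMap
  have he : ∀ c, e c = φ c v := fun _ => rfl
  have hinj : Function.Injective e := by
    rw [← LinearMap.ker_eq_bot, eq_bot_iff]
    intro c hc
    rw [LinearMap.mem_ker, he] at hc
    by_contra hc0
    apply hv
    have : φ (c⁻¹ * c) v = 0 := by rw [map_mul, End.mul_apply, hc, map_zero]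
    rwa [inv_mul_cancel₀ hc0, map_one] at this
  have hsurj : Function.Surjective e := by
    rw [← LinearMap.range_eq_top]
    refine (hT _ ?_).resolve_left fun h => hv ?_
    · rintro _ ⟨c, rfl⟩
      exact ⟨AdjoinRoot.root p * c, by rw [he, he, map_mul, hφ, End.mul_apply]⟩
    · have : e 1 ∈ LinearMap.range e := ⟨1, rfl⟩
      rw [h, he, map_one] at this
      exact this
  have : FiniteDimensional F (AdjoinRoot p) := (AdjoinRoot.powerBasis hp.ne_zero).finite
  have ht : tyE T = {p} := by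
    rw [← tyE_mulLeft_root (Prim.of_irreducible hp hm)]
    exact (tyE_congr (LinearEquiv.ofBijective e ⟨hinj, hsurj⟩) fun c => by
      change φ (AdjoinRoot.root p * c) v = T (φ c v)
      rw [map_mul, hφ, End.mul_apply]).symm
  refine ⟨p, hp, hm, ht, ?_, φ, hφ⟩
  rw [finrank_eq_sum_tyE T, ht]; simp

theorem exists_qpow (hq : QConj σ q) (E : Type*) [Field E] [Algebra F E] (k : ℕ) :
    ∃ Φ : E →+* E, ∀ y, Φ y = y ^ (q ^ k) := by
  have := hq.finite
  have := Fintype.ofFinite F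
  obtain ⟨n, hn⟩ := exists_eq_char_pow (F := F) (q := q) (by rw [← hq.card, Nat.card_eq_fintype_card])
  have : Fact (ringChar F).Prime := ⟨CharP.char_is_prime F _⟩
  have : CharP E (ringChar F) := charP_of_injective_algebraMap (algebraMap F E).injective _
  exact ⟨iterateFrobenius E (ringChar F) (n * k), fun y => by
    rw [iterateFrobenius_def, pow_mul, ← hn]⟩

variable {B : V →ₛₗ[σ] V →ₗ[F] F}

/-- An irreducible isometry of a hermitian space. -/
theorem irr_herm (hq : QConj σ q) (hH : IsHerm B) (hB : B.SeparatingLeft) {T : End F V}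
    (hi : ∀ x y, B (T x) (T y) = B x y) (h0 : 0 < finrank F V)
    (hT : ∀ U : Submodule F V, (∀ x ∈ U, T x ∈ U) → U = ⊥ ∨ U = ⊤) :
    Odd (finrank F V) ∧ ∃ p : F[X], Irreducible p ∧ p.Monic ∧ tyE T = {p} ∧
      p.natDegree = finrank F V ∧
      (finrank F V = 3 → AdjoinRoot.root p ^ (q ^ 3) * AdjoinRoot.root p = 1) := by
  have := hq.finite
  have := Fintype.ofFinite F
  have hF : Fintype.card F = q ^ 2 := by rw [← hq.card, Nat.card_eq_fintype_card]
  have : Nontrivial V := Module.finrank_pos_iff.mp h0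
  obtain ⟨p, hp, hm, ht, hd, φ, hφ⟩ := irr_model h0 hT
  have : Fact (Irreducible p) := ⟨hp⟩
  have : FiniteDimensional F (AdjoinRoot p) := (AdjoinRoot.powerBasis hp.ne_zero).finite
  have : Finite (AdjoinRoot p) := Module.finite_of_finite F
  have hfr : finrank F (AdjoinRoot p) = finrank F V := by
    rw [← hd]; exact (AdjoinRoot.powerBasis hp.ne_zero).finrank
  set β := AdjoinRoot.root p with hβ
  have hβ0 : β ≠ 0 := by
    intro h
    obtain ⟨v, hv⟩ := exists_ne (0 : V)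
    refine hv (hB v fun y => ?_)
    rw [← hi, ← hφ, h, map_zero]; simp
  have hadj : ∀ x y, B (T x) y = B x (φ β⁻¹ y) := fun x y => by
    rw [← hi x, ← End.mul_apply, ← hφ, ← map_mul, mul_inv_cancel₀ hβ0, map_one]; rfl
  have h1 : aeval β⁻¹ (p.map σ) = 0 := by
    have hinj : Function.Injective φ := φ.toRingHom.injective
    apply hinj
    rw [map_zero, ← aeval_algHom_apply]
    ext y
    refine hH.form.separatingRight hB fun x => ?_
    rw [← aeval_adj hadj, ← hφ, aeval_algHom_apply, hβ, AdjoinRoot.aeval_eq, AdjoinRoot.mk_self]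
    simp
  obtain ⟨Φ, hΦ⟩ := exists_qpow hq (AdjoinRoot p) 1
  simp only [pow_one] at hΦ
  have h2 : aeval (β⁻¹ ^ q) p = 0 := by
    have := congrArg Φ h1
    rw [aeval_def, hom_eval₂, eval₂_map, map_zero, hΦ] at this
    rw [aeval_def, ← this]
    congr 1
    ext a
    simp only [RingHom.comp_apply, hΦ, ← map_pow, ← hq.eq, hq.invol]
  let ψ : AdjoinRoot p →ₐ[F] AdjoinRoot p :=
    AdjoinRoot.liftAlgHom p (Algebra.ofId F _) (β⁻¹ ^ q) h2
  have hψ : ψ β = β⁻¹ ^ q := AdjoinRoot.liftAlgHom_root _ _ _ _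
  obtain ⟨⟨i, hlt⟩, hi'⟩ := (FiniteField.bijective_frobeniusAlgHom_pow F (AdjoinRoot p)).2 ψ
  simp only at hi'
  have h3 : ψ * ψ = FiniteField.frobeniusAlgHom F (AdjoinRoot p) := by
    apply AdjoinRoot.algHom_ext
    rw [AlgHom.mul_apply, ← hβ, hψ, map_pow, map_inv₀, hψ, FiniteField.coe_frobeniusAlgHom, hF]
    simp [← pow_mul, sq]
  have h4 : 2 * i ≡ 1 [MOD finrank F V] := by
    rw [← hi', ← pow_add] at h3
    have hu : IsOfFinOrder (FiniteField.frobeniusAlgHom F (AdjoinRoot p)) := by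
      rw [← orderOf_pos_iff, FiniteField.orderOf_frobeniusAlgHom, hfr]; exact h0
    rw [← hfr, ← FiniteField.orderOf_frobeniusAlgHom, ← hu.pow_eq_pow_iff_modEq, two_mul, h3,
      pow_one]
  refine ⟨?_, p, hp, hm, ht, hd, fun h3 => ?_⟩
  · by_contra hne
    rw [Nat.not_odd_iff_even] at hne
    have := h4.of_dvd hne.two_dvd
    simp [Nat.ModEq] at this
  · have h5 : i = 2 := by
      rw [hfr, h3] at hlt
      rw [h3, Nat.ModEq] at h4
      omega
    rw [h5] at hi'
    have h6 : β ^ (q ^ 2 * q ^ 2) = β⁻¹ ^ q := by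
      rw [← hψ, ← hi', sq (FiniteField.frobeniusAlgHom F _), AlgHom.mul_apply,
        FiniteField.coe_frobeniusAlgHom, hF, pow_mul]
    apply Φ.injective
    rw [map_one, hΦ, mul_pow, ← pow_mul, show q ^ 3 * q = q ^ 2 * q ^ 2 by ring, h6, ← mul_pow,
      inv_mul_cancel₀ hβ0, one_pow]

theorem perp_inv (hB : B.SeparatingLeft) {T : End F V} (hi : ∀ x y, B (T x) (T y) = B x y)
    {U : Submodule F V} (hU : ∀ x ∈ U, T x ∈ U) : ∀ x ∈ perp B U, T x ∈ perp B U := by
  intro x hx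
  rw [mem_perp] at hx ⊢
  intro y hy
  have hinj : Function.Injective (T.restrict hU) := by
    rw [← LinearMap.ker_eq_bot, eq_bot_iff]
    intro z hz
    have hz' : T z = 0 := congrArg Subtype.val hz
    exact Subtype.ext (hB z fun w => by rw [← hi, hz']; simp)
  obtain ⟨z, hz⟩ := LinearMap.injective_iff_surjective.mp hinj ⟨y, hy⟩
  have hz' : T z = y := congrArg Subtype.val hz
  rw [← hz', hi, hx z z.2]

/-- A minimal invariant subspace is totally isotropic, or nondegenerate of odd dimension. -/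
theorem exists_min (hq : QConj σ q) (hH : IsHerm B) (hB : B.SeparatingLeft) {T : End F V}
    (hi : ∀ x y, B (T x) (T y) = B x y) (h0 : 0 < finrank F V) :
    ∃ U : Submodule F V, U ≠ ⊥ ∧ (∀ x ∈ U, T x ∈ U) ∧
      (∀ W ≤ U, (∀ x ∈ W, T x ∈ W) → W = ⊥ ∨ W = U) ∧
      ((∀ x ∈ U, ∀ y ∈ U, B x y = 0) ∨ (NondegOn B U ∧ Odd (finrank F U))) := by
  have : Nontrivial V := Module.finrank_pos_iff.mp h0
  obtain ⟨U, ⟨hU0, hU⟩, hmin⟩ := WellFounded.has_min (wellFounded_lt (α := Submodule F V))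
    {U | U ≠ ⊥ ∧ ∀ x ∈ U, T x ∈ U} ⟨⊤, top_ne_bot, fun _ _ => trivial⟩
  have hm : ∀ W ≤ U, (∀ x ∈ W, T x ∈ W) → W = ⊥ ∨ W = U := fun W hW hW' => by
    by_contra hne
    push Not at hne
    exact hmin W ⟨hne.1, hW'⟩ (lt_of_le_of_ne hW hne.2)
  refine ⟨U, hU0, hU, hm, ?_⟩
  rcases hm (U ⊓ perp B U) inf_le_left
    (fun x hx => ⟨hU x hx.1, perp_inv hB hi hU x hx.2⟩) with h | h
  · right
    have hn : NondegOn B U := fun x hx h1 => by
      have : x ∈ U ⊓ perp B U := ⟨hx, mem_perp.mpr fun y hy => hH.refl (h1 y hy)⟩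
      rwa [h] at this
    refine ⟨hn, (irr_herm hq (hH.pull U.subtype) (nondegOn_iff.mp hn) (T := T.restrict hU)
      (fun x y => hi x y) (Nat.pos_of_ne_zero fun h => hU0 (Submodule.finrank_eq_zero.mp h)) fun W hW => ?_).1⟩
    rcases hm (W.map U.subtype) (Submodule.map_subtype_le U W) (by
      rintro _ ⟨x, hx, rfl⟩
      exact ⟨_, hW x hx, rfl⟩) with h1 | h1
    · left
      exact Submodule.map_injective_of_injective U.subtype_injective (by simpa using h1)
    · right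
      exact Submodule.map_injective_of_injective U.subtype_injective (by simpa using h1)
  · left
    intro x hx y hy
    rw [← h] at hy
    exact mem_perp.mp hy.2 x hx

theorem eig_of_one {T : End F V} {U : Submodule F V} (hU : ∀ x ∈ U, T x ∈ U)
    (h1 : finrank F U = 1) : ∃ v ∈ U, v ≠ 0 ∧ (∀ x ∈ U, ∃ c : F, c • v = x) ∧ ∃ a : F, T v = a • v := by
  obtain ⟨v, hv, h⟩ := finrank_eq_one_iff'.mp h1
  have key : ∀ x ∈ U, ∃ c : F, c • v.1 = x := fun x hx => by
    obtain ⟨c, hc⟩ := h ⟨x, hx⟩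
    exact ⟨c, congrArg Subtype.val hc⟩
  obtain ⟨a, ha⟩ := key _ (hU v v.2)
  exact ⟨v, v.2, fun h => hv (Subtype.ext h), key, a, ha.symm⟩

end Cfsg.Agent.H27.Cv
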