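import Mathlib
import Cfsg.Agent.H27.Cv1

/-! Two-covering of `PSU₄(q)`. -/

set_option autoImplicit false
set_option linter.unusedSectionVars false

namespace Cfsg.Agent.H27.Cv

open Module Polynomial H11 L0 H10

variable {F : Type} [Field F] {V : Type} [AddCommGroup V] [Module F V] [FiniteDimensional F V]
  {σ : F →+* F} {q : ℕ} {B : V →ₛₗ[σ] V →ₗ[F] F}

theorem perp_eig {T : End F V} (hi : ∀ x y, B (T x) (T y) = B x y) {v f : V} (hvf : B v f = 1)
    {l : F} (hT : T v = l • v) {w : V} (hw : B v w = 0) : B v (T w) = 0 := by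
  have h1 := hi v f
  have h2 := hi v w
  rw [hT] at h1 h2
  simp only [LinearMap.map_smulₛₗ₂, smul_eq_mul, LinearMap.smul_apply, hvf, hw] at h1 h2
  exact (mul_eq_zero.mp h2).resolve_left (left_ne_zero_of_mul_eq_one h1)

theorem exists_red (hH : IsHerm B) {T : End F V} (hi : ∀ x y, B (T x) (T y) = B x y) {v f : V}
    (hv : B v v = 0) (hvf : B v f = 1) {l : F} (hT : T v = l • v) :
    ∃ T' : End F (hperp B v f), (∀ x y, B (T' x).1 (T' y).1 = B x.1 y.1) ∧
      ∀ w : hperp B v f, ∃ c : F, T w.1 = (T' w).1 + c • v := by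
  have hfv := hH.flip_one hvf
  let S : End F V := T - ((B f).comp T).smulRight v
  have hS : ∀ x, S x = T x - B f (T x) • v := fun _ => rfl
  have hm : ∀ x ∈ hperp B v f, S x ∈ hperp B v f := fun x hx => by
    rw [mem_hperp] at hx ⊢
    simp [hS, perp_eig hi hvf hT hx.1, hv, hfv]
  refine ⟨S.restrict hm, fun x y => ?_, fun w => ⟨B f (T w.1), ?_⟩⟩
  · have hx := perp_eig hi hvf hT (mem_hperp.mp x.2).1
    have hy := perp_eig hi hvf hT (mem_hperp.mp y.2).1
    change B (S x) (S y) = _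
    simp [hS, hi, hv, hy, hH.refl hx]
  · change _ = S w + _
    simp [hS]

theorem step (hH : IsHerm B) {T : End F V} {v w : V} (hv : B v v = 0) (hvw : B v w = 0)
    {l m c : F} (hT : T v = l • v) (hw : T w = m • w + c • v) (hww : B w w ≠ 0) (hne : m ≠ l) :
    ∃ x, B x x ≠ 0 ∧ ∃ a : F, T x = a • x := by
  have h0 : m - l ≠ 0 := sub_ne_zero.mpr hne
  refine ⟨w + (c / (m - l)) • v, by simpa [hv, hvw, hH.refl hvw] using hww, m, ?_⟩
  rw [map_add, map_smul, hT, hw, smul_add, smul_smul, smul_smul, add_assoc, ← add_smul]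
  congr 2
  field_simp
  ring

theorem two_dim (hq : QConj σ q) (hH : IsHerm B) (hB : B.SeparatingLeft) {T : End F V}
    (hi : ∀ x y, B (T x) (T y) = B x y) (h2 : finrank F V = 2) (l : F) :
    ∃ w, w ≠ 0 ∧ ∃ m : F, T w = m • w ∧ (B w w = 0 ∨ m ≠ l) := by
  have := hq.finite
  obtain ⟨U, hU0, hU, -, h⟩ := exists_min hq hH hB hi (by omega)
  have hp : 0 < finrank F U := Nat.pos_of_ne_zero fun h => hU0 (Submodule.finrank_eq_zero.mp h)
  have h1 : finrank F U = 1 := by
    rcases h with h | ⟨-, h⟩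
    · have := hH.form.two_mul_finrank_le hB (W := U) ⟨fun x hx => h x hx x hx, h⟩
      omega
    · have := Submodule.finrank_le U
      obtain ⟨k, hk⟩ := h
      omega
  obtain ⟨w, hwU, hw0, hw, m, hm⟩ := eig_of_one hU h1
  by_contra hne
  push Not at hne
  obtain ⟨hww, rfl⟩ := hne w hw0 m hm
  have h3 := hH.form.finrank_perp hB U
  obtain ⟨w', hwU', hw0', hw', m', hm'⟩ := eig_of_one (perp_inv hB hi hU) (by omega)
  obtain ⟨-, rfl⟩ := hne w' hw0' m' hm'
  have hn : NondegOn B U := fun x hx h0 => by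
    obtain ⟨c, rfl⟩ := hw x hx
    have := h0 w hwU
    simp only [LinearMap.map_smulₛₗ₂, smul_eq_mul, LinearMap.smul_apply, mul_eq_zero, hww,
      or_false, map_eq_zero] at this
    simp [this]
  obtain ⟨u, hu0, hu⟩ := hH.exists_isotropic hB h2.ge
  refine (hne u hu0 m' ?_).1 hu
  have : u ∈ U ⊔ perp B U := (hH.form.isCompl_perp hB hn).sup_eq_top ▸ Submodule.mem_top
  obtain ⟨x, hx, y, hy, rfl⟩ := Submodule.mem_sup.mp this
  obtain ⟨a, rfl⟩ := hw x hx
  obtain ⟨b, rfl⟩ := hw' y hy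
  simp [hm, hm', smul_smul, mul_comm]

theorem eig_nondeg {T : End F V} {U : Submodule F V} (hU : ∀ x ∈ U, T x ∈ U) (hn : NondegOn B U)
    (h1 : finrank F U = 1) : ∃ x, B x x ≠ 0 ∧ ∃ a : F, T x = a • x := by
  obtain ⟨w, hwU, hw0, hw, h⟩ := eig_of_one hU h1
  refine ⟨w, fun h0 => hw0 (hn w hwU fun y hy => ?_), h⟩
  obtain ⟨c, rfl⟩ := hw y hy
  simp [h0]

theorem four_dim (hq : QConj σ q) (hH : IsHerm B) (hB : B.SeparatingLeft) {T : End F V}
    (hi : ∀ x y, B (T x) (T y) = B x y) (h4 : finrank F V = 4) :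
    (∃ x, B x x ≠ 0 ∧ ∃ a : F, T x = a • x) ∨
      ∃ W : Submodule F V, (∀ x ∈ W, ∀ y ∈ W, B x y = 0) ∧ finrank F W = 2 ∧ ∀ x ∈ W, T x ∈ W := by
  have := hq.finite
  obtain ⟨U, hU0, hU, -, h⟩ := exists_min hq hH hB hi (by omega)
  have hp : 0 < finrank F U := Nat.pos_of_ne_zero fun h => hU0 (Submodule.finrank_eq_zero.mp h)
  rcases h with h | ⟨hn, k, hk⟩
  · have := hH.form.two_mul_finrank_le hB (W := U) ⟨fun x hx => h x hx x hx, h⟩
    by_cases h2 : finrank F U = 2
    · exact Or.inr ⟨U, h, h2, hU⟩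
    obtain ⟨v, hvU, hv0, -, l, hT⟩ := eig_of_one hU (by omega)
    have hv := h v hvU v hvU
    obtain ⟨f, hf, hvf⟩ := hH.form.exists_partner hB hv hv0
    obtain ⟨T', h1, h2⟩ := exists_red hH hi hv hvf hT
    have h3 := hH.form.finrank_hperp hB hv hf hvf
    obtain ⟨w, hw0, m, hm, hw⟩ := two_dim hq (hH.pull (hperp B v f).subtype)
      (hH.form.separatingLeft_hperp hB hv hf hvf) (T := T') h1 (by omega) l
    obtain ⟨c, hc⟩ := h2 w
    rw [hm] at hc
    obtain ⟨hvw, hfw⟩ := mem_hperp.mp w.2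
    by_cases hww : B w.1 w.1 = 0
    · refine Or.inr ⟨Submodule.span F {v, w.1}, fun x hx y hy => ?_, ?_, fun x hx => ?_⟩
      · obtain ⟨a, b, rfl⟩ := Submodule.mem_span_pair.mp hx
        obtain ⟨a', b', rfl⟩ := Submodule.mem_span_pair.mp hy
        simp [hv, hvw, hww, hH.refl hvw]
      · have hl : LinearIndependent F ![v, w.1] := by
          rw [LinearIndependent.pair_iff]
          intro s t hst
          have h5 := congrArg (B f) hst
          simp only [map_add, map_smul, hH.flip_one hvf, hfw, smul_eq_mul, mul_one, mul_zero,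
            add_zero, map_zero] at h5
          rw [h5, zero_smul, zero_add, smul_eq_zero] at hst
          exact ⟨h5, hst.resolve_right fun h => hw0 (Subtype.ext h)⟩
        have := finrank_span_eq_card hl
        rwa [Matrix.range_cons, Matrix.range_cons, Matrix.range_empty, Set.union_empty] at this
      · obtain ⟨a, b, rfl⟩ := Submodule.mem_span_pair.mp hx
        refine Submodule.mem_span_pair.mpr ⟨a * l + b * c, b * m, ?_⟩
        rw [map_add, map_smul, map_smul, hT, hc]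
        simp only [SetLike.val_smul]
        module
    · exact Or.inl (step hH hv hvw hT hc hww (hw.resolve_left hww))
  · have := Submodule.finrank_le U
    by_cases h1 : finrank F U = 1
    · exact Or.inl (eig_nondeg hU hn h1)
    · have h3 := hH.form.finrank_perp hB U
      exact Or.inl (eig_nondeg (perp_inv hB hi hU) (hH.form.nondegOn_perp hB hn) (by omega))

theorem conj_mem_stabSub {Q : V → F} {U W : Submodule F V} {g x : Isom B Q}
    (hx : U.map (x.1 : V →ₗ[F] V) = W) (hg : ∀ y ∈ U, g.1 y ∈ U) :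
    x * g * x⁻¹ ∈ stabSub B Q W := mem_stabSub_of_le fun y hy => by
  rw [← hx] at hy ⊢
  obtain ⟨z, hz, rfl⟩ := hy
  exact ⟨g.1 z, hg z hz, by simp⟩

theorem stabSub_ne_top [Finite F] (hH : IsHerm B) (hB : B.SeparatingLeft) {U : Submodule F V}
    (h0 : 0 < finrank F U) (h1 : finrank F U < finrank F V) :
    stabSub B (fun x => B x x) U ≠ ⊤ := fun h => by
  obtain ⟨w, hw, hw0⟩ := Submodule.exists_mem_ne_zero_of_ne_bot (p := U) (by
    rintro rfl; simp at h0)
  have := hH.irred hB U (fun l x hx => by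
    have hl : l ∈ stabSub B (fun x => B x x) U := h ▸ Subgroup.mem_top _
    rw [← mem_stabSub.mp hl]
    exact ⟨x, hx, rfl⟩) hw0 hw
  rw [this, finrank_top] at h1
  exact lt_irrefl _ h1

theorem det_normOne [Finite F] (hH : IsHerm B) (hB : B.SeparatingLeft) (h1 : 1 ≤ finrank F V)
    (l : UIsom B) : σ (detI B _ l : F) * (detI B _ l : F) = 1 :=
  mem_normOne.mp (hH.range_detI hB h1 ▸ ⟨l, rfl⟩)

theorem inv_mul_mem {h l : UIsom B} (e : LinearMap.det (h.1 : V →ₗ[F] V) = (detI B _ l : F)) :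
    h⁻¹ * l ∈ SIsom B := by
  rw [← detI_coe] at e
  rw [MonoidHom.mem_ker, map_mul, map_inv, Units.ext e, inv_mul_cancel]

theorem point_det [Finite F] (hH : IsHerm B) (hB : B.SeparatingLeft) (h1 : 1 ≤ finrank F V)
    {e : V} (he : B e e ≠ 0) (l : UIsom B) :
    ∃ h ∈ stabSub B (fun x => B x x) (Submodule.span F {e}), h⁻¹ * l ∈ SIsom B :=
  ⟨hH.qref he (det_normOne hH hB h1 l), mem_stabSub_span (hH.qref_self _ _),
    inv_mul_mem (hH.det_qref _ _)⟩

theorem center_stab [Finite F] (hH : IsHerm B) (hB : B.SeparatingLeft) (h2 : 2 ≤ finrank F V)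
    (U : Submodule F V) {z : SIsom B} (hz : z ∈ Subgroup.center (SIsom B)) :
    z.1 ∈ stabSub B (fun x => B x x) U := by
  obtain ⟨a, ha⟩ := (hH.mem_center_sisom hB h2 z).mp hz
  refine mem_stabSub_of_le fun x hx => ?_
  rw [ha, IsHerm.scalU_apply]
  exact U.smul_mem _ hx

theorem point_conj [Finite F] (hH : IsHerm B) (hB : B.SeparatingLeft) {e : V} (he : B e e = 1)
    {g : UIsom B} {x : V} (hx : B x x ≠ 0) {a : F} (ha : g.1 x = a • x) :
    ∃ k : UIsom B, k * g * k⁻¹ ∈ stabSub B (fun x => B x x) (Submodule.span F {e}) := by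
  obtain ⟨c, hc⟩ := hH.exists_norm (hH.symm x x)
  have hc0 : c ≠ 0 := by rintro rfl; exact hx (by simpa using hc.symm)
  have he0 : e ≠ 0 := by rintro rfl; simp at he
  obtain ⟨k, hk, h⟩ := hH.form.witt_one hB (v := x) (w := c • e) (by rintro rfl; simp at hx)
    (smul_ne_zero hc0 he0) (by simp [he, ← hc, mul_comm])
  refine ⟨⟨k, hk⟩, conj_mem_stabSub (U := Submodule.span F {x}) ?_ fun y hy => ?_⟩
  · rw [Submodule.map_span, Set.image_singleton, ← Submodule.span_singleton_smul_eq hc0.isUnit e,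
      ← h]
    rfl
  · obtain ⟨d, rfl⟩ := Submodule.mem_span_singleton.mp hy
    exact Submodule.mem_span_singleton.mpr ⟨d * a, by simp [ha, smul_smul]⟩

theorem cov4 (hq : QConj σ q) (hH : IsHerm B) (hB : B.SeparatingLeft) (h4 : finrank F V = 4) :
    Cov (SIsom B ⧸ Subgroup.center (SIsom B)) := by
  have := hq.finite
  obtain ⟨e, he⟩ := hH.exists_self_eq hB (by omega) (map_one σ)
  have he0 : e ≠ 0 := by rintro rfl; simp at he
  obtain ⟨W, hW, hW2, -⟩ : ∃ W : Submodule F V, (∀ x ∈ W, ∀ y ∈ W, B x y = 0) ∧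
      finrank F W = 2 ∧ True := by
    obtain ⟨u, f, hu, hf, huf⟩ := hH.exists_pair hB (by omega)
    have h3 := hH.form.finrank_hperp hB hu hf huf
    obtain ⟨w, hw0, hw⟩ := (hH.pull (hperp B u f).subtype).exists_isotropic
      (hH.form.separatingLeft_hperp hB hu hf huf) (by omega)
    obtain ⟨hvw, hfw⟩ := mem_hperp.mp w.2
    have hww : B w.1 w.1 = 0 := hw
    refine ⟨Submodule.span F {u, w.1}, fun x hx y hy => ?_, ?_, trivial⟩
    · obtain ⟨a, b, rfl⟩ := Submodule.mem_span_pair.mp hx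
      obtain ⟨a', b', rfl⟩ := Submodule.mem_span_pair.mp hy
      simp [hu, hvw, hww, hH.refl hvw]
    · have hl : LinearIndependent F ![u, w.1] := by
        rw [LinearIndependent.pair_iff]
        intro s t hst
        have h5 := congrArg (B f) hst
        simp only [map_add, map_smul, hH.flip_one huf, hfw, smul_eq_mul, mul_one, mul_zero,
          add_zero, map_zero] at h5
        rw [h5, zero_smul, zero_add, smul_eq_zero] at hst
        exact ⟨h5, hst.resolve_right fun h => hw0 (Subtype.ext h)⟩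
      have := finrank_span_eq_card hl
      rwa [Matrix.range_cons, Matrix.range_cons, Matrix.range_empty, Set.union_empty] at this
  refine cov_quot (SIsom B) (stabSub B _ (Submodule.span F {e})) (stabSub B _ W)
    (stabSub_ne_top hH hB (by simp [finrank_span_singleton he0])
      (by simp [finrank_span_singleton he0, h4]))
    (stabSub_ne_top hH hB (by omega) (by omega))
    (point_det hH hB (by omega) (by simp [he])) (fun l => ?_)
    (fun z hz => ⟨center_stab hH hB (by omega) _ hz, center_stab hH hB (by omega) _ hz⟩)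
    fun g _ => ?_
  · obtain ⟨u, huW, hu0⟩ := Submodule.exists_mem_ne_zero_of_ne_bot (p := W) (by
      rintro rfl; simp at hW2)
    have hu := hW u huW u huW
    obtain ⟨f, hf, huf⟩ := hH.form.exists_partner hB hu hu0
    obtain ⟨a, ha0, ha⟩ := exists_div_conj hH.ne hH.invol (det_normOne hH hB (by omega) l)
    refine ⟨hH.dil hu hf huf ha0, mem_stabSub_of_le fun x hx => ?_, inv_mul_mem ?_⟩
    · rw [IsHerm.dil_apply, hW u huW x hx, mul_zero, zero_smul, add_zero]
      exact W.add_mem hx (W.smul_mem _ huW)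
    · rw [IsHerm.det_dil]
      have : σ a ≠ 0 := by simpa using ha0
      rw [mul_inv_eq_iff_eq_mul₀ this, ha]
  · rcases four_dim hq hH hB (T := g.1.toLinearMap) g.2.1 h4 with ⟨x, hx, a, ha⟩ | ⟨U, h1, h2, h3⟩
    · obtain ⟨k, hk⟩ := point_conj hH hB he hx ha
      exact ⟨k, Or.inl hk⟩
    · obtain ⟨k, hk, h⟩ := hH.form.exists_map_eq_totSing hB (W := U) (W' := W)
        ⟨fun x hx => h1 x hx x hx, h1⟩ ⟨fun x hx => hW x hx x hx, hW⟩ (by omega)
      exact ⟨⟨k, hk⟩, Or.inr (conj_mem_stabSub h h3)⟩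

/-- Part C of S2500. -/
theorem psu4 {F : Type} [Field F] [Fintype F] :
    ∀ q : ℕ, Fintype.card F = q ^ 2 → (∃ H K : Subgroup (Cfsg.PSU 4 F q), H ≠ ⊤ ∧ K ≠ ⊤ ∧
      ∀ g : (Cfsg.PSU 4 F q), ∃ x : (Cfsg.PSU 4 F q), x * g * x⁻¹ ∈ H ∨ x * g * x⁻¹ ∈ K) :=
  fun _ hF => (cov4 (qConj_conjQ hF) ((qConj_conjQ hF).isHerm _) (hermB_sep _)
    (by simp)).congr (psuEquiv (qConj_conjQ hF) 4)

end Cfsg.Agent.H27.Cv
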