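import Mathlib
import Cfsg.Agent.H27.Cv2

/-! Two-covering of `PSU₃(3 ^ a)`. -/

set_option autoImplicit false
set_option linter.unusedSectionVars false

namespace Cfsg.Agent.H27.Cv

open Module Polynomial H11 L0 H10

variable {F : Type} [Field F] {V : Type} [AddCommGroup V] [Module F V] [FiniteDimensional F V]
  {σ : F →+* F} {q : ℕ} {B : V →ₛₗ[σ] V →ₗ[F] F}

theorem ti_of_iso (hH : IsHerm B) {W : Submodule F V} (h : ∀ x ∈ W, B x x = 0) :
    ∀ x ∈ W, ∀ y ∈ W, B x y = 0 := by
  intro x hx y hy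
  have key : ∀ c : F, c * B x y + σ (c * B x y) = 0 := fun c => by
    have := h _ (W.add_mem hx (W.smul_mem c hy))
    simp only [map_add, LinearMap.map_smulₛₗ₂, map_smul, LinearMap.add_apply, smul_eq_mul,
      LinearMap.smul_apply, h x hx, h y hy, ← hH.symm x y] at this
    rw [map_mul]
    linear_combination this
  by_contra hne
  obtain ⟨t, ht⟩ := exists_trace_eq hH.ne hH.invol (map_one σ)
  have := key (t / B x y)
  rw [div_mul_cancel₀ _ hne, ht] at this
  exact one_ne_zero this

theorem three_dim [CharP F 3] (hq : QConj σ q) (hH : IsHerm B) (hB : B.SeparatingLeft)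
    {T : End F V} (hi : ∀ x y, B (T x) (T y) = B x y) (h3 : finrank F V = 3)
    (hd : LinearMap.det T = 1) :
    (∃ x, B x x ≠ 0 ∧ ∃ a : F, T x = a • x) ∨ tyE T = {(X - 1) ^ 3} ∨
      ∃ p : F[X], Irreducible p ∧ p.Monic ∧ tyE T = {p} ∧ p.natDegree = 3 ∧
        AdjoinRoot.root p ^ (q ^ 3) * AdjoinRoot.root p = 1 := by
  have := hq.finite
  by_cases hne : ∃ x, B x x ≠ 0 ∧ ∃ a : F, T x = a • x
  · exact Or.inl hne
  right
  obtain ⟨U, hU0, hU, hmin, h⟩ := exists_min hq hH hB hi (by omega)
  have hp : 0 < finrank F U := Nat.pos_of_ne_zero fun h => hU0 (Submodule.finrank_eq_zero.mp h)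
  rcases h with h | ⟨hn, k, hk⟩
  · left
    have := hH.form.two_mul_finrank_le hB (W := U) ⟨fun x hx => h x hx x hx, h⟩
    obtain ⟨v, hvU, hv0, -, l, hT⟩ := eig_of_one hU (by omega)
    have hv := h v hvU v hvU
    obtain ⟨f, hf, hvf⟩ := hH.form.exists_partner hB hv hv0
    obtain ⟨T', h1, h2⟩ := exists_red hH hi hv hvf hT
    have h4 := hH.form.finrank_hperp hB hv hf hvf
    obtain ⟨w, -, hw0, hw, m, hm⟩ := eig_of_one (T := T') (U := ⊤) (fun _ _ => trivial)
      (by rw [finrank_top]; omega)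
    have hww : B w.1 w.1 ≠ 0 := fun h0 => hw0 (hH.form.separatingLeft_hperp hB hv hf hvf w
      fun y => by
        obtain ⟨c, rfl⟩ := hw y trivial
        simp [pull_apply, h0])
    obtain ⟨c, hc⟩ := h2 w
    rw [hm] at hc
    obtain ⟨hvw, hfw⟩ := mem_hperp.mp w.2
    have hml : m = l := by
      by_contra h0
      exact hne (step hH hv hvw hT hc hww h0)
    subst hml
    have hm1 : σ m * m = 1 := by
      have := h1 w w
      rw [hm] at this
      simp only [SetLike.val_smul, LinearMap.map_smulₛₗ₂, map_smul, smul_eq_mul,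
        LinearMap.smul_apply] at this
      exact mul_right_cancel₀ hww (by linear_combination this)
    let N : End F V := T - algebraMap F (End F V) m
    have hN : ∀ x, N x = T x - m • x := fun _ => rfl
    have n1 : N v = 0 := by rw [hN, hT, sub_self]
    have n2 : ∀ x, B v x = 0 → ∃ d : F, N x = d • v := fun x hx => by
      obtain ⟨d, hd⟩ := hw ⟨x - B f x • v, mem_hperp.mpr
        ⟨by simp [hx, hv], by simp [hH.flip_one hvf]⟩⟩ trivial
      have hd' : d • w.1 = x - B f x • v := congrArg Subtype.val hd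
      refine ⟨d * c, ?_⟩
      rw [show x = d • w.1 + B f x • v by rw [hd', sub_add_cancel], map_add, map_smul, map_smul,
        n1, hN, hc]
      simp only [SetLike.val_smul]
      module
    have n3 : ∀ x, B v (N x) = 0 := fun x => by
      have := hi v x
      rw [hT] at this
      simp only [LinearMap.map_smulₛₗ₂, smul_eq_mul, LinearMap.smul_apply] at this
      rw [hN, map_sub, map_smul, ← this, smul_eq_mul]
      linear_combination -(B v (T x)) * hm1
    have hN3 : N ^ 3 = 0 := by
      ext x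
      obtain ⟨d, hd⟩ := n2 _ (n3 x)
      simp [pow_succ, hd, n1]
    have : Nontrivial V := (Module.finrank_pos_iff (R := F)).mp (by omega)
    have : CharP (End F V) 3 := charP_of_injective_algebraMap (algebraMap F (End F V)).injective 3
    have hT3 : T ^ 3 = algebraMap F (End F V) (m ^ 3) := by
      have := sub_pow_char_of_commute 3 (Algebra.commutes m T).symm
      rw [map_pow, ← sub_eq_zero, ← this]
      exact hN3
    have hm9 : m = 1 := by
      have h5 := congrArg LinearMap.det hT3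
      rw [map_pow, hd, one_pow, Algebra.algebraMap_eq_smul_one, LinearMap.det_smul, h3, map_one,
        mul_one, ← pow_mul] at h5
      have : (m - 1) ^ 3 ^ 2 = 0 := by
        rw [sub_pow_char_pow, one_pow, show 3 ^ 2 = 3 * 3 by norm_num, ← h5, sub_self]
      exact sub_eq_zero.mp (pow_eq_zero_iff (by norm_num) |>.mp this)
    subst hm9
    rw [← h3]
    refine tyE_reg ⟨3, by simpa [N] using hN3⟩ ?_ (by omega)
    have h6 := ti_of_iso hH (W := LinearMap.ker (T - 1)) fun x hx => by
      by_contra h0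
      exact hne ⟨x, h0, 1, by simpa [sub_eq_zero] using hx⟩
    have := hH.form.two_mul_finrank_le hB (W := LinearMap.ker (T - 1))
      ⟨fun x hx => h6 x hx x hx, h6⟩
    omega
  · right
    have := Submodule.finrank_le U
    by_cases h1 : finrank F U = 1
    · exact absurd (eig_nondeg hU hn h1) hne
    have hU3 : U = ⊤ := Submodule.eq_top_of_finrank_eq (by omega)
    subst hU3
    obtain ⟨-, p, h2, h4, h5, h6, h7⟩ := irr_herm hq hH hB hi (by omega)
      fun W hW => hmin W le_top hW
    exact ⟨p, h2, h4, h5, h6.trans h3, h7 h3⟩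

section model

variable {E : Type} [Field E] [Algebra F E] [FiniteDimensional F E]

/-- The trace form of a twisted field extension. -/
noncomputable def trB (ρ : E →+* E) (h : ∀ a, ρ (algebraMap F E a) = algebraMap F E (σ a)) :
    E →ₛₗ[σ] E →ₗ[F] F :=
  LinearMap.mk₂'ₛₗ σ (RingHom.id F) (fun x y => Algebra.trace F E (ρ x * y))
    (fun _ _ _ => by simp [add_mul])
    (fun c x y => by
      rw [Algebra.smul_def, map_mul ρ, h, mul_assoc, ← Algebra.smul_def, map_smul])
    (fun _ _ _ => by simp [mul_add])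
    (fun c x y => by simp)

theorem trB_apply {ρ : E →+* E} (h : ∀ a, ρ (algebraMap F E a) = algebraMap F E (σ a)) (x y : E) :
    trB ρ h x y = Algebra.trace F E (ρ x * y) := rfl

/-- The semilinear isometries. -/
def nrmz (B : E →ₛₗ[σ] E →ₗ[F] F) : Subgroup (UIsom B) where
  carrier := {g | (∀ c, ∃ c', ∀ y, g.1 (c * y) = c' * g.1 y) ∧
    ∀ c', ∃ c, ∀ y, g.1 (c * y) = c' * g.1 y}
  one_mem' := ⟨fun c => ⟨c, fun _ => rfl⟩, fun c => ⟨c, fun _ => rfl⟩⟩
  mul_mem' {a b} ha hb := ⟨fun c => by
      obtain ⟨c', h1⟩ := hb.1 c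
      obtain ⟨c'', h2⟩ := ha.1 c'
      exact ⟨c'', fun y => by simp [h1, h2]⟩, fun c'' => by
      obtain ⟨c', h2⟩ := ha.2 c''
      obtain ⟨c, h1⟩ := hb.2 c'
      exact ⟨c, fun y => by simp [h1, h2]⟩⟩
  inv_mem' {a} ha := ⟨fun c => by
      obtain ⟨c', h1⟩ := ha.2 c
      exact ⟨c', fun y => a.1.injective (by simp [h1])⟩, fun c => by
      obtain ⟨c', h1⟩ := ha.1 c
      exact ⟨c', fun y => a.1.injective (by simp [h1])⟩⟩

theorem nrmz_ne_top [Finite F] {B : E →ₛₗ[σ] E →ₗ[F] F} (hH : IsHerm B) (hB : B.SeparatingLeft)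
    (h3 : finrank F E = 3) : nrmz B ≠ ⊤ := fun h => by
  obtain ⟨e, he⟩ := hH.exists_self_eq hB (by omega) (map_one σ)
  have he' : B e e ≠ 0 := by simp [he]
  obtain ⟨t, ht1, ht⟩ := exists_norm_one_ne_one hH.ne hH.invol
  have hr : hH.qref he' ht ∈ nrmz B := h ▸ Subgroup.mem_top _
  have key : ∀ c : E, ∃ x : E, x ≠ 0 ∧ B e x = 0 ∧ B e (c * x) = 0 := fun c => by
    let L : E →ₗ[F] F × F := (B e).prod ((B e).comp (LinearMap.mulLeft F c))
    have h1 := L.finrank_range_add_finrank_ker
    have h2 := Submodule.finrank_le (LinearMap.range L)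
    simp only [finrank_prod, finrank_self] at h2
    obtain ⟨x, hx, hx0⟩ := Submodule.exists_mem_ne_zero_of_ne_bot (p := LinearMap.ker L) (by
      intro h0; rw [h0, finrank_bot] at h1; omega)
    exact ⟨x, hx0, congrArg Prod.fst hx, congrArg Prod.snd hx⟩
  have k2 : ∀ c y, (hH.qref he' ht).1 (c * y) = c * (hH.qref he' ht).1 y := fun c => by
    obtain ⟨c', hc⟩ := hr.1 c
    obtain ⟨x, hx0, h1, h2⟩ := key c
    have := hc x
    rw [hH.qref_of_perp he' ht h1, hH.qref_of_perp he' ht h2] at this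
    obtain rfl := mul_right_cancel₀ hx0 this
    exact hc
  obtain ⟨x, hx0, h1, -⟩ := key 1
  have := k2 (e / x) x
  rw [hH.qref_of_perp he' ht h1, div_mul_cancel₀ _ hx0, hH.qref_self] at this
  have h4 := congrArg (B e) this
  rw [map_smul, he, smul_eq_mul, mul_one] at h4
  exact ht1 h4

theorem cov3_model [CharP F 3] (hq : QConj σ q) (hq3 : 3 ∣ q) (h3 : finrank F E = 3) :
    ∃ B : E →ₛₗ[σ] E →ₗ[F] F, IsHerm B ∧ B.SeparatingLeft ∧
      Cov (SIsom B ⧸ Subgroup.center (SIsom B)) := by
  have := hq.finite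
  have := Fintype.ofFinite F
  have hF : Fintype.card F = q ^ 2 := by rw [← hq.card, Nat.card_eq_fintype_card]
  have : Finite E := Module.finite_of_finite F
  have := Fintype.ofFinite E
  have hE : Fintype.card E = q ^ 6 := by
    rw [Module.card_eq_pow_finrank (K := F), hF, h3, ← pow_mul]
  obtain ⟨ρ, hρ⟩ := exists_qpow hq E 3
  have h1 : ∀ a, ρ (algebraMap F E a) = algebraMap F E (σ a) := fun a => by
    rw [hρ, ← map_pow, show q ^ 3 = q * q * q by ring, pow_mul, pow_mul, ← hq.eq, ← hq.eq,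
      ← hq.eq, hq.invol]
  have h2 : ∀ x, ρ (ρ x) = x := fun x => by
    rw [hρ, hρ, ← pow_mul, ← pow_add, ← hE, FiniteField.pow_card]
  have htr : ∀ x, σ (Algebra.trace F E x) = Algebra.trace F E (ρ x) := fun x => by
    apply (algebraMap F E).injective
    rw [← h1, FiniteField.algebraMap_trace_eq_sum_pow, FiniteField.algebraMap_trace_eq_sum_pow]
    simp
  have hH : IsHerm (trB ρ h1) := ⟨hq.ne_id, hq.invol, fun x y => by
    rw [trB_apply, trB_apply, htr, map_mul, h2, mul_comm]⟩
  have hB : (trB ρ h1).SeparatingLeft := fun x hx => by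
    by_contra hx0
    have hx1 : ρ x ≠ 0 := by simpa using hx0
    obtain ⟨z, hz⟩ := Algebra.trace_surjective F E 1
    have := hx ((ρ x)⁻¹ * z)
    rw [trB_apply, mul_inv_cancel_left₀ hx1, hz] at this
    exact one_ne_zero this
  refine ⟨trB ρ h1, hH, hB, ?_⟩
  obtain ⟨e, he⟩ := hH.exists_self_eq hB (by omega) (map_one σ)
  have he0 : e ≠ 0 := by rintro rfl; simp at he
  have hsc : ∀ a, IsHerm.scalU (trB ρ h1) a ∈ nrmz (trB ρ h1) := fun a =>
    ⟨fun c => ⟨c, fun y => by simp [IsHerm.scalU_apply]⟩,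
      fun c => ⟨c, fun y => by simp [IsHerm.scalU_apply]⟩⟩
  refine cov_quot (SIsom _) (stabSub _ _ (Submodule.span F {e})) (nrmz _)
    (stabSub_ne_top hH hB (by simp [finrank_span_singleton he0])
      (by simp [finrank_span_singleton he0, h3]))
    (nrmz_ne_top hH hB h3) (point_det hH hB (by omega) (by simp [he])) (fun l => ?_)
    (fun z hz => ⟨center_stab hH hB (by omega) _ hz, ?_⟩) fun g hg => ?_
  · have hc : (Nat.card (normOne σ)).Coprime 3 := by
      rw [hq.card_normOne]
      obtain ⟨k, rfl⟩ := hq3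
      rw [Nat.coprime_comm, add_comm, Nat.coprime_add_mul_left_right]
      simp
    obtain ⟨a, ha⟩ := (powCoprime hc).surjective
      ⟨detI _ _ l, mem_normOne.mpr (det_normOne hH hB (by omega) l)⟩
    refine ⟨_, hsc a, inv_mul_mem ?_⟩
    rw [← detI_coe, IsHerm.det_scalU, h3]
    exact congrArg (fun x : normOne σ => (x.1 : F)) ha
  · obtain ⟨a, ha⟩ := (hH.mem_center_sisom hB (by omega) z).mp hz
    rw [ha]; exact hsc a
  · have fin : ∀ k ∈ nrmz (trB ρ h1), tyE g.1.toLinearMap = tyE k.1.toLinearMap →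
        ∃ x, x * g * x⁻¹ ∈ stabSub (trB ρ h1) (fun x => trB ρ h1 x x) (Submodule.span F {e}) ∨
          x * g * x⁻¹ ∈ nrmz (trB ρ h1) := fun k hk h => by
      obtain ⟨x, hx⟩ := isConj_iff.mp (isConj_herm hH hB h)
      exact ⟨x, Or.inr (hx ▸ hk)⟩
    rcases three_dim hq hH hB (T := g.1.toLinearMap) g.2.1 h3 (mem_sisom.mp hg) with
      ⟨x, hx, a, ha⟩ | h | ⟨p, hp, hm, ht, hd, hr⟩
    · obtain ⟨k, hk⟩ := point_conj hH hB he hx ha
      exact ⟨k, Or.inl hk⟩
    · let φ := FiniteField.frobeniusAlgEquivOfAlgebraic F E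
      have hφ : ∀ x, φ x = x ^ q ^ 2 := fun x => by rw [← hF]; rfl
      have hc : ∀ x, ρ (φ x) = φ (ρ x) := fun x => by rw [hφ, hφ, map_pow]
      refine fin ⟨φ.toLinearEquiv, mem_uisom.mpr fun x y => ?_⟩
        ⟨fun c => ⟨φ c, fun y => map_mul φ c y⟩,
          fun c => ⟨φ.symm c, fun y => (map_mul φ _ y).trans (by simp)⟩⟩ ?_
      · change Algebra.trace F E (ρ (φ x) * φ y) = _
        rw [hc, ← map_mul, Algebra.trace_eq_of_algEquiv, trB_apply]
      · rw [h, ← h3]
        have : CharP (End F E) 3 :=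
          charP_of_injective_algebraMap (algebraMap F (End F E)).injective 3
        refine (tyE_reg ⟨3, ?_⟩ ?_ (by omega)).symm
        · rw [sub_pow_char_of_commute 3 (Commute.one_right _), one_pow, sub_eq_zero]
          ext x
          change φ (φ (φ x)) = x
          rw [hφ, hφ, hφ, ← pow_mul, ← pow_mul, ← pow_add, ← pow_add, ← hE, FiniteField.pow_card]
        · have : LinearMap.ker (φ.toLinearEquiv.toLinearMap - 1) ≤ Submodule.span F {1} := by
            intro x hx
            have hx' : φ x = x := by simpa [sub_eq_zero] using hx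
            have : x ∈ (⊥ : IntermediateField F E) := by
              rw [IsGalois.mem_bot_iff_fixed]
              intro ψ
              obtain ⟨⟨i, -⟩, rfl⟩ :=
                (FiniteField.bijective_frobeniusAlgEquivOfAlgebraic_pow F E).2 ψ
              simp only [AlgEquiv.coe_pow]
              exact Function.iterate_fixed hx' i
            obtain ⟨a, rfl⟩ := IntermediateField.mem_bot.mp this
            exact Submodule.mem_span_singleton.mpr ⟨a, (Algebra.algebraMap_eq_smul_one a).symm⟩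
          exact (Submodule.finrank_mono this).trans (finrank_span_singleton one_ne_zero).le
    · have : Fact (Irreducible p) := ⟨hp⟩
      have : FiniteDimensional F (AdjoinRoot p) := (AdjoinRoot.powerBasis hp.ne_zero).finite
      have : Finite (AdjoinRoot p) := Module.finite_of_finite F
      have hfr : finrank F (AdjoinRoot p) = finrank F E := by
        rw [h3, ← hd]; exact (AdjoinRoot.powerBasis hp.ne_zero).finrank
      obtain ⟨ι⟩ := FiniteField.nonempty_algHom_of_finrank_dvd (F := F) (K := AdjoinRoot p)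
        (L := E) hfr.dvd
      have hb : Function.Bijective ι.toLinearMap :=
        ⟨ι.toRingHom.injective, (LinearMap.injective_iff_surjective_of_finrank_eq_finrank hfr).mp
          ι.toRingHom.injective⟩
      set β := ι (AdjoinRoot.root p) with hβ
      have hβ1 : ρ β * β = 1 := by rw [hρ, hβ, ← map_pow, ← map_mul, hr, map_one]
      obtain ⟨k, hk, hk'⟩ := IsForm.exists_isom_of_linear (Q := fun x => trB ρ h1 x x) hB
        (LinearMap.mulLeft F β) (fun x y => by
          simp only [trB_apply, LinearMap.mulLeft_apply, map_mul]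
          congr 1
          linear_combination (ρ x * y) * hβ1) (fun x => by
          simp only [trB_apply, LinearMap.mulLeft_apply, map_mul]
          congr 1
          linear_combination (ρ x * x) * hβ1)
      refine fin ⟨k, hk⟩ ⟨fun c => ⟨c, fun y => by simp [hk', mul_left_comm]⟩,
        fun c => ⟨c, fun y => by simp [hk', mul_left_comm]⟩⟩ ?_
      rw [ht, ← tyE_mulLeft_root (Prim.of_irreducible hp hm)]
      exact tyE_congr (LinearEquiv.ofBijective _ hb) fun c => by
        change ι (AdjoinRoot.root p * c) = k (ι c)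
        rw [hk', map_mul]; rfl

end model

/-- Part B of S2500. -/
theorem psu3 {F : Type} [Field F] [Fintype F] :
    ∀ q a : ℕ, Fintype.card F = q ^ 2 → 1 ≤ a → q = 3 ^ a → (∃ H K : Subgroup (Cfsg.PSU 3 F q),
      H ≠ ⊤ ∧ K ≠ ⊤ ∧ ∀ g : (Cfsg.PSU 3 F q), ∃ x : (Cfsg.PSU 3 F q),
        x * g * x⁻¹ ∈ H ∨ x * g * x⁻¹ ∈ K) := by
  intro q a hF ha hqa
  have hq := qConj_conjQ hF
  have : Fact (Nat.Prime 3) := ⟨Nat.prime_three⟩
  have : CharP F 3 := charP_of_card_eq_prime_pow (f := a * 2) (by rw [hF, hqa, pow_mul])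
  obtain ⟨u, hu, -, -, hd, -⟩ := exists_singer F (d := 3) (by norm_num)
  have : Fact (Irreducible u) := ⟨hu⟩
  have : FiniteDimensional F (AdjoinRoot u) := (AdjoinRoot.powerBasis hu.ne_zero).finite
  have hfr : finrank F (AdjoinRoot u) = 3 := by
    rw [← hd]; exact (AdjoinRoot.powerBasis hu.ne_zero).finrank
  obtain ⟨B, hH, hB, h⟩ := cov3_model (E := AdjoinRoot u) hq
    (hqa ▸ dvd_pow_self 3 (by omega)) hfr
  obtain ⟨e, he⟩ := (hq.isHerm (Fin 3)).exists_equiv (hermB_sep _) hH hB (by simp [hfr])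
  refine h.congr ((psuEquiv hq 3).trans (quotCenterEquiv
    (subgroupEquivOfIff (isomCongr e he fun x => he x x) _ _ fun g => ?_)))
  rw [mem_sisom, mem_sisom, ← LinearMap.det_conj _ e]
  rfl

end Cfsg.Agent.H27.Cv
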