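import Mathlib
import Cfsg.Agent.H27.CycExt

/-! Stem extensions of dihedral groups. -/

namespace Cfsg.Agent.H27

open Subgroup DihedralGroup
open scoped commutatorElement

theorem dih_mem_zp {n : ℕ} [NeZero n] (i : ZMod n) :
    (r i : DihedralGroup n) ∈ zpowers (r 1 : DihedralGroup n) :=
  ⟨(i.val : ℕ), by simp⟩

theorem dih_mem_zp' {n : ℕ} {x : DihedralGroup n} (h : x ∈ zpowers (r 1 : DihedralGroup n)) :
    ∃ i, x = r i := by
  obtain ⟨k, rfl⟩ := h
  exact ⟨k, by simp⟩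

theorem dih_normal_zp (n : ℕ) [NeZero n] : (zpowers (r 1 : DihedralGroup n)).Normal := by
  constructor
  intro x hx g
  obtain ⟨i, rfl⟩ := dih_mem_zp' hx
  rcases g with j | j
  · exact dih_mem_zp _
  · exact dih_mem_zp _

theorem dih_gen (n : ℕ) [NeZero n] :
    zpowers (r 1 : DihedralGroup n) ⊔ zpowers (sr 0 : DihedralGroup n) = ⊤ := by
  rw [eq_top_iff]
  rintro (i | i) -
  · exact mem_sup_left (dih_mem_zp i)
  · have : (sr i : DihedralGroup n) = r (-i) * sr 0 := by simp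
    rw [this]
    exact mul_mem_sup (dih_mem_zp _) (mem_zpowers _)

theorem dih_comm_eq (n : ℕ) : ⁅(sr 0 : DihedralGroup n), (r 1 : DihedralGroup n)⁆ =
    ((r 1 : DihedralGroup n) ^ 2)⁻¹ := by
  rw [commutatorElement_def, sq]
  simp

theorem dih_card_ker_dvd (n : ℕ) [NeZero n] {Γ : Type*} [Group Γ] [Finite Γ]
    {τ : Γ →* DihedralGroup n} (hτ : IsStemExtension τ) : Nat.card τ.ker ∣ n.gcd 2 := by
  obtain ⟨x, hx⟩ := hτ.1 (r 1)
  obtain ⟨y, hy⟩ := hτ.1 (sr 0)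
  haveI : (zpowers (τ x)).Normal := hx ▸ dih_normal_zp n
  have h1 := meta_card_ker hτ x y (by rw [hx, hy]; exact dih_gen n)
  have h2 := meta_comm_pow_eq_one hτ.2.1 x y n 0 (by rw [hx, hy]; simp)
  rw [hx, hy, dih_comm_eq, orderOf_inv, orderOf_pow' _ two_ne_zero, orderOf_r_one] at h1
  have h4 := orderOf_dvd_of_pow_eq_one h2
  rw [← h1] at h4
  have h5 : n = n.gcd 2 * (n / n.gcd 2) := (Nat.mul_div_cancel' (Nat.gcd_dvd_left n 2)).symm
  have h6 : 0 < n / n.gcd 2 :=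
    Nat.div_pos (Nat.le_of_dvd (NeZero.pos n) (Nat.gcd_dvd_left n 2)) (Nat.gcd_pos_of_pos_right _ two_pos)
  exact Nat.dvd_of_mul_dvd_mul_right h6 (by rw [← h5]; exact h4)

end Cfsg.Agent.H27
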