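import Mathlib
import Cfsg.Agent.H9.Mod1
import Cfsg.Agent.H6.Kernel
import Cfsg.Agent.H7.Ind

/-!
Frobenius' conjecture when the `p'`-part of the order is the product of the orders of two subgroups
of coprime orders.
-/

set_option autoImplicit false
set_option linter.unusedSectionVars false

namespace Cfsg.Agent.H27.Fc

open MonoidAlgebra Cfsg Module Polynomial
open Cfsg.Agent.H8 (locRing up chiL)
open Cfsg.Agent.H7 (ip ind)
open Cfsg.Agent.H9 (PMod projChar)
open scoped ComplexConjugate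

variable {G : Type*} [Group G] [Finite G]

theorem chiL_le {e y u v : ℂ[G]} (he : e * e = e) (hy : y * y = y) (h : e = u * y * v)
    {χ : G → ℂ} (hχ : IsCharacter G χ) : ∃ n m : ℕ, chiL χ e = n ∧ chiL χ y = m ∧ n ≤ m := by
  obtain ⟨n, ρ, rfl⟩ := hχ
  rw [H8.chiL_character, H8.chiL_character]
  refine ⟨_, _, (LinearMap.IsIdempotentElem.isProj_range _ (show IsIdempotentElem (ρ.asAlgebraHom e) by
    rw [IsIdempotentElem, ← map_mul, he])).trace,
    (LinearMap.IsIdempotentElem.isProj_range _ (show IsIdempotentElem (ρ.asAlgebraHom y) by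
    rw [IsIdempotentElem, ← map_mul, hy])).trace, ?_⟩
  rw [h, map_mul, map_mul]
  calc finrank ℂ (LinearMap.range (ρ.asAlgebraHom u * ρ.asAlgebraHom y * ρ.asAlgebraHom v))
      ≤ finrank ℂ (LinearMap.range (ρ.asAlgebraHom u * ρ.asAlgebraHom y)) :=
        Submodule.finrank_mono (LinearMap.range_comp_le_range _ _)
    _ ≤ finrank ℂ (LinearMap.range (ρ.asAlgebraHom y)) := by
        rw [Module.End.mul_eq_comp, LinearMap.range_comp]
        exact Submodule.finrank_map_le _ _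

theorem chiL_one_eq (a : ℂ[G]) : chiL (1 : G → ℂ) a = MonoidAlgebra.lift ℂ ℂ G 1 a := by
  induction a using MonoidAlgebra.induction_linear with
  | zero => simp
  | add a b ha hb => rw [map_add, map_add, ha, hb]
  | single g c => rw [H8.chiL_single]; simp

theorem exists_pm {p : ℕ} (hp : p.Prime) : ∃ M : Ideal AlgInt, IsPModular p M := by
  have hne : Ideal.span {(p : AlgInt)} ≠ ⊤ := by
    intro h
    rw [Ideal.span_singleton_eq_top] at h
    obtain ⟨u, hu⟩ := h.exists_right_inv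
    have h1 : (p : ℂ) * (u : ℂ) = 1 := by simpa using congrArg (fun z : AlgInt => (z : ℂ)) hu
    have h0 : (p : ℂ) ≠ 0 := Nat.cast_ne_zero.2 hp.ne_zero
    have h2 : (u : ℂ) = algebraMap ℚ ℂ ((p : ℚ)⁻¹) := by
      rw [map_inv₀, map_natCast]; exact eq_inv_of_mul_eq_one_right h1
    have h3 : IsIntegral ℤ ((p : ℚ)⁻¹) := by
      have := u.2
      rw [mem_integralClosure_iff, h2] at this
      exact (isIntegral_algebraMap_iff (algebraMap ℚ ℂ).injective).1 this
    obtain ⟨z, hz⟩ := IsIntegrallyClosed.isIntegral_iff.1 h3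
    have h4 : (z : ℚ) * p = 1 := by
      have : (z : ℚ) = (p : ℚ)⁻¹ := by simpa using hz
      rw [this, inv_mul_cancel₀ (Nat.cast_ne_zero.2 hp.ne_zero)]
    have h5 : z * p = 1 := by exact_mod_cast h4
    have h6 : (p : ℤ) ∣ 1 := ⟨z, by rw [mul_comm]; exact h5.symm⟩
    exact hp.one_lt.ne' (Nat.dvd_one.1 (by exact_mod_cast h6))
  obtain ⟨M, hM, hle⟩ := Ideal.exists_le_maximal _ hne
  exact ⟨M, hp, hM, hle (Ideal.mem_span_singleton_self _)⟩

/-- A character vanishing on `p`-singular elements below both permutation characters. -/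
theorem exists_phi {p : ℕ} (hp : p.Prime) (A B : Subgroup G) (hA : ¬ p ∣ Nat.card A)
    (hB : ¬ p ∣ Nat.card B) : ∃ Φ : G → ℂ, IsCharacter G Φ ∧ (∀ g, p ∣ orderOf g → Φ g = 0) ∧
      ip Φ 1 = 1 ∧ ∀ χ, IsIrrCharacter G χ → ∃ n a b : ℕ, ip Φ χ = n ∧
        ip (fun x : A => χ x) 1 = a ∧ ip (fun x : B => χ x) 1 = b ∧ n ≤ a ∧ n ≤ b := by
  obtain ⟨M, hM⟩ := exists_pm hp
  haveI : M.IsMaximal := hM.2.1
  haveI : Fact p.Prime := ⟨hp⟩
  haveI : PMod M p := ⟨hM⟩
  obtain ⟨y, hy, hy'⟩ := H9.exists_idem_ip (M := M) hA A.subtype 1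
  obtain ⟨z, hz, hz'⟩ := H9.exists_idem_ip (M := M) hB B.subtype 1
  obtain ⟨g, hg, hg0, hg1⟩ := H9.exists_idem_poly (M := M) (y * z)
  have hy1 : ∀ θ : G → ℂ, ip (fun x : A => θ x) 1 = chiL θ (up M y) := fun θ => hy' θ
  have hz1 : ∀ θ : G → ℂ, ip (fun x : B => θ x) 1 = chiL θ (up M z) := fun θ => hz' θ
  obtain ⟨h, hh⟩ : X ∣ g := X_dvd_iff.2 (by rw [coeff_zero_eq_eval_zero, hg0])
  set e := aeval (y * z) g with he
  have e1 : e = y * z * aeval (y * z) h := by rw [he, hh, map_mul, aeval_X]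
  have u1 : up M e * up M e = up M e := by rw [← map_mul, hg]
  have u2 : up M y * up M y = up M y := by rw [← map_mul, hy]
  have u3 : up M z * up M z = up M z := by rw [← map_mul, hz]
  have key : ∀ χ, IsCharacter G χ → ∃ n a b : ℕ, ip (projChar (up M e)) χ = n ∧
        ip (fun x : A => χ x) 1 = a ∧ ip (fun x : B => χ x) 1 = b ∧ n ≤ a ∧ n ≤ b := by
    intro χ hχ
    obtain ⟨n, a, h1, h2, h3⟩ := chiL_le u1 u2 (u := 1) (v := up M (z * aeval (y * z) h))
      (by rw [one_mul, ← map_mul, ← mul_assoc, ← e1]) hχ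
    obtain ⟨n', b, h4, h5, h6⟩ := chiL_le u1 u3 (u := up M y) (v := up M (aeval (y * z) h))
      (by rw [← map_mul, ← map_mul, ← e1]) hχ
    have : n' = n := by exact_mod_cast h4.symm.trans h1
    subst this
    exact ⟨n', a, b, by rw [H9.ip_projChar _ hχ, h1], by rw [hy1, h2], by rw [hz1, h5], h3, h6⟩
  refine ⟨projChar (up M e), H7.char_of_ip_nat (H9.cf_projChar _) fun χ hχ => ?_,
    fun g hg' => H9.projChar_eq_zero hg hg', ?_, fun χ hχ => key χ (H7.irr_char hχ)⟩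
  · obtain ⟨n, -, -, h1, -⟩ := key χ (H7.irr_char hχ)
    exact ⟨n, h1⟩
  · have a1 : MonoidAlgebra.lift ℂ ℂ G 1 (up M y) = 1 := by
      rw [← chiL_one_eq, ← hy1]; exact H7.ip_irr_self H7.irr_one
    have a2 : MonoidAlgebra.lift ℂ ℂ G 1 (up M z) = 1 := by
      rw [← chiL_one_eq, ← hz1]; exact H7.ip_irr_self H7.irr_one
    rw [H9.ip_projChar _ H7.char_one, chiL_one_eq, he, H9.up_aeval, ← aeval_algHom_apply, map_mul,
      map_mul, a1, a2, mul_one, aeval_map_algebraMap, ← map_one (algebraMap (locRing M) ℂ),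
      aeval_algebraMap_apply, coe_aeval_eq_eval, hg1]

theorem sum_perm (A B : Subgroup G) (hAB : (Nat.card A).Coprime (Nat.card B)) :
    ∑ χ ∈ H7.irrSet G, conj (ip (fun x : A => χ x) 1) * ip (fun x : B => χ x) 1 =
      (Nat.card B : ℂ)⁻¹ * A.index := by
  classical
  have := Fintype.ofFinite B
  have h1 : ∀ χ ∈ H7.irrSet G, conj (ip (fun x : A => χ x) 1) * ip (fun x : B => χ x) 1 =
      ip (ind A.subtype 1) χ * ip χ (ind B.subtype 1) := fun χ hχ => by
    have hc := H7.irr_cf (H7.mem_irrSet.1 hχ)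
    rw [H7.ip_conj_symm, H7.ip_ind_left _ _ hc, H7.ip_ind_right _ _ hc]; rfl
  rw [Finset.sum_congr rfl h1, ← H7.ip_expand (H7.ind_cf _ _), H7.ip_ind_right _ _ (H7.ind_cf _ _),
    H7.ip_def, Finset.sum_eq_single (1 : B)]
  · simp [H7.ind_apply_one A.subtype_injective]
  · intro x _ hx
    rw [H7.ind_apply_eq_zero, zero_mul]
    intro w a ha
    exfalso
    apply hx
    have o1 : orderOf x ∣ Nat.card A := by
      have : orderOf (x : G) = orderOf a := by
        rw [← Subgroup.orderOf_coe a]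
        have : (a : G) = w⁻¹ * x * w⁻¹⁻¹ := by rw [inv_inv]; exact ha
        rw [this]
        exact (SemiconjBy.orderOf_eq w⁻¹ (by simp [SemiconjBy, mul_assoc]))
      rw [← Subgroup.orderOf_coe x, this]
      exact orderOf_dvd_natCard a
    exact orderOf_eq_one_iff.1 (Nat.eq_one_of_dvd_coprimes hAB o1 (orderOf_dvd_natCard x))
  · simp

theorem main {p n : ℕ} (hp : p.Prime) (A B : Subgroup G) (hA : ¬ p ∣ Nat.card A)
    (hB : ¬ p ∣ Nat.card B) (hAB : (Nat.card A).Coprime (Nat.card B))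
    (hG : Nat.card G = n * (Nat.card A * Nat.card B))
    (hc : Nat.card {g : G // ¬ p ∣ orderOf g} = Nat.card A * Nat.card B) :
    ∃ N : Subgroup G, N.Normal ∧ Nat.card N = Nat.card A * Nat.card B := by
  classical
  have := Fintype.ofFinite G
  obtain ⟨Φ, hΦ, h0, h1, h2⟩ := exists_phi hp A B hA hB
  have hA0 : (Nat.card A : ℂ) ≠ 0 := H7.card_ne_zero' A
  have hB0 : (Nat.card B : ℂ) ≠ 0 := H7.card_ne_zero' B
  have hG0 : (Nat.card G : ℂ) ≠ 0 := H7.card_ne_zero' G
  have hn : 0 < n := Nat.pos_of_ne_zero fun h => by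
    rw [h, zero_mul] at hG; exact Nat.card_pos.ne' hG
  have hi : A.index = n * Nat.card B := by
    have := A.card_mul_index
    rw [hG] at this
    exact Nat.eq_of_mul_eq_mul_left (Nat.card_pos (α := A)) (by rw [this]; ring)
  choose! k a b hk ha hb hka hkb using h2
  have s1 : ∑ χ ∈ H7.irrSet G, a χ * b χ = n := by
    have := sum_perm A B hAB
    rw [hi, Finset.sum_congr rfl (g := fun χ => ((a χ * b χ : ℕ) : ℂ)) fun χ hχ => by
      rw [ha χ (H7.mem_irrSet.1 hχ), hb χ (H7.mem_irrSet.1 hχ)]; simp] at this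
    have h3 : ((∑ χ ∈ H7.irrSet G, a χ * b χ : ℕ) : ℂ) = n := by
      rw [Nat.cast_sum, this]; push_cast; field_simp
    exact_mod_cast h3
  have s2 : ip Φ Φ = ((∑ χ ∈ H7.irrSet G, k χ * k χ : ℕ) : ℂ) := by
    rw [H7.ip_expand (H7.char_cf hΦ), Nat.cast_sum]
    refine Finset.sum_congr rfl fun χ hχ => ?_
    rw [H7.ip_natCast_comm (hk χ (H7.mem_irrSet.1 hχ)), hk χ (H7.mem_irrSet.1 hχ), Nat.cast_mul]
  have s3 : ∑ χ ∈ H7.irrSet G, k χ * k χ ≤ n := s1 ▸ Finset.sum_le_sum fun χ hχ =>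
    Nat.mul_le_mul (hka χ (H7.mem_irrSet.1 hχ)) (hkb χ (H7.mem_irrSet.1 hχ))
  set N := ∑ χ ∈ H7.irrSet G, k χ * k χ
  let θ : G → ℂ := fun g => if p ∣ orderOf g then 0 else n
  have t1 : ip Φ θ = n := by
    have : ip Φ θ = ip Φ ((n : ℂ) • (1 : G → ℂ)) := by
      rw [H7.ip_def, H7.ip_def]
      congr 1
      refine Finset.sum_congr rfl fun g _ => ?_
      by_cases h : p ∣ orderOf g
      · simp [h0 g h]
      · simp [θ, h]
    rw [this, H7.ip_smul_right, h1]; simp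
  have t2 : ip θ Φ = n := H7.ip_natCast_comm t1
  have t3 : ip θ θ = n := by
    rw [H7.ip_def, Finset.sum_congr rfl (g := fun g => if ¬ p ∣ orderOf g then (n : ℂ) * n else 0)
      fun g _ => by by_cases h : p ∣ orderOf g <;> simp [θ, h], ← Finset.sum_filter,
      Finset.sum_const, nsmul_eq_mul, ← Fintype.card_subtype, ← Nat.card_eq_fintype_card, hc, hG]
    have : (n : ℂ) ≠ 0 := Nat.cast_ne_zero.2 hn.ne'
    push_cast; field_simp
  have t4 : ip (Φ - θ) (Φ - θ) = (N : ℂ) - n := by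
    rw [H7.ip_sub_left, H7.ip_sub_right, H7.ip_sub_right, s2, t1, t2, t3]; ring
  have t5 : (N : ℂ) - n = 0 := by
    have h3 := t4
    rw [H7.ip_self_eq_ofReal] at h3
    have h4 : (Nat.card G : ℝ)⁻¹ * ∑ g : G, ‖(Φ - θ) g‖ ^ 2 = (N : ℝ) - n := by exact_mod_cast h3
    have h5 : (0 : ℝ) ≤ (Nat.card G : ℝ)⁻¹ * ∑ g : G, ‖(Φ - θ) g‖ ^ 2 := by positivity
    have h6 : (N : ℝ) ≤ n := by exact_mod_cast s3
    have h7 : (N : ℝ) - n = 0 := by linarith
    exact_mod_cast h7
  have t6 : Φ = θ := sub_eq_zero.1 (H7.eq_zero_of_ip_self (t4.trans t5))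
  refine ⟨H6.charKer Φ, H6.charKer_normal (H7.char_cf hΦ), ?_⟩
  rw [← hc]
  refine Nat.card_congr (Equiv.subtypeEquivRight fun g => ?_)
  have o1 : ¬ p ∣ orderOf (1 : G) := by simpa using hp.one_lt.ne'
  rw [H6.mem_charKer_iff hΦ, t6]
  by_cases h : p ∣ orderOf g
  · simp only [θ, h, o1, if_true, if_false, not_true, iff_false]
    exact fun h => hn.ne' (by exact_mod_cast h.symm)
  · simp only [θ, h, o1, if_false, not_false_iff]

end Cfsg.Agent.H27.Fc
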