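import Mathlib
import Cfsg.Agent.FT.BG01

/-! Coprime action on an abelian `p`-group: indecomposable means homocyclic with irreducible
`Ω₁`. -/

namespace Cfsg.Agent.H27

open Subgroup Cfsg.Agent.FT

variable {G : Type*} [Group G] {A B C K U V X : Subgroup G} {p q : ℕ}

/-- the elements of the abelian group `A` whose `q`-th power lies in `U` -/
def powPre (hA : Ab A) (q : ℕ) (U : Subgroup G) : Subgroup G where
  carrier := {a | a ∈ A ∧ a ^ q ∈ U}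
  mul_mem' := fun {a b} ha hb => ⟨mul_mem ha.1 hb.1, by
    rw [Commute.mul_pow (hA.comm ha.1 hb.1)]; exact mul_mem ha.2 hb.2⟩
  one_mem' := ⟨one_mem _, by rw [one_pow]; exact one_mem _⟩
  inv_mem' := fun {a} ha => ⟨inv_mem ha.1, by rw [inv_pow]; exact inv_mem ha.2⟩

theorem mem_powPre {hA : Ab A} {a : G} : a ∈ powPre hA q U ↔ a ∈ A ∧ a ^ q ∈ U := Iff.rfl

variable [Finite G]

theorem norms_powPre (hA : Ab A) (q : ℕ) (h1 : X ≤ N(A)) (h2 : X ≤ N(U)) :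
    X ≤ N(powPre hA q U) :=
  fun g hg => mem_nrm.2 fun x hx => ⟨conj_mem (h1 hg) hx.1, by
    rw [conj_pow]; exact conj_mem (h2 hg) hx.2⟩

theorem Maschke_rel (hp : p.Prime) (hV : Ab V) (hX : PiGrp {p}ᶜ X) (hKU : K ≤ U) (hUV : U ≤ V)
    (h : ∀ v ∈ V, v ^ p ∈ K) (hK : X ≤ N(K)) (hU : X ≤ N(U)) (hn : X ≤ N(V)) :
    ∃ W, K ≤ W ∧ X ≤ N(W) ∧ U ⊓ W = K ∧ U ⊔ W = V := by
  have hKV := hV.nml (hKU.trans hUV)
  obtain ⟨W, hW, hXW⟩ := Maschke_abelem hp ((abelem_quo_iff hKV.nrm).2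
    ⟨(ab_iff_der.1 hV).le.trans bot_le, h⟩) (hX.quo K) (quo_mono K hUV) (quo_norms K hn)
    (quo_norms K hU)
  have e := qpre_quo_of_nml (hKV.mono hKU hUV)
  refine ⟨qpre(K, W), le_qpre W, norms_qpre hK hXW, ?_, ?_⟩
  · rw [← e, ← qpre_inf, hW.inf, qpre_bot]
  · rw [← e, ← qpre_sup, hW.sup, qpre_quo_of_nml hKV]

/-- An invariant homocyclic subgroup of maximal exponent has an invariant complement. -/
theorem exists_compl_of_homo (hp : p.Prime) (hA : Ab A) (hX : PiGrp {p}ᶜ X) (hn : X ≤ N(A))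
    {e : ℕ} (he : ∀ a ∈ A, a ^ p ^ (e + 1) = 1) (hB : B ≤ A) (hXB : X ≤ N(B))
    (h : Ω[p](B) ≤ ℧[p ^ e](B)) : ∃ C, X ≤ N(C) ∧ DP B C A := by
  obtain ⟨C, -, ⟨hC, hXC, hBC⟩, hmax⟩ := exists_max
    (fun C => C ≤ A ∧ X ≤ N(C) ∧ B ⊓ C = ⊥) ⟨bot_le, norms_bot X, inf_bot_eq B⟩
  have hB' := hA.mono hB
  have hV : powPre hA p C ≤ A := fun x hx => hx.1
  obtain ⟨W, h1, h2, h3, h4⟩ := Maschke_rel hp (hA.mono hV) hX (le_sup_right : C ≤ Ω[p](B) ⊔ C)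
    (sup_le (fun x hx => ⟨hB (Ohm_le _ _ hx), by rw [(hB'.mem_Ohm_iff.1 hx).2]; exact one_mem _⟩)
      fun x hx => ⟨hC hx, pow_mem hx p⟩) (fun v hv => hv.2) hXC
    (normsY (norms_Ohm p hXB) hXC) (norms_powPre hA p hn hXC)
  have hW : W ≤ powPre hA p C := h4 ▸ le_sup_right
  have h5 : W = C := hmax W ⟨hW.trans hV, h2, eq_bot_iff.2 fun x hx => hBC ▸ ⟨hx.1, h3 ▸
    ⟨mem_sup_left (mem_Ohm hx.1 (eq_one_of_mem_inf hBC (pow_mem hx.1 p) (hW hx.2).2)), hx.2⟩⟩⟩ h1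
  rw [h5, sup_assoc, sup_idem] at h4
  have key : ∀ j ≤ e + 1, ∀ a ∈ A, a ^ p ^ j ∈ C → a ∈ B ⊔ C := by
    intro j
    induction j with
    | zero => exact fun _ a _ ha => mem_sup_right (by simpa using ha)
    | succ j ih =>
      intro hj a ha h6
      have h7 : a ^ p ^ j ∈ Ω[p](B) ⊔ C := h4 ▸ ⟨pow_mem ha _, by rwa [← pow_mul, ← pow_succ]⟩
      obtain ⟨b, hb, c, hc, e1⟩ := (mem_sup_norm
        (hC.trans (hA.norms ((Ohm_le _ _).trans hB)))).1 h7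
      obtain ⟨y, hy, rfl⟩ := hB'.mem_Mho_iff.1 (h hb)
      have hb' : (y ^ p ^ (e - j))⁻¹ ∈ B := inv_mem (pow_mem hy _)
      refine (mul_mem_cancel_left (mem_sup_left hb')).1
        (ih (by omega) _ (mul_mem (hB hb') ha) ?_)
      rwa [Commute.mul_pow (hA.comm (hB hb') ha), e1, inv_pow, ← pow_mul, ← pow_add,
        Nat.sub_add_cancel (by omega), inv_mul_cancel_left]
  exact ⟨C, hXC, hA.cents hB hC, le_antisymm (sup_le hB hC) fun a ha =>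
    key _ le_rfl a ha (by rw [he a ha]; exact one_mem _), hBC⟩

/-- Either `A` decomposes or `Ω₁(A)` is irreducible. -/
theorem exists_dp_or_irr (hp : p.Prime) (hA : Ab A) (hP : PGrp p A) (hX : PiGrp {p}ᶜ X)
    (hn : X ≤ N(A)) : (∃ B C, B ≠ ⊥ ∧ C ≠ ⊥ ∧ X ≤ N(B) ∧ X ≤ N(C) ∧ DP B C A) ∨
      ∀ U, U ≤ Ω[p](A) → X ≤ N(U) → U = ⊥ ∨ U = Ω[p](A) := by
  classical
  have hex : ∃ k, ∀ a ∈ A, a ^ p ^ k = 1 := by
    obtain ⟨k, hk⟩ := hP.card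
    exact ⟨k, fun a ha => hk ▸ pow_card ha⟩
  have he := Nat.find_spec hex
  have hmin := @Nat.find_min _ _ hex
  generalize Nat.find hex = e at he hmin
  obtain _ | e := e
  · exact Or.inr fun U hU _ => Or.inl (eq_bot_iff.2 fun x hx => by
      simpa using he x (Ohm_le _ _ (hU hx)))
  obtain ⟨B, -, ⟨hB, hXB, hB1⟩, hBm⟩ := exists_min
    (fun B => B ≤ A ∧ X ≤ N(B) ∧ ¬ ∀ a ∈ B, a ^ p ^ e = 1) ⟨le_rfl, hn, hmin e.lt_succ_self⟩
  have hB' := hA.mono hB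
  obtain ⟨W, h1, h2, h3, h4⟩ := Maschke_rel hp hB' hX (K := ℧[p](B)) (U := Ω[p ^ e](B))
    (Mho_le_iff.2 fun x hx => mem_Ohm (pow_mem hx p) (by
      rw [← pow_mul, ← pow_succ', he x (hB hx)])) (Ohm_le _ _) (fun v => pow_mem_Mho p)
    (norms_Mho p hXB) (norms_Ohm _ hXB) hXB
  have hW : W ≤ B := h4 ▸ le_sup_right
  have h5 : W = B := hBm W ⟨hW.trans hB, h2, fun h => hB1 fun a ha => (hB'.mem_Ohm_iff.1
    ((h4.ge.trans (sup_le le_rfl (le_Ohm hW h))) ha)).2⟩ hW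
  rw [h5, inf_eq_left.2 (Ohm_le _ _)] at h3
  have h6 : ℧[p ^ e](B) = Ω[p](B) := by
    refine eq_of_card_eq (Mho_le_iff.2 fun x hx => mem_Ohm (pow_mem hx _) (by
      rw [← pow_mul, ← pow_succ, he x (hB hx)])) ?_
    have e1 := hB'.card_Ohm_mul_card_Mho p
    rw [← hB'.card_Ohm_mul_card_Mho (p ^ e), h3, mul_comm] at e1
    exact (Nat.eq_of_mul_eq_mul_left (card_pos _) e1).symm
  obtain ⟨C, hXC, hd⟩ := exists_compl_of_homo hp hA hX hn he hB hXB h6.ge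
  by_cases hC : C = ⊥
  · obtain rfl : B = A := by rw [← hd.sup, hC, sup_bot_eq]
    refine Or.inr fun U hU hXU => or_iff_not_imp_left.2 fun hU1 => le_antisymm hU ?_
    obtain ⟨u, hu, hu1⟩ := exists_ne_one hU1
    obtain ⟨b, hb, rfl⟩ := hB'.mem_Mho_iff.1 (h6.ge (hU hu))
    have := hBm (powPre hB' (p ^ e) U) ⟨fun x hx => hx.1, norms_powPre hB' _ hXB hXU,
      fun h => hu1 (h b ⟨hb, hu⟩)⟩ fun x hx => hx.1
    rw [← h6, Mho_le_iff]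
    exact fun x hx => (this.ge hx).2
  · exact Or.inl ⟨B, C, fun h => hB1 fun a ha => by rw [h, mem_bot] at ha; rw [ha, one_pow],
      hC, hXB, hXC, hd⟩

end Cfsg.Agent.H27
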