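import Mathlib
import Cfsg.Prelude.Def_KGroupFacts
import Cfsg.Agent.H27.Schur4
import Cfsg.Agent.H27.CycExt

/-! The metacyclic presentation `⟨a, b | a ^ m, b ^ n = a ^ t, b a b⁻¹ = a ^ r⟩`. -/

namespace Cfsg.Agent.H27

open Subgroup
open scoped commutatorElement IsMulCommutative

/-- The relators. -/
abbrev mpRels (m n r t : ℕ) : Set (FreeGroup Bool) :=
  {FreeGroup.of true ^ m, (FreeGroup.of false) ^ n * (FreeGroup.of true ^ t)⁻¹,
    FreeGroup.of false * FreeGroup.of true * (FreeGroup.of false)⁻¹ * (FreeGroup.of true ^ r)⁻¹}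

/-- The metacyclic group. -/
abbrev MP (m n r t : ℕ) := PresentedGroup (mpRels m n r t)

/-- The first generator. -/
abbrev mpA (m n r t : ℕ) : MP m n r t := PresentedGroup.of true

/-- The second generator. -/
abbrev mpB (m n r t : ℕ) : MP m n r t := PresentedGroup.of false

variable {m n r t : ℕ}

theorem mp_a : mpA m n r t ^ m = 1 :=
  (map_pow (PresentedGroup.mk _) _ _).symm.trans (PresentedGroup.one_of_mem (by simp))

theorem mp_b : mpB m n r t ^ n = mpA m n r t ^ t := by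
  have := PresentedGroup.one_of_mem (rels := mpRels m n r t)
    (x := (FreeGroup.of false) ^ n * (FreeGroup.of true ^ t)⁻¹) (by simp)
  rwa [map_mul, map_inv, map_pow, map_pow, mul_inv_eq_one] at this

theorem mp_c : mpB m n r t * mpA m n r t * (mpB m n r t)⁻¹ = mpA m n r t ^ r := by
  have := PresentedGroup.one_of_mem (rels := mpRels m n r t)
    (x := FreeGroup.of false * FreeGroup.of true * (FreeGroup.of false)⁻¹ *
      (FreeGroup.of true ^ r)⁻¹) (by simp)
  rwa [map_mul, map_inv, map_pow, map_mul, map_mul, map_inv, mul_inv_eq_one] at this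

theorem mp_exists_hom {X : Type*} [Group X] (a b : X) (h1 : a ^ m = 1) (h2 : b ^ n = a ^ t)
    (h3 : b * a * b⁻¹ = a ^ r) : ∃ f : MP m n r t →* X, f (mpA m n r t) = a ∧ f (mpB m n r t) = b := by
  refine ⟨PresentedGroup.toGroup (f := fun x => cond x a b) ?_, PresentedGroup.toGroup.of _,
    PresentedGroup.toGroup.of _⟩
  rintro _ (rfl | rfl | rfl) <;> simp [h1, h2, h3]

theorem mp_gen : zpowers (mpA m n r t) ⊔ zpowers (mpB m n r t) = ⊤ := by
  rw [eq_top_iff, ← PresentedGroup.closure_range_of, closure_le]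
  rintro _ ⟨_ | _, rfl⟩
  · exact mem_sup_right (mem_zpowers _)
  · exact mem_sup_left (mem_zpowers _)

theorem mp_orderOf (hm : 0 < m) (hn : 0 < n) (hr : 0 < r) (hrn : r ^ n ≡ 1 [MOD m])
    (ht : m ∣ t * (r - 1)) : orderOf (mpA m n r t) = m := by
  refine Nat.dvd_antisymm (orderOf_dvd_of_pow_eq_one mp_a) ?_
  have h1 : (r : ZMod m) ^ n = 1 := by
    rw [← Nat.cast_pow, ← Nat.cast_one, ZMod.natCast_eq_natCast_iff]; exact hrn
  let ρ : (ZMod m)ˣ := Units.ofPowEqOne _ n h1 hn.ne'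
  let A : Equiv.Perm (ZMod m) × Multiplicative ℤ := (Equiv.addLeft 1, 1)
  let B : Equiv.Perm (ZMod m) × Multiplicative ℤ := (MulAction.toPermHom _ _ ρ, .ofAdd 1)
  have hA : ∀ i : ℕ, A ^ i = (Equiv.addLeft (i : ZMod m), 1) := fun i => by
    simp [A]
  have hBA : ∀ i : ℕ, B * A ^ i * B⁻¹ = A ^ (i * r) := fun i => by
    rw [hA, hA, mul_inv_eq_iff_eq_mul]
    refine Prod.ext (Equiv.ext fun x => ?_) (by simp)
    change (r : ZMod m) * (i + x) = (i * r : ℕ) + r * x
    push_cast; ring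
  have ht' : A ^ (t * r) = A ^ t := by
    obtain ⟨r, rfl⟩ : ∃ k, r = k + 1 := ⟨r - 1, by omega⟩
    rw [hA, hA, mul_add, mul_one, Nat.cast_add, (ZMod.natCast_eq_zero_iff (t * r) _).2 ht,
      zero_add]
  have hBn : (B ^ n).1 = 1 := by
    rw [Prod.pow_fst, ← map_pow, Units.pow_ofPowEqOne, map_one]
  let w := B ^ n * (A ^ t)⁻¹
  have hw : ∀ x, Commute x (A ^ t) → x ∈ centralizer {w} := fun x hx => by
    refine mem_centralizer_singleton_iff.2 (Commute.mul_right ?_ hx.inv_right)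
    exact Prod.ext (by rw [Prod.fst_mul, Prod.fst_mul, hBn, mul_one, one_mul]) (mul_comm _ _)
  let X := centralizer {w}
  let a : X := ⟨A, hw A ((Commute.refl A).pow_right t)⟩
  let b : X := ⟨B, hw B (by rw [Commute, SemiconjBy, ← mul_inv_eq_iff_eq_mul, hBA, ht'])⟩
  let W := zpowers (b ^ n * (a ^ t)⁻¹)
  haveI : W.Normal := normal_of_le_center' (zpowers_le.2 (mem_center_iff.2 fun g =>
    Subtype.ext (mem_centralizer_singleton_iff.1 g.2)))
  obtain ⟨f, hf, -⟩ := mp_exists_hom (m := m) (n := n) (r := r) (t := t) (a : X ⧸ W) (b : X ⧸ W)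
    (by
      rw [← QuotientGroup.mk_pow, show a ^ m = 1 from Subtype.ext (by
        change A ^ m = 1
        rw [hA, ZMod.natCast_self, Equiv.addLeft_zero]; rfl), QuotientGroup.mk_one])
    (by
      rw [← mul_inv_eq_one]
      exact (QuotientGroup.eq_one_iff (N := W) (b ^ n * (a ^ t)⁻¹)).2 (mem_zpowers _))
    (congrArg QuotientGroup.mk (show b * a * b⁻¹ = a ^ r from Subtype.ext (by
      simpa using hBA 1)))
  have h2 : (a : X ⧸ W) ^ orderOf (mpA m n r t) = 1 := by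
    rw [← hf, ← map_pow, pow_orderOf_eq_one, map_one]
  obtain ⟨k, hk⟩ := (QuotientGroup.eq_one_iff (N := W) (a ^ orderOf (mpA m n r t))).1 h2
  replace hk : w ^ k = A ^ orderOf (mpA m n r t) := congrArg Subtype.val hk
  have h3 := congrArg (fun x => x.2.toAdd) hk
  simp [w, A, B, hn.ne'] at h3
  rw [h3, zpow_zero, hA] at hk
  have h4 := congrArg (fun x => x.1 0) hk
  simp at h4
  exact (ZMod.natCast_eq_zero_iff _ _).1 h4.symm

theorem mp_normal (hm : 0 < m) : (zpowers (mpA m n r t)).Normal := by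
  haveI : Finite (zpowers (mpA m n r t)) :=
    (isOfFinOrder_iff_pow_eq_one.2 ⟨m, hm, mp_a⟩).finite_zpowers
  rw [← normalizer_eq_top_iff, eq_top_iff, ← mp_gen]
  refine sup_le le_normalizer (zpowers_le.2 (mem_normalizer_fintype ?_))
  rintro _ ⟨i, rfl⟩
  change _ * mpA m n r t ^ i * _ ∈ zpowers _
  rw [← conj_zpow, mp_c]
  exact zpow_mem (pow_mem (mem_zpowers _) _) _

theorem mp_finite (hm : 0 < m) (hn : 0 < n) : Finite (MP m n r t) := by
  haveI := mp_normal (n := n) (r := r) (t := t) hm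
  haveI : Finite (zpowers (mpA m n r t)) :=
    (isOfFinOrder_iff_pow_eq_one.2 ⟨m, hm, mp_a⟩).finite_zpowers
  have h1 : zpowers (QuotientGroup.mk' (zpowers (mpA m n r t)) (mpB m n r t)) = ⊤ := by
    rw [← MonoidHom.map_zpowers, ← map_top_of_surjective _ (QuotientGroup.mk'_surjective _),
      ← mp_gen, Subgroup.map_sup, QuotientGroup.map_mk'_self, bot_sup_eq]
  haveI : Finite (zpowers (QuotientGroup.mk' (zpowers (mpA m n r t)) (mpB m n r t))) :=
    (isOfFinOrder_iff_pow_eq_one.2 ⟨n, hn, by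
      rw [← map_pow, mp_b]
      exact (QuotientGroup.eq_one_iff _).2 (pow_mem (mem_zpowers _) _)⟩).finite_zpowers
  rw [h1] at this
  haveI : Finite (MP m n r t ⧸ zpowers (mpA m n r t)) := Finite.of_equiv _ topEquiv.toEquiv
  exact Finite.of_subgroup_quotient (zpowers (mpA m n r t))

theorem mp_comm (hr : 0 < r) : ⁅mpB m n r t, mpA m n r t⁆ = mpA m n r t ^ (r - 1) := by
  obtain ⟨r, rfl⟩ : ∃ k, r = k + 1 := ⟨r - 1, by omega⟩
  rw [commutatorElement_def, mp_c, pow_succ, mul_inv_cancel_right, Nat.add_sub_cancel]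

theorem mp_card_ker_dvd (hm : 0 < m) (hn : 0 < n) (hr : 0 < r) (hrn : r ^ n ≡ 1 [MOD m]) (l : ℕ)
    (ht0 : t = m * l / m.gcd (r - 1)) {Γ : Type*} [Group Γ] [Finite Γ] {τ : Γ →* MP m n r t}
    (hτ : IsStemExtension τ) :
    Nat.card τ.ker ∣ l.gcd (m.gcd (r - 1) * m.gcd (∑ i ∈ Finset.range n, r ^ i) / m) := by
  have hd : 0 < m.gcd (r - 1) := Nat.gcd_pos_of_pos_left _ hm
  obtain ⟨m', hm'⟩ := Nat.gcd_dvd_left m (r - 1)
  obtain ⟨u, hu⟩ := Nat.gcd_dvd_right m (r - 1)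
  set d := m.gcd (r - 1) with hdd
  have ht : t = m' * l := by rw [ht0, hm', mul_assoc, Nat.mul_div_cancel_left _ hd]
  have hm0 : 0 < m' := Nat.pos_of_mul_pos_left (hm' ▸ hm)
  have ho := mp_orderOf (t := t) hm hn hr hrn (by
    rw [ht, hu]; exact ⟨l * u, by rw [hm']; ring⟩)
  obtain ⟨a, ha⟩ := hτ.1 (mpA _ _ _ _)
  obtain ⟨b, hb⟩ := hτ.1 (mpB _ _ _ _)
  haveI : (zpowers (τ a)).Normal := ha ▸ mp_normal hm
  have h1 := meta_card_ker hτ a b (by rw [ha, hb, mp_gen])
  haveI := mp_finite (r := r) (t := t) hm hn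
  rw [ha, hb, mp_comm hr, orderOf_pow, ho, ← hdd,
    show m / d = m' by rw [hm', Nat.mul_div_cancel_left _ hd]] at h1
  have h2 := orderOf_dvd_of_pow_eq_one
    (meta_comm_pow_eq_one hτ.2.1 a b m 0 (by rw [ha, mp_a, pow_zero]))
  have h3 := orderOf_dvd_of_pow_eq_one
    (meta_comm_pow_eq_one hτ.2.1 a b t n (by rw [ha, hb, mp_b]))
  have h4 := orderOf_dvd_of_pow_eq_one
    (meta_comm_geom hτ.2.1 a b r (by rw [ha, hb, mp_c]) n (by
      rw [ha, hb, mp_b]; exact pow_mem (mem_zpowers _) _))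
  rw [← h1] at h2 h3 h4
  refine Nat.dvd_gcd ?_ ?_
  · exact Nat.dvd_of_mul_dvd_mul_right hm0 (h3.trans (by rw [ht, mul_comm]))
  · apply Nat.dvd_div_of_mul_dvd
    have := Nat.mul_dvd_mul_left d (Nat.dvd_gcd h2 h4)
    rwa [mul_comm _ m', ← mul_assoc, ← hm'] at this

theorem mp_schur (hm : 0 < m) (hn : 0 < n) (hr : 0 < r) (hrn : r ^ n ≡ 1 [MOD m]) (l : ℕ)
    (ht0 : t = m * l / m.gcd (r - 1)) : HasCyclicSchurMultiplier (MP m n r t)
      (l.gcd (m.gcd (r - 1) * m.gcd (∑ i ∈ Finset.range n, r ^ i) / m)) := by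
  have hup := @mp_card_ker_dvd m n r t hm hn hr hrn l ht0
  have hd : 0 < m.gcd (r - 1) := Nat.gcd_pos_of_pos_left _ hm
  have he : 0 < m.gcd (∑ i ∈ Finset.range n, r ^ i) := Nat.gcd_pos_of_pos_left _ hm
  have hgeom : ∀ x : ℕ, 0 < x → (x - 1) * (∑ i ∈ Finset.range n, x ^ i) + 1 = x ^ n := by
    intro x hx
    obtain ⟨x, rfl⟩ : ∃ k, x = k + 1 := ⟨x - 1, by omega⟩
    rw [Nat.add_sub_cancel, mul_comm, geom_sum_mul_add]
  have hde : m ∣ m.gcd (r - 1) * m.gcd (∑ i ∈ Finset.range n, r ^ i) := by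
    rw [Nat.dvd_gcd_mul_gcd_iff_dvd_mul]
    rw [← hgeom r hr] at hrn
    simpa using (Nat.modEq_iff_dvd' (by omega)).1 hrn.symm
  obtain ⟨m', hm'⟩ := Nat.gcd_dvd_left m (r - 1)
  obtain ⟨u, hu⟩ := Nat.gcd_dvd_right m (r - 1)
  have hcop : u.Coprime m' := by
    have := Nat.coprime_div_gcd_div_gcd hd
    rw [Nat.div_eq_of_eq_mul_right hd hm', Nat.div_eq_of_eq_mul_right hd hu] at this
    exact this.symm
  have heb := Nat.gcd_dvd_left m (∑ i ∈ Finset.range n, r ^ i)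
  have hec := Nat.gcd_dvd_right m (∑ i ∈ Finset.range n, r ^ i)
  set d := m.gcd (r - 1) with hdd
  set e := m.gcd (∑ i ∈ Finset.range n, r ^ i)
  set h := l.gcd (d * e / m)
  have hh : 0 < h := Nat.gcd_pos_of_pos_right _ (Nat.div_pos (Nat.le_of_dvd (mul_pos hd he) hde) hm)
  have hmh : m * h ∣ d * e := by
    rw [← Nat.mul_div_cancel' hde]; exact Nat.mul_dvd_mul_left _ (Nat.gcd_dvd_right _ _)
  have hhd : h ∣ d := Nat.dvd_of_mul_dvd_mul_left hm
    (hmh.trans (by rw [mul_comm m]; exact Nat.mul_dvd_mul_left _ heb))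
  have ht : t = m' * l := by rw [ht0, hm', mul_assoc, Nat.mul_div_cancel_left _ hd]
  have hm0 : 0 < m' := Nat.pos_of_mul_pos_left (hm' ▸ hm)
  haveI : NeZero (m' * h) := ⟨(mul_pos hm0 hh).ne'⟩
  obtain ⟨v, hv1, hv2⟩ : ∃ v : ℕ, v.Coprime (m' * h) ∧ v ≡ u [MOD m'] := by
    obtain ⟨v, hv⟩ := ZMod.unitsMap_surjective (Nat.dvd_mul_right m' h) (ZMod.unitOfCoprime u hcop)
    refine ⟨(v : ZMod (m' * h)).val, ZMod.val_coe_unit_coprime v, ?_⟩
    rw [← ZMod.natCast_eq_natCast_iff, ZMod.natCast_val, ← ZMod.coe_unitOfCoprime u hcop, ← hv,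
      ZMod.unitsMap_val]
  have hr' : d * v + 1 ≡ r [MOD m] := by
    have := (hv2.mul_left' (c := d)).add_right 1
    rwa [← hm', ← hu, Nat.sub_add_cancel hr] at this
  have hrn' : (d * v + 1) ^ n ≡ 1 [MOD m * h] := by
    rw [← hgeom _ (Nat.add_one_pos _), Nat.add_sub_cancel]
    refine ((Nat.modEq_iff_dvd' (by omega)).2 ?_).symm
    rw [Nat.add_sub_cancel]
    refine hmh.trans (Nat.mul_dvd_mul (Nat.dvd_mul_right _ _) ?_)
    have : ∑ i ∈ Finset.range n, (d * v + 1) ^ i ≡ ∑ i ∈ Finset.range n, r ^ i [MOD m] :=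
      Nat.ModEq.sum fun i _ => hr'.pow i
    exact ((this.of_dvd heb).dvd_iff dvd_rfl).2 hec
  have ho := mp_orderOf (t := t) (mul_pos hm hh) hn (Nat.add_one_pos _) hrn' (by
    obtain ⟨l', hl'⟩ := Nat.gcd_dvd_left l (d * e / m)
    change l = h * l' at hl'
    rw [ht, Nat.add_sub_cancel]
    exact ⟨l' * v, by rw [hm', hl']; ring⟩)
  obtain ⟨σ, hσa, hσb⟩ := mp_exists_hom (m := m * h) (n := n) (r := d * v + 1) (t := t)
    (mpA m n r t) (mpB m n r t) (by rw [pow_mul, mp_a, one_pow]) mp_b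
    (by rw [mp_c]; exact pow_eq_pow_of_modEq hr'.symm mp_a)
  set a := mpA (m * h) n (d * v + 1) t
  set b := mpB (m * h) n (d * v + 1) t
  have hc : zpowers (a ^ m) ≤ center _ := by
    rw [zpowers_le, ← centralizer_univ, ← coe_top, ← mp_gen, zpowers_eq_closure,
      zpowers_eq_closure, ← Subgroup.closure_union, centralizer_closure]
    rintro _ (rfl | rfl)
    · exact ((Commute.refl a).pow_right m).eq
    · rw [← mul_inv_eq_iff_eq_mul, ← conj_pow, mp_c, ← pow_mul, add_mul, one_mul, pow_add,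
        mul_eq_right]
      obtain ⟨k, hk⟩ := hhd
      rw [show d * v * m = m * h * (k * v) by rw [hk]; ring, pow_mul, mp_a, one_pow]
  haveI := normal_of_le_center' hc
  obtain ⟨β, hβa, hβb⟩ := mp_exists_hom (m := m) (n := n) (r := r) (t := t)
    (QuotientGroup.mk' (zpowers (a ^ m)) a) (QuotientGroup.mk' (zpowers (a ^ m)) b)
    (by rw [← map_pow]; exact (QuotientGroup.eq_one_iff _).2 (mem_zpowers _))
    (by rw [← map_pow, ← map_pow, mp_b])
    (by
      rw [← map_inv, ← map_mul, ← map_mul, mp_c, map_pow]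
      exact pow_eq_pow_of_modEq hr' (by
        rw [← map_pow]; exact (QuotientGroup.eq_one_iff _).2 (mem_zpowers _)))
  have hβ : β.comp σ = QuotientGroup.mk' (zpowers (a ^ m)) := PresentedGroup.ext (by
    rintro (_ | _)
    · exact (congrArg β hσb).trans hβb
    · exact (congrArg β hσa).trans hβa)
  have hker : σ.ker = zpowers (a ^ m) := by
    refine le_antisymm (fun x hx => ?_) (zpowers_le.2 ?_)
    · rw [← QuotientGroup.eq_one_iff, ← QuotientGroup.mk'_apply, ← hβ, MonoidHom.comp_apply,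
        MonoidHom.mem_ker.1 hx, map_one]
    · rw [MonoidHom.mem_ker, map_pow, hσa, mp_a]
  haveI := mp_finite (r := d * v + 1) (t := t) (mul_pos hm hh) hn
  haveI := mp_finite (r := r) (t := t) hm hn
  have hσ : IsStemExtension σ := by
    refine ⟨MonoidHom.range_eq_top.1 ?_, hker ▸ hc, ?_⟩
    · rw [eq_top_iff, ← mp_gen]
      exact sup_le (zpowers_le.2 ⟨_, hσa⟩) (zpowers_le.2 ⟨_, hσb⟩)
    · rw [hker, zpowers_le]
      have h1 : (a ^ d) ^ v ∈ commutator _ := by
        rw [← pow_mul, show a ^ (d * v) = ⁅b, a⁆ from (mp_comm (Nat.add_one_pos _)).symm]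
        exact commutator_mem_commutator (mem_top _) (mem_top _)
      have h2 : orderOf (a ^ d) = m' * h := by
        have e1 : m * h = d * (m' * h) := by rw [← mul_assoc, ← hm']
        rw [orderOf_pow_of_dvd hd.ne' (by rw [ho, e1]; exact Nat.dvd_mul_right _ _), ho,
          e1, Nat.mul_div_cancel_left _ hd]
      have h3 := zpowers_le.2 h1 (mem_zpowers_pow_iff.2 (by rw [h2]; exact hv1))
      rw [show a ^ m = (a ^ d) ^ m' by rw [← pow_mul, ← hm']]
      exact pow_mem h3 _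
  have hcard : Nat.card σ.ker = h := by
    rw [hker, Nat.card_zpowers, orderOf_pow_of_dvd hm.ne' (by rw [ho]; exact Nat.dvd_mul_right _ _),
      ho, Nat.mul_div_cancel_left _ hm]
  haveI : IsCyclic σ.ker := by rw [hker]; infer_instance
  have hz : Nat.card (Multiplicative (ZMod h)) = h := Nat.card_zmod h
  refine hasSchurMultiplier_of_card_le hσ (mulEquivOfCyclicCardEq (by rw [hcard, hz])) ?_
  intro Γ _ _ τ hτ
  rw [hz]
  exact Nat.le_of_dvd hh (hup hτ)

end Cfsg.Agent.H27
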