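import Mathlib
import Cfsg.Agent.H7.M9
import Cfsg.Agent.L0.SL2Conj

/-! Counting characters of `p'`-degree for groups with a normal Sylow `p`-subgroup. -/

set_option autoImplicit false
set_option linter.unusedSectionVars false
set_option linter.unusedVariables false

namespace Cfsg.Agent.H27.Mk

open Subgroup Cfsg.Agent.H7

variable {G H : Type*} [Group G] [Group H] [Finite G] {p : ℕ}

noncomputable abbrev cnt (p : ℕ) (G : Type*) [Group G] : ℕ := Nat.card {χ : IrrCharacter G // ¬ p ∣ charDegree (χ : G → ℂ)}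

theorem cnt_congr (e : G ≃* H) : cnt p G = cnt p H :=
  Nat.card_congr
    { toFun := fun χ => ⟨⟨_, H6.isIrr_comp_equiv e.symm χ.1.2⟩, by simpa [charDegree] using χ.2⟩
      invFun := fun χ => ⟨⟨_, H6.isIrr_comp_equiv e χ.1.2⟩, by simpa [charDegree] using χ.2⟩
      left_inv := fun χ => by ext x; simp
      right_inv := fun χ => by ext x; simp }

theorem cnt_sylow [Fact p.Prime] (P Q : Sylow p G) :
    cnt p (normalizer ((P : Subgroup G) : Set G)) = cnt p (normalizer ((Q : Subgroup G) : Set G)) := by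
  obtain ⟨g, rfl⟩ := MulAction.exists_smul_eq G P Q
  refine cnt_congr (((MulAut.conj g).subgroupMap _).trans (MulEquiv.subgroupCongr ?_))
  exact map_equiv_normalizer_eq _ (MulAut.conj g)

theorem cnt_eq [hp : Fact p.Prime] (P K : Subgroup G) [P.Normal] [K.Normal] (hP : IsPGroup p P) (hi : ¬ p ∣ P.index)
    (hK : K = ⁅P, P⁆) : cnt p G = Nat.card (ConjClasses (G ⧸ K)) := by
  classical
  rw [← H6.card_irr_eq_card_conjClasses]
  refine (Nat.card_congr (Equiv.ofBijective (fun χ : IrrCharacter (G ⧸ K) =>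
    (⟨⟨_, H6.isIrr_inflate K χ.2⟩, fun h => hi ?_⟩ : {χ : IrrCharacter G // ¬ p ∣ charDegree (χ : G → ℂ)}))
    ⟨fun a b h => ?_, ?_⟩)).symm
  · have := degree_dvd_index_of_abelian_normal (P.map (QuotientGroup.mk' K)) (by
      rintro _ ⟨a, ha, rfl⟩ _ ⟨b, hb, rfl⟩
      rw [← commutatorElement_eq_one_iff_mul_comm, ← map_commutatorElement]
      exact (QuotientGroup.eq_one_iff _).2 (hK ▸ commutator_mem_commutator ha hb)) χ.2 (char_one_eq (irr_char χ.2))
    exact (h.trans this).trans (index_map_dvd _ (QuotientGroup.mk'_surjective K))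
  · refine Subtype.ext (funext fun q => ?_)
    obtain ⟨g, rfl⟩ := QuotientGroup.mk_surjective q
    exact congrFun (congrArg (fun t => t.1.1) h) g
  rintro ⟨⟨χ, hχ⟩, h1⟩
  have h2 : K ≤ H6.charKer χ := by
    haveI := Fintype.ofFinite P
    rw [hK, ← map_subtype_commutator, map_le_iff_le_comap]
    intro x hx
    have := H6.mem_charKer_of_forall_constituent (cf_comp P.subtype (irr_cf hχ)) (g := x) fun θ hθ h3 => by
      obtain ⟨e, h4, -⟩ := (isNE_subtype P).deg_ratio hθ hχ (by rwa [ip_eq_classInner])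
      obtain ⟨n, hn⟩ := IsPGroup.iff_card.1 hP
      obtain ⟨k, -, hk⟩ := (Nat.dvd_prime_pow hp.out).1 (hn ▸ irr_degree_dvd_card hθ)
      refine (deg_eq_one_iff hθ).1 ?_ hx
      obtain rfl | h5 := Nat.eq_zero_or_pos k
      · exact hk
      · exact (h1 (h4 ▸ (hk ▸ dvd_pow_self p h5.ne').mul_left e)).elim
    exact (H6.mem_charKer_iff (irr_char hχ)).2 (H6.apply_eq_of_mem_charKer this :)
  obtain ⟨ψ, hψ, rfl⟩ := H6.exists_irr_quotient K hχ h2
  exact ⟨⟨ψ, hψ⟩, rfl⟩

theorem cnt_eq_ab [hp : Fact p.Prime] (P : Subgroup G) [P.Normal] (hi : ¬ p ∣ P.index)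
    (hP : ∀ a ∈ P, ∀ b ∈ P, a * b = b * a) : cnt p G = Nat.card (ConjClasses G) := by
  rw [← H6.card_irr_eq_card_conjClasses]
  exact Nat.card_congr (Equiv.subtypeUnivEquiv fun χ h =>
    hi (h.trans (degree_dvd_index_of_abelian_normal P hP χ.2 (char_one_eq (irr_char χ.2)))))

theorem k_eq {Z A : Subgroup G} (h : Z ≤ A) {c : ℕ} (h1 : Z ≤ center G) (h2 : ∀ g ∈ A, g ∉ Z → centralizer {g} = A)
    (h3 : ∀ g ∉ A, Nat.card (centralizer {g}) = c) : Nat.card (ConjClasses G) * Nat.card G =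
      Nat.card Z * Nat.card G + (Nat.card A - Nat.card Z) * Nat.card A + (Nat.card G - Nat.card A) * c := by
  classical
  haveI := Fintype.ofFinite G
  have e : ∀ B : Subgroup G, (Finset.univ.filter (· ∈ B)).card = Nat.card B := fun B => by
    rw [Nat.card_eq_fintype_card, Fintype.card_subtype]
  rw [← L0.sum_card_centralizer, ← Finset.sum_filter_add_sum_filter_not _ (· ∈ A),
    ← Finset.sum_filter_add_sum_filter_not (Finset.univ.filter (· ∈ A)) (· ∈ Z),
    Finset.sum_const_nat (m := Nat.card G) fun g hg => by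
      rw [centralizer_eq_top_iff_subset.2 (by simpa using h1 (Finset.mem_filter.1 hg).2), card_top],
    Finset.sum_const_nat (m := Nat.card A) fun g hg => by
      rw [h2 g (Finset.mem_filter.1 (Finset.mem_filter.1 hg).1).2 (Finset.mem_filter.1 hg).2],
    Finset.sum_const_nat (m := c) fun g hg => h3 g (Finset.mem_filter.1 hg).2]
  have e1 : (Finset.univ.filter (· ∈ A)).filter (· ∈ Z) = Finset.univ.filter (· ∈ Z) := by
    ext g; simpa using @h g
  have e2 := Finset.card_filter_add_card_filter_not (s := Finset.univ.filter (· ∈ A)) (· ∈ Z)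
  have e3 := Finset.card_filter_add_card_filter_not (s := (Finset.univ : Finset G)) (· ∈ A)
  rw [e1, e, e] at e2
  rw [e, Finset.card_univ, ← Nat.card_eq_fintype_card] at e3
  rw [e1, e, Nat.sub_eq_of_eq_add' e2.symm, Nat.sub_eq_of_eq_add' e3.symm]

theorem mem_of_sq {V : Subgroup G} [V.Normal] (ho : Odd V.index) {g : G} (h : g * g ∈ V) : g ∈ V := by
  obtain ⟨m, hm⟩ := ho
  have := V.pow_index_mem g
  rwa [hm, pow_succ, pow_mul, sq, mul_mem_cancel_left (pow_mem h m)] at this

theorem k_four (V : Subgroup G) [hV : V.Normal] (h4 : Nat.card V = 4) (h2 : ∀ v ∈ V, v * v = 1) (ho : Odd V.index)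
    (hc : ∀ g, (∀ v ∈ V, g * v = v * g) → g ∈ V) : Nat.card (ConjClasses G) = 4 := by
  classical
  have ab : ∀ a ∈ V, ∀ b ∈ V, a * b = b * a := fun a ha b hb => by
    rw [← mul_eq_one_iff_inv_eq.1 (h2 _ (mul_mem ha hb)), mul_inv_rev, mul_eq_one_iff_inv_eq.1 (h2 a ha),
      mul_eq_one_iff_inv_eq.1 (h2 b hb)]
  have k : ∀ v ∈ V, v ≠ 1 → centralizer {v} = V := fun v hv h1 => by
    refine le_antisymm (fun g hg => mem_of_sq ho (hc _ fun w hw => ?_)) fun g hg =>
      mem_centralizer_singleton_iff.2 (ab g hg v hv)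
    rw [mem_centralizer_singleton_iff] at hg
    have i1 : Nat.card (zpowers v) = 2 := by rw [Nat.card_zpowers]; exact orderOf_eq_prime (by rw [sq, h2 v hv]) h1
    have i2 : ((zpowers v).subgroupOf V).index = 2 := by
      have := ((zpowers v).subgroupOf V).card_mul_index
      rw [Nat.card_congr (subgroupOfEquivOfLe (zpowers_le.2 hv)).toEquiv, i1, h4] at this
      omega
    have i3 : ∀ u ∈ zpowers v, g * u = u * g ∧ (u = 1 ∨ u = v) := by
      rintro _ ⟨n, rfl⟩
      refine ⟨(Commute.zpow_right hg n), ?_⟩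
      have : v ^ (2 : ℤ) = 1 := by rw [zpow_two, h2 v hv]
      rcases Int.even_or_odd' n with ⟨m, rfl | rfl⟩ <;> simp only [zpow_add, zpow_mul, this] <;> simp
    by_cases h5 : w ∈ zpowers v
    · exact Commute.mul_left (i3 w h5).1 (i3 w h5).1
    have h6 : g * w * g⁻¹ ∉ zpowers v := fun h => h5 (by
      rw [show w = g * w * g⁻¹ from mul_left_cancel (a := g) (by rw [(i3 _ h).1]; group)]; exact h)
    have h7 : g * w * g⁻¹ * w ∈ zpowers v := ((mul_mem_iff_of_index_two i2 (a := ⟨_, hV.conj_mem w hw g⟩)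
      (b := ⟨w, hw⟩)).2 (iff_of_false h6 h5) :)
    have h8 : g * w = (g * w * g⁻¹ * w) * w * g := by rw [mul_assoc _ w w, h2 w hw]; group
    have h9 := (i3 _ h7).1
    have h10 := h2 _ (zpowers_le.2 hv h7)
    generalize g * w * g⁻¹ * w = u at h8 h9 h10
    rw [mul_assoc, h8, ← mul_assoc, ← mul_assoc, h9, mul_assoc u, h8, ← mul_assoc, ← mul_assoc, h10]; group
  have e := V.card_mul_index
  obtain ⟨⟨v, hv⟩, h1⟩ := (ne_bot_iff_exists_ne_one (H := V)).1 (by rintro rfl; simp at h4)
  replace h1 : v ≠ 1 := fun e => h1 (Subtype.ext e)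
  have h3 : V.index ≤ 3 := by
    rw [← k v hv h1, ← L0.card_carrier_eq_index, Nat.card_coe_set_eq]
    have : ((V : Set G) \ {1}).ncard = 3 := by
      rw [Set.ncard_sdiff_singleton_of_mem (one_mem V), ← Nat.card_coe_set_eq]; exact congrArg (· - 1) h4
    refine this ▸ Set.ncard_le_ncard fun w hw => ?_
    obtain ⟨c, rfl⟩ := isConj_iff.1 (ConjClasses.mk_eq_mk_iff_isConj.1 (ConjClasses.mem_carrier_iff_mk_eq.1 hw).symm)
    exact ⟨hV.conj_mem v hv c, by simpa using h1⟩
  have h5 := k_eq (Z := ⊥) (A := V) bot_le (c := 3) bot_le (fun g hg h => k g hg h) fun g hg => by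
    have a1 : V.index ≠ 1 := fun h => hg ((index_eq_one.1 h).ge (mem_top g))
    have a2 : V.relIndex (centralizer {g}) ∣ 3 := by
      rw [show 3 = V.index by have := Nat.odd_iff.1 ho; omega]; exact relIndex_dvd_index_of_normal _ _
    have a3 : V ⊓ centralizer {g} = ⊥ := eq_bot_iff.2 fun v ⟨a, b⟩ => by_contra fun h =>
      hg ((k v a h).le (mem_centralizer_singleton_iff.2 (mem_centralizer_singleton_iff.1 b).symm))
    rw [← inf_relIndex_right, a3, relIndex_bot_left] at a2
    refine ((Nat.dvd_prime Nat.prime_three).1 a2).resolve_left fun h => hg ?_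
    rw [mem_bot.1 ((card_eq_one.1 h).le (mem_centralizer_singleton_iff.2 rfl))]; exact one_mem _
  rw [← e, h4, card_bot] at h5
  have := Nat.odd_iff.1 ho
  generalize V.index = i at *
  interval_cases i <;> omega

theorem cnt_sum (D : Finset ℕ) (h : ∀ χ : IrrCharacter G, charDegree (χ : G → ℂ) ∈ D) :
    cnt p G = ∑ d ∈ D, if p ∣ d then 0 else Nat.card {χ : IrrCharacter G // (χ : G → ℂ) 1 = d} := by
  classical
  haveI := Fintype.ofFinite (IrrCharacter G)
  rw [cnt, Nat.card_eq_fintype_card, Fintype.card_subtype,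
    Finset.card_eq_sum_card_fiberwise (f := fun χ : IrrCharacter G => charDegree (χ : G → ℂ)) (t := D) fun χ _ => h χ]
  refine Finset.sum_congr rfl fun d _ => ?_
  rw [Finset.filter_filter]
  split_ifs with h1
  · exact Finset.card_eq_zero.2 (Finset.filter_eq_empty_iff.2 fun χ _ h2 => h2.1 (h2.2 ▸ h1))
  · rw [Nat.card_eq_fintype_card, Fintype.card_subtype]
    refine congrArg _ (Finset.filter_congr fun χ _ => ?_)
    rw [char_one_eq (irr_char χ.2), Nat.cast_inj]
    exact ⟨fun h => h.2, fun h => ⟨h ▸ h1, h⟩⟩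

end Cfsg.Agent.H27.Mk
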