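import Mathlib
import Cfsg.Agent.H27.Mk1
import Cfsg.Agent.L0.PSL2
import Cfsg.Agent.H10.SL2b

/-! Centralizers and Sylow normalizers in `SL₂(q)`. -/

set_option autoImplicit false
set_option linter.unusedSectionVars false
set_option linter.unusedVariables false

namespace Cfsg.Agent.H27.Mk

open Subgroup Cfsg.Agent.L0 Matrix

variable {F : Type*} [Field F] [Fintype F] {g h a b x s : S2 F} {ℓ : ℕ}

theorem cm (a b : S2 F) : ((a * b : S2 F) : M2 F) = (a : M2 F) * (b : M2 F) := rfl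

theorem cen_comb (hg : g ∉ center (S2 F)) (h : a ∈ centralizer {g}) :
    ∃ u v : F, (a : M2 F) = u • (1 : M2 F) + v • (g : M2 F) :=
  (comm_iff_of_not_isScal (mt mem_center_s2.2 hg) _).1 (congrArg (fun y : S2 F => (y : M2 F)) (mem_centralizer_singleton_iff.1 h))

theorem cen_comm (hg : g ∉ center (S2 F)) (ha : a ∈ centralizer {g}) (hb : b ∈ centralizer {g}) : a * b = b * a := by
  obtain ⟨u, v, h1⟩ := cen_comb hg ha
  have h2 : (b : M2 F) * g = g * b := congrArg (fun y : S2 F => (y : M2 F)) (mem_centralizer_singleton_iff.1 hb)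
  refine Subtype.ext ?_
  rw [cm, cm, h1, add_mul, mul_add, smul_mul_assoc, smul_mul_assoc, mul_smul_comm, mul_smul_comm, h2, one_mul, mul_one]

theorem cen_eq (hg : g ∉ center (S2 F)) (ha : a ∈ centralizer {g}) (ha' : a ∉ center (S2 F)) :
    centralizer {a} = centralizer {g} :=
  le_antisymm (fun b hb => mem_centralizer_singleton_iff.2 (cen_comm ha' hb
    (mem_centralizer_singleton_iff.2 (mem_centralizer_singleton_iff.1 ha).symm)))
    fun b hb => mem_centralizer_singleton_iff.2 (cen_comm hg hb ha)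

theorem eq_or_inv (h2 : (2 : F) ≠ 0) (ht : (g : M2 F).trace ^ 2 ≠ 4) (ha : x * g * x⁻¹ ∈ centralizer {g}) :
    x * g * x⁻¹ = g ∨ x * g * x⁻¹ = g⁻¹ := by
  have h1 := trace_of_isConj_s2 (isConj_iff.2 ⟨x, rfl⟩ : IsConj g _)
  generalize x * g * x⁻¹ = a at ha h1
  obtain ⟨u, v, h0⟩ := cen_comb (mt mem_center_s2.1 (not_isScal_of_disc ht)) ha
  have h3 := a.2
  rw [h0] at h1 h3
  rw [det_comb, g.2] at h3
  simp only [trace_add, trace_smul, trace_one, Fintype.card_fin, smul_eq_mul, Nat.cast_ofNat] at h1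
  have h4 : (v - 1) * (v + 1) * ((g : M2 F).trace ^ 2 - 4) = 0 := by
    linear_combination (-4) * h3 - (2 * u + (1 + v) * (g : M2 F).trace) * h1
  rcases mul_eq_zero.1 ((mul_eq_zero.1 h4).resolve_right (sub_ne_zero.2 ht)) with h | h
  · obtain rfl : v = 1 := sub_eq_zero.1 h
    obtain rfl : u = 0 := mul_left_cancel₀ h2 (by linear_combination -h1)
    exact .inl (Subtype.ext (by simpa using h0))
  · obtain rfl : v = -1 := eq_neg_of_add_eq_zero_left h
    obtain rfl : u = (g : M2 F).trace := mul_left_cancel₀ h2 (by linear_combination -h1)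
    exact .inr (Subtype.ext (by rw [h0, s2_cayley, neg_one_smul, sub_eq_add_neg]))

theorem inverts (hg : g ∉ center (S2 F)) (hx : x * g * x⁻¹ = g⁻¹) (ha : a ∈ centralizer {g}) : x * a * x⁻¹ = a⁻¹ := by
  obtain ⟨u, v, h0⟩ := cen_comb hg ha
  have h1 : (x : M2 F) * g = (g⁻¹ : S2 F) * x := by rw [← cm, ← cm, ← hx, inv_mul_cancel_right]
  rw [mul_inv_eq_iff_eq_mul]
  refine Subtype.ext ?_
  rw [cm, cm, s2_cayley, h0, mul_add, mul_smul_comm, mul_smul_comm, h1, s2_cayley]
  simp only [trace_add, trace_smul, trace_one, Fintype.card_fin, smul_eq_mul, Nat.cast_ofNat, sub_mul, add_mul,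
    smul_mul_assoc, one_mul, mul_one]
  module

theorem ss (h2 : (2 : F) ≠ 0) (hg : g ∉ center (S2 F)) {m : ℕ} (hm : g ^ m = 1) (h0 : (m : F) ≠ 0) :
    (g : M2 F).trace ^ 2 ≠ 4 ∧ (∃ x, x * g * x⁻¹ = g⁻¹) ∧
      (Nat.card (centralizer {g}) = Fintype.card F - 1 ∨ Nat.card (centralizer {g}) = Fintype.card F + 1) := by
  have k : ∀ z, ¬ IsConj (jb z) (tG g) := fun z hz => by
    have := hz.pow m
    rw [← map_pow, hm, map_one, isConj_one_left, jb_pow] at this
    have := congrArg (fun y : G2 F => (y : M2 F) 0 1) this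
    simp [tG_val, m2_mul_apply, h0] at this
  have ht : (g : M2 F).trace ^ 2 ≠ 4 := fun h => by
    have h1 : (g : M2 F).trace / 2 * ((g : M2 F).trace / 2) = 1 := by field_simp; linear_combination h
    exact k (Units.mkOfMulEqOne _ _ h1) (isConj_jb (mt mem_center_s2.2 hg) (by simp [tG_val]; field_simp; ring) (by
      rw [tG_val, g.2]; exact h1.symm))
  rcases s2_cases g with h | ⟨z, h⟩ | ⟨a, ha, h⟩ | ⟨c, hc, h⟩
  · exact (hg (mem_center_s2.2 h)).elim
  · exact (k z h).elim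
  · exact ⟨ht, isConj_iff.1 (isConj_of_trace_s2 (detFull_of_isConj_ds h) ht (trace_inv_s2 g)),
      .inl (card_centralizer_s2_split ha (by rw [← tG_ds]; exact MonoidHom.map_isConj tG h))⟩
  · exact ⟨ht, isConj_iff.1 (isConj_of_trace_s2 (detFull_of_isConj_elS h) ht (trace_inv_s2 g)),
      .inr (by rw [← card_centralizer_of_isConj h, card_centralizer_s2_elliptic (elS_no_root hc)])⟩

theorem card_center_s2 (h2 : (2 : F) ≠ 0) : Nat.card (center (S2 F)) = 2 := by
  rw [Nat.card_eq_two_iff' 1]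
  refine ⟨⟨-1, mem_center_s2'.2 (.inr rfl)⟩, fun e => neg_one_ne_one_s2 h2 (congrArg Subtype.val e), fun y hy => ?_⟩
  exact Subtype.ext ((mem_center_s2'.1 y.2).resolve_left fun e => hy (Subtype.ext e))

theorem cen_sub {G : Type*} [Group G] (N : Subgroup G) (g : N) :
    centralizer {g} = (centralizer {(g : G)}).subgroupOf N := by
  ext a; simp only [mem_subgroupOf, mem_centralizer_singleton_iff, Subtype.ext_iff, coe_mul]

theorem k_sub (h2 : (2 : F) ≠ 0) {N : Subgroup (S2 F)} (hs : s ∉ center (S2 F)) (hA : centralizer {s} ≤ N) {c : ℕ}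
    (h : ∀ g ∈ N, g ∉ centralizer {s} → Nat.card (centralizer {g} ⊓ N : Subgroup _) = c) :
    Nat.card (ConjClasses N) * Nat.card N = 2 * Nat.card N + (Nat.card (centralizer {s}) - 2) *
      Nat.card (centralizer {s}) + (Nat.card N - Nat.card (centralizer {s})) * c := by
  have h1 : center (S2 F) ≤ centralizer {s} := center_le_centralizer _
  have := k_eq (Z := (center (S2 F)).subgroupOf N) (A := (centralizer {s}).subgroupOf N) (comap_mono h1) (c := c)
    (fun z hz => mem_center_iff.2 fun g => Subtype.ext (mem_center_iff.1 hz g))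
    (fun g hg hz => by rw [cen_sub, cen_eq (a := g) hs hg hz]) fun g hg => by
      rw [cen_sub, ← inf_subgroupOf_right, Nat.card_congr (subgroupOfEquivOfLe inf_le_right).toEquiv, h g g.2 hg]
  rwa [Nat.card_congr (subgroupOfEquivOfLe hA).toEquiv, Nat.card_congr (subgroupOfEquivOfLe (h1.trans hA)).toEquiv,
    card_center_s2 h2] at this

theorem cnt_nrm [Fact ℓ.Prime] {G : Type*} [Group G] [Finite G] (S : Sylow ℓ G)
    (h : ∀ a ∈ S, ∀ b ∈ S, a * b = b * a) : cnt ℓ (normalizer ((S : Subgroup G) : Set G)) =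
      Nat.card (ConjClasses (normalizer ((S : Subgroup G) : Set G))) :=
  cnt_eq_ab ((S : Subgroup G).subgroupOf _) (fun hd => S.not_dvd_index (hd.trans (relIndex_dvd_index_of_le le_normalizer)))
    fun a ha b hb => Subtype.ext (h a ha b hb)

theorem cnt_odd [hl : Fact ℓ.Prime] (h2 : (2 : F) ≠ 0) (ho : ℓ ≠ 2) (h0 : (ℓ : F) ≠ 0) (S : Sylow ℓ (S2 F))
    (hS : (S : Subgroup (S2 F)) ≠ ⊥) : ∃ c, (c = Fintype.card F - 1 ∨ c = Fintype.card F + 1) ∧ ℓ ∣ c ∧
      2 * cnt ℓ (normalizer ((S : Subgroup (S2 F)) : Set (S2 F))) = c + 6 := by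
  haveI := (nontrivial_iff_ne_bot _).2 hS
  haveI := S.isPGroup'.center_nontrivial
  obtain ⟨⟨⟨s, hs⟩, s1⟩, s2⟩ := exists_ne (1 : center S)
  replace s2 : s ≠ 1 := fun e => s2 (Subtype.ext (Subtype.ext e))
  obtain ⟨k, hk⟩ := IsPGroup.iff_orderOf.1 S.isPGroup' ⟨s, hs⟩
  rw [orderOf_mk] at hk
  have s3 : ℓ ∣ orderOf s := hk ▸ dvd_pow_self _ (by rintro rfl; exact s2 (orderOf_eq_one_iff.1 hk))
  have s4 : ∀ y : S2 F, y * y = 1 → y ∈ center (S2 F) := fun y hy => mem_center_s2'.2 (H10.sl2_involution h2 hy)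
  have s5 : s * s ≠ 1 := fun e =>
    ho ((Nat.prime_dvd_prime_iff_eq hl.out Nat.prime_two).1 (s3.trans (orderOf_dvd_of_pow_eq_one (by rwa [sq]))))
  have s6 : s ∉ center (S2 F) := fun e => s5 (by rcases mem_center_s2'.1 e with rfl | rfl <;> simp)
  obtain ⟨t1, ⟨x, hx⟩, t2⟩ := ss h2 s6 (hk ▸ pow_orderOf_eq_one s) (by simpa using fun h => (h0 h).elim)
  set A := centralizer {s}
  have a1 : (S : Subgroup (S2 F)) ≤ A := fun a ha =>
    mem_centralizer_singleton_iff.2 (congrArg Subtype.val (mem_center_iff.1 s1 ⟨a, ha⟩))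
  set N := normalizer ((S : Subgroup (S2 F)) : Set (S2 F))
  have a2 : A ≤ N := fun a ha => mem_normalizer_fintype fun b hb => by
    rwa [cen_comm s6 ha (a1 hb), mul_inv_cancel_right]
  have a3 : ∀ g ∈ N, g ∉ A → ∀ a ∈ A, g * a * g⁻¹ = a⁻¹ := fun g hg h a ha =>
    inverts s6 ((eq_or_inv h2 t1 (a1 ((mem_normalizer_iff.1 hg s).1 hs))).resolve_left fun e =>
      h (mem_centralizer_singleton_iff.2 (mul_inv_eq_iff_eq_mul.1 e))) ha
  have a4 : ∀ {B : Subgroup (S2 F)} {x}, B ≤ N → x ∈ B → x ∉ A → Nat.card B = Nat.card (A ⊓ B : Subgroup _) * 2 := by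
    intro B x hB hx h
    have : (A.subgroupOf B).index = 2 := index_eq_two_iff_exists_notMem_and.2 ⟨⟨x, hx⟩, h, fun g =>
      or_iff_not_imp_right.2 fun hg => mem_centralizer_singleton_iff.2 (by
        have e1 := a3 _ (hB g.2) hg _ (inv_mem (mem_centralizer_singleton_iff.2 (rfl : s * s = s * s)))
        have e2 := a3 _ (hB hx) h _ (mem_centralizer_singleton_iff.2 (rfl : s * s = s * s))
        rw [inv_inv, ← e2] at e1
        show g * x * s = s * (g * x)
        rw [← mul_inv_eq_iff_eq_mul]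
        conv_rhs => rw [← e1]
        group)⟩
    rw [← (A.subgroupOf B).card_mul_index, this, ← inf_subgroupOf_right,
      Nat.card_congr (subgroupOfEquivOfLe inf_le_right).toEquiv]
  have x1 : x ∈ N := mem_normalizer_fintype fun b hb => inverts s6 hx (a1 hb) ▸ inv_mem hb
  have x2 : x ∉ A := fun e => s5 (by
    rw [mem_centralizer_singleton_iff.1 e, mul_inv_cancel_right] at hx; exact mul_eq_one_iff_eq_inv.2 hx)
  have a5 := a4 le_rfl x1 x2
  rw [inf_eq_left.2 a2] at a5
  have a6 := k_sub h2 s6 a2 (c := 4) fun g hg h => by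
    rw [a4 inf_le_right ⟨mem_centralizer_singleton_iff.2 rfl, hg⟩ h, show A ⊓ (centralizer {g} ⊓ N) = center (S2 F) from
      le_antisymm (fun a ha => s4 a ?_) (le_inf (center_le_centralizer _) (le_inf (center_le_centralizer _)
        ((center_le_centralizer _).trans a2))), card_center_s2 h2]
    have := a3 g hg h a ha.1
    rw [← mem_centralizer_singleton_iff.1 ha.2.1, mul_inv_cancel_right] at this
    exact mul_eq_one_iff_eq_inv.2 this
  refine ⟨Nat.card A, t2, s3.trans (A.orderOf_dvd_natCard (a1 hs)), ?_⟩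
  rw [cnt_nrm S fun a ha b hb => cen_comm s6 (a1 ha) (a1 hb)]
  have a7 : 2 ≤ Nat.card A := (card_center_s2 h2).ge.trans (card_le_of_le (center_le_centralizer _))
  rw [a5] at a6
  obtain ⟨c, hc⟩ := Nat.exists_eq_add_of_le' a7
  rw [hc, Nat.add_sub_cancel, show (c + 2) * 2 - (c + 2) = c + 2 by omega] at a6
  rw [hc]
  exact Nat.eq_of_mul_eq_mul_right (show 0 < c + 2 by omega) (by linarith)

end Cfsg.Agent.H27.Mk
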