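import Mathlib
import Cfsg.Agent.H27.Mk2

/-! The Borel subgroup and the Sylow 2-normalizer of `SL₂(q)`. -/

set_option autoImplicit false
set_option linter.unusedSectionVars false
set_option linter.unusedVariables false

namespace Cfsg.Agent.H27.Mk

open Subgroup Cfsg.Agent.L0 Matrix

variable {F : Type*} [Field F] [Fintype F] {g h a b x s : S2 F} {ℓ : ℕ}

def uH : Multiplicative F →* S2 F := MonoidHom.mk' (fun b => uu b.toAdd) fun _ _ => uu_add _ _

theorem card_uH : Nat.card (uH (F := F)).range = Fintype.card F := by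
  rw [← Nat.card_congr (MonoidHom.ofInjective (f := uH (F := F)) fun a b h => Multiplicative.toAdd.injective (uu_inj h)).toEquiv]
  simp

theorem mem_nU : g ∈ normalizer ((uH (F := F)).range : Set (S2 F)) ↔ (g : M2 F) 1 0 = 0 := by
  constructor
  · intro h
    obtain ⟨b, hb⟩ := (mem_normalizer_iff.1 h _).1 ⟨.ofAdd 1, rfl⟩
    have := congrArg (fun y : S2 F => (y : M2 F) 1 1) (eq_mul_inv_iff_mul_eq.1 hb)
    simpa [uH, cm, m2_mul_apply] using this
  · refine fun h => mem_normalizer_fintype ?_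
    rintro _ ⟨b, rfl⟩
    have := s2_det g
    refine ⟨.ofAdd _, (eq_uu ?_ ?_ ?_).symm⟩ <;>
      simp [uH, cm, adjugate_fin_two, m2_mul_apply, h] at this ⊢ <;> linear_combination this

theorem card_nU : Nat.card (normalizer ((uH (F := F)).range : Set (S2 F))) = Fintype.card F * (Fintype.card F - 1) := by
  rw [mul_comm, ← card_units_eq, ← Nat.card_eq_fintype_card, ← Nat.card_prod]
  refine (Nat.card_congr (Equiv.ofBijective (fun y : Fˣ × F => (⟨ds y.1 * uu y.2, mem_nU.2 (by
    simp [cm, m2_mul_apply, ds_val])⟩ : normalizer ((uH (F := F)).range : Set (S2 F)))) ⟨?_, ?_⟩)).symm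
  · rintro ⟨a, b⟩ ⟨c, d⟩ h
    replace h : ds a * uu b = ds c * uu d := congrArg Subtype.val h
    obtain rfl : a = c := Units.ext (by simpa [cm, m2_mul_apply, ds_val] using congrArg (fun y : S2 F => (y : M2 F) 0 0) h)
    rw [uu_inj (mul_left_cancel h)]
  · rintro ⟨g, hg⟩
    have h := mem_nU.1 hg
    have h1 := s2_det g
    rw [h, mul_zero, sub_zero] at h1
    refine ⟨(Units.mkOfMulEqOne _ _ h1, (g : M2 F) 1 1 * (g : M2 F) 0 1), Subtype.ext (Subtype.ext (m2_ext ?_ ?_ ?_ ?_))⟩ <;>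
      simp [cm, m2_mul_apply, ds_val, h, ← mul_assoc, h1]
    exact (eq_inv_of_mul_eq_one_right h1).symm

theorem cnt_char [hl : Fact ℓ.Prime] [CharP F ℓ] (h2 : (2 : F) ≠ 0) (S : Sylow ℓ (S2 F)) :
    cnt ℓ (normalizer ((S : Subgroup (S2 F)) : Set (S2 F))) = Fintype.card F + 3 := by
  obtain ⟨n, -, hn⟩ := FiniteField.card F ℓ
  have q2 := two_le_card (F := F)
  have h1 : (uH (F := F)).range.index = Fintype.card F ^ 2 - 1 := by
    have := (uH (F := F)).range.card_mul_index
    rw [card_uH, card_s2] at this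
    exact Nat.eq_of_mul_eq_mul_left (by omega) this
  rw [cnt_sylow S ((IsPGroup.of_card (card_uH.trans hn)).toSylow (h1 ▸ fun h => hl.out.not_dvd_one
    ((Nat.dvd_sub_iff_right (Nat.one_le_pow _ _ (by omega))
      (dvd_pow (hn ▸ dvd_pow_self _ n.ne_zero) two_ne_zero)).1 h))), cnt_nrm _ (by
      rintro _ ⟨a, rfl⟩ _ ⟨b, rfl⟩; rw [← map_mul, mul_comm, map_mul])]
  have k : ∀ g : S2 F, g ∉ center (S2 F) → (g : M2 F) 1 0 = 0 → centralizer {g} ≤ normalizer ((uH (F := F)).range : Set (S2 F)) :=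
    fun g h1 h2 a ha => mem_nU.2 (by obtain ⟨u, v, h⟩ := cen_comb h1 ha; simp [h, h2])
  have s1 : uu (1 : F) ∉ center (S2 F) := fun h => by simpa using (mem_center_s2.1 h).1
  have := k_sub h2 s1 (k _ s1 (by simp)) (c := Fintype.card F - 1) fun g hg h => by
    have h3 := mem_nU.1 hg
    have h4 := s2_det g
    rw [h3, mul_zero, sub_zero] at h4
    rw [inf_eq_left.2 (k g (fun e => h (center_le_centralizer _ e)) h3)]
    refine card_centralizer_s2_split (a := Units.mkOfMulEqOne _ _ h4) (b := Units.mkOfMulEqOne _ _ ((mul_comm _ _).trans h4))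
      (fun e => h (mem_centralizer_singleton_iff.2 (Subtype.ext ?_))) (isConj_dg (fun e => h (mem_centralizer_singleton_iff.2 (Subtype.ext ?_))) ?_ ?_)
    · replace e : (g : M2 F) 0 0 = (g : M2 F) 1 1 := congrArg Units.val e
      refine m2_ext ?_ ?_ ?_ ?_ <;> simp [cm, m2_mul_apply, h3, e, add_comm]
    · replace e : (g : M2 F) 0 0 = (g : M2 F) 1 1 := congrArg Units.val e
      refine m2_ext ?_ ?_ ?_ ?_ <;> simp [cm, m2_mul_apply, h3, e, add_comm]
    · simp [tG_val, trace_fin_two]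
    · rw [tG_val, g.2]; exact h4.symm
  rw [card_nU, card_centralizer_jordan (by simp) (by simp) (by simp), card_sq_eq_one_odd h2] at this
  have q3 := Nat.odd_iff.1 (odd_card_of_two_ne_zero h2)
  obtain ⟨m, hm⟩ : ∃ m, Fintype.card F = m + 3 := ⟨Fintype.card F - 3, by omega⟩
  rw [hm, show m + 3 - 1 = m + 2 by omega, show 2 * (m + 3) - 2 = 2 * m + 4 by omega,
    show (m + 3) * (m + 2) - 2 * (m + 3) = (m + 3) * m by rw [mul_add, mul_comm 2, Nat.add_sub_cancel]] at this
  exact Nat.eq_of_mul_eq_mul_right (show 0 < (m + 3) * (m + 2) by positivity) (this.trans (by rw [hm]; ring))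

open QuaternionGroup in
theorem quat (n : ℕ) [NeZero n] (hn : 2 ∣ n) : ∃ t x : QuaternionGroup n, orderOf t = 2 * n ∧ x * t * x⁻¹ = t⁻¹ ∧
    commutator (QuaternionGroup n) = zpowers (t ^ 2) ∧ ∀ g, g * g ∈ commutator (QuaternionGroup n) := by
  have k : ∀ i : ZMod (2 * n), QuaternionGroup.a (2 * i) ∈ zpowers ((QuaternionGroup.a 1 : QuaternionGroup n) ^ 2) :=
    fun i => by
      rw [show QuaternionGroup.a (2 * i) = ((QuaternionGroup.a 1 : QuaternionGroup n) ^ 2) ^ i.val by
        rw [← pow_mul, a_one_pow]; simp]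
      exact pow_mem (mem_zpowers _) _
  have k2 : ∀ g h : QuaternionGroup n, ∃ i, g * h = QuaternionGroup.a (2 * i) * (h * g) := by
    rintro (i | i) (j | j)
    · exact ⟨0, by simp [add_comm]⟩
    · exact ⟨i, by simp only [a_mul_xa, xa_mul_a]; congr 1; ring⟩
    · exact ⟨-j, by simp only [a_mul_xa, xa_mul_a]; congr 1; ring⟩
    · exact ⟨j - i, by simp only [a_mul_a, xa_mul_xa]; congr 1; ring⟩
  have e : (xa 0 : QuaternionGroup n) * QuaternionGroup.a 1 * (xa 0)⁻¹ = (QuaternionGroup.a 1)⁻¹ := by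
    rw [mul_inv_eq_iff_eq_mul, eq_inv_mul_iff_mul_eq]; simp
  have e2 : commutator (QuaternionGroup n) = zpowers (QuaternionGroup.a 1 ^ 2) := by
    refine le_antisymm (commutator_le.2 fun g _ h _ => ?_) (zpowers_le.2 ?_)
    · obtain ⟨i, hi⟩ := k2 g h
      rw [commutatorElement_def, hi]
      simpa [mul_assoc] using k i
    · have := commutator_mem_commutator (mem_top (xa 0 : QuaternionGroup n)) (mem_top (QuaternionGroup.a 1))
      rw [commutatorElement_def, e, ← _root_.mul_inv_rev, inv_mem_iff] at this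
      rwa [sq]
  refine ⟨_, _, orderOf_a_one, e, e2, ?_⟩
  rw [e2]
  rintro (i | i)
  · simpa [two_mul] using k i
  · obtain ⟨m, hm⟩ := hn
    have : (n : ZMod (2 * n)) = 2 * m := by exact_mod_cast congrArg Nat.cast hm
    simpa [this] using k m

theorem cnt_two (h2 : (2 : F) ≠ 0) (S : Sylow 2 (S2 F)) : cnt 2 (normalizer ((S : Subgroup (S2 F)) : Set (S2 F))) = 4 := by
  obtain ⟨k, hk, ⟨e⟩⟩ := (H10.sl2_two_group h2 S.isPGroup').resolve_left (H10.not_isCyclic_sylow_two h2 S)
  obtain ⟨t, x, a1, a2, a3, a4⟩ := quat (2 ^ k) (dvd_pow_self 2 (by omega))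
  set N := normalizer ((S : Subgroup (S2 F)) : Set (S2 F))
  let f : QuaternionGroup (2 ^ k) →* N := (inclusion le_normalizer).comp e.symm.toMonoidHom
  have hf : Function.Injective f := (inclusion_injective le_normalizer).comp e.symm.injective
  set P := (S : Subgroup (S2 F)).subgroupOf N
  have hP : f.range = P := by
    ext g; exact ⟨by rintro ⟨y, rfl⟩; exact (e.symm y).2, fun hg => ⟨e ⟨g, hg⟩, by simp [f]; rfl⟩⟩
  have hK : ⁅P, P⁆ = (commutator _).map f := by rw [map_commutator_eq, hP]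
  have hi : ¬ 2 ∣ P.index := fun hd => S.not_dvd_index (hd.trans (relIndex_dvd_index_of_le le_normalizer))
  rw [cnt_eq P _ S.isPGroup'.comap_subtype hi rfl]
  have hKP : ⁅P, P⁆ ≤ P := commutator_le_left P P
  have k2 : 2 ≤ 2 ^ k := Nat.le_self_pow (by omega) 2
  refine k_four (P.map (QuotientGroup.mk' _)) ?_ ?_ ?_ fun g hg => ?_
  · have := relIndex_mul_relIndex ⊥ _ _ bot_le hKP
    have e1 := relIndex_ker P (QuotientGroup.mk' ⁅P, P⁆)
    rw [QuotientGroup.ker_mk'] at e1
    rw [relIndex_bot_left, relIndex_bot_left, e1, congrArg (fun K : Subgroup N => Nat.card K) hK,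
      card_map_of_injective hf, a3, Nat.card_zpowers, orderOf_pow, a1, Nat.gcd_mul_right_left,
      Nat.mul_div_cancel_left _ two_pos] at this
    conv at this => rhs; rw [← hP, ← Nat.card_congr (MonoidHom.ofInjective hf).toEquiv, Nat.card_eq_fintype_card,
      QuaternionGroup.card, mul_comm]
    exact Nat.eq_of_mul_eq_mul_left (by omega) this
  · rintro _ ⟨g, hg, rfl⟩
    obtain ⟨y, rfl⟩ := hP.ge hg
    rw [← map_mul, ← map_mul]
    exact (QuotientGroup.eq_one_iff _).2 (hK.ge (mem_map_of_mem f (a4 y)))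
  · rw [index_map_eq _ (QuotientGroup.mk'_surjective _) (by rwa [QuotientGroup.ker_mk'])]
    exact Nat.odd_iff.2 (by omega)
  obtain ⟨g, rfl⟩ := QuotientGroup.mk'_surjective _ g
  have b1 : orderOf (f t : S2 F) = 2 * 2 ^ k := by rw [orderOf_coe, orderOf_injective f hf, a1]
  have b2 : (f t : S2 F) ∉ center (S2 F) := fun h => by
    have : orderOf (f t : S2 F) ≤ 2 := orderOf_le_of_pow_eq_one two_pos (by rcases mem_center_s2'.1 h with h | h <;> simp [h])
    omega
  obtain ⟨b3, -⟩ := ss h2 b2 (b1 ▸ pow_orderOf_eq_one _) (by simp [h2])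
  have b4 : (g : S2 F) * f t * (g : S2 F)⁻¹ ∈ centralizer {(f t : S2 F)} := by
    have := hg _ (mem_map_of_mem _ (hP.le ⟨t, rfl⟩))
    rw [← commutatorElement_eq_one_iff_mul_comm, ← map_commutatorElement, QuotientGroup.mk'_apply,
      QuotientGroup.eq_one_iff, hK, a3] at this
    obtain ⟨_, ⟨i, rfl⟩, hi⟩ := this
    have h5 : g * f t * g⁻¹ = f t ^ (2 * i + 1) := by
      rw [_root_.zpow_add_one, _root_.zpow_mul, zpow_ofNat, ← map_pow, ← map_zpow, hi, commutatorElement_def, inv_mul_cancel_right]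
    rw [show (g : S2 F) * f t * (g : S2 F)⁻¹ = (f t : S2 F) ^ (2 * i + 1) from congrArg Subtype.val h5]
    exact zpow_mem (mem_centralizer_singleton_iff.2 rfl) _
  have b5 : (g : S2 F) * g ∈ centralizer {(f t : S2 F)} := by
    rw [mem_centralizer_singleton_iff, ← mul_inv_eq_iff_eq_mul,
      show (g : S2 F) * g * f t * ((g : S2 F) * g)⁻¹ = g * (g * f t * (g : S2 F)⁻¹) * (g : S2 F)⁻¹ by group]
    rcases eq_or_inv h2 b3 b4 with h | h
    · rw [h, h]
    · rw [h, ← conj_inv, h, inv_inv]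
  have b6 : f x * (g * g) * (f x)⁻¹ = (g * g)⁻¹ := Subtype.ext (inverts b2 (by
    have := congrArg (fun y => (f y : S2 F)) a2
    simpa using this) b5)
  refine mem_map_of_mem _ (mem_of_sq (Nat.odd_iff.2 (by omega)) (mem_of_sq (Nat.odd_iff.2 (by omega)) ?_))
  have b7 : f x ∈ P := hP.le ⟨x, rfl⟩
  rw [show g * g * (g * g) = g * g * f x * (g * g)⁻¹ * (f x)⁻¹ by
    rw [mul_assoc _ _ (f x)⁻¹, mul_assoc _ (f x), ← mul_assoc (f x), ← conj_inv, b6, inv_inv]]
  exact mul_mem (Normal.conj_mem inferInstance _ b7 _) (inv_mem b7)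

end Cfsg.Agent.H27.Mk
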