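import Mathlib
import Cfsg.Agent.H27.Count
import Cfsg.Agent.H28.FrobCount
import Cfsg.Agent.H6.Frobenius

/-! Numbers of elements of given order. -/

set_option autoImplicit false

namespace Cfsg.Agent.H27

open Subgroup

/-- number of elements of order `m` -/
noncomputable def nse (G : Type*) [Group G] (m : ℕ) : ℕ := Nat.card {g : G // orderOf g = m}

theorem sum_div_mul {m n : ℕ} (h : m.Coprime n) (f : ℕ → ℕ) :
    ∑ e ∈ (m * n).divisors, f e = ∑ a ∈ m.divisors, ∑ b ∈ n.divisors, f (a * b) := by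
  rw [Nat.divisors_mul, Finset.mul_def, Finset.sum_image h.mul_injOn_divisors, Finset.sum_product]

theorem sum_div_prime {p : ℕ} (hp : p.Prime) (f : ℕ → ℕ) : ∑ e ∈ p.divisors, f e = f 1 + f p := by
  rw [hp.divisors, Finset.sum_pair hp.one_lt.ne]

theorem sum_div_four (f : ℕ → ℕ) : ∑ e ∈ (4 : ℕ).divisors, f e = f 1 + f 2 + f 4 := by
  rw [show (4 : ℕ).divisors = {1, 2, 4} from rfl]; simp [add_assoc]

variable {G : Type*} [Group G] [Finite G]

theorem nse_sum {d : ℕ} (hd : d ≠ 0) : ∑ e ∈ d.divisors, nse G e = Nat.card {g : G // g ^ d = 1} := by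
  classical
  haveI := Fintype.ofFinite G
  simp only [nse, Nat.card_eq_fintype_card, Fintype.card_subtype]
  exact sum_card_orderOf_eq_card_pow_eq_one hd

theorem nse_frob {d : ℕ} (h : d ∣ Nat.card G) : d ∣ ∑ e ∈ d.divisors, nse G e := by
  rw [nse_sum (ne_zero_of_dvd_ne_zero Nat.card_pos.ne' h)]
  exact H28.dvd_ncard_pow_eq_one h

theorem totient_dvd_nse (n : ℕ) : n.totient ∣ nse G n := totient_dvd_ncard_orderOf n

theorem even_nse {n : ℕ} (h : 2 < n) : 2 ∣ nse G n :=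
  (Nat.totient_even h).two_dvd.trans (totient_dvd_nse n)

theorem four_dvd_nse {a b : ℕ} (h : a.Coprime b) (ha : 2 < a) (hb : 2 < b) : 4 ∣ nse G (a * b) := by
  refine Dvd.dvd.trans ?_ (totient_dvd_nse _)
  rw [Nat.totient_mul h]
  exact mul_dvd_mul (Nat.totient_even ha).two_dvd (Nat.totient_even hb).two_dvd

omit [Finite G] in
theorem nse_one : nse G 1 = 1 := by
  simp only [nse, orderOf_eq_one_iff]
  exact Nat.card_unique

theorem nse_ne_zero {n : ℕ} : nse G n ≠ 0 ↔ ∃ g : G, orderOf g = n := by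
  rw [nse, Nat.card_ne_zero, nonempty_subtype]
  exact and_iff_left inferInstance

theorem nse_prime {p : ℕ} (hp : p.Prime) (h : p ∣ Nat.card G) : p ∣ 1 + nse G p := by
  simpa only [sum_div_prime hp, nse_one] using nse_frob h

/-- Frobenius for `p * d`, modulo `p` -/
theorem nse_frob_mul {p d : ℕ} (hp : p.Prime) (h : p ∣ Nat.card G) (hd : d ∣ Nat.card G) (hc : p.Coprime d) :
    p ∣ ∑ e ∈ d.divisors, nse G e + ∑ e ∈ d.divisors, nse G (p * e) := by
  have := (dvd_mul_right p d).trans (nse_frob (hc.mul_dvd_of_dvd_of_dvd h hd))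
  simpa only [sum_div_mul hc, sum_div_prime hp, one_mul] using this

omit [Finite G] in
theorem unique_of_nse {n : ℕ} (h : nse G n = 1) {s t : G} (hs : orderOf s = n) (ht : orderOf t = n) :
    s = t := by
  haveI := (Nat.card_eq_one_iff_unique.1 h).1
  exact congrArg Subtype.val (Subsingleton.elim (⟨s, hs⟩ : {g : G // orderOf g = n}) ⟨t, ht⟩)

theorem exists_central_invol (h : nse G 2 = 1) : ∃ z ∈ center G, orderOf z = 2 := by
  obtain ⟨z, hz⟩ := nse_ne_zero.1 (h.trans_ne one_ne_zero)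
  refine ⟨z, mem_center_iff.2 fun g => mul_inv_eq_iff_eq_mul.1 (unique_of_nse h ?_ hz), hz⟩
  rw [← hz]; exact (MulAut.conj g).orderOf_eq z

theorem nse_two_mul (h : nse G 2 = 1) {k : ℕ} (hk : Odd k) : nse G (2 * k) = nse G k := by
  obtain ⟨z, hz, hz2⟩ := exists_central_invol h
  have hc : ∀ x : G, Commute z x := fun x => (mem_center_iff.1 hz x).symm
  have hzz : z * z = 1 := by rw [← sq, ← hz2, pow_orderOf_eq_one]
  have e : ∀ x, z * (z * x) = x := fun x => by rw [← mul_assoc, hzz, one_mul]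
  refine Nat.card_congr ⟨fun x => ⟨z * x.1, ?_⟩, fun x => ⟨z * x.1, ?_⟩, fun x => Subtype.ext (e _),
    fun x => Subtype.ext (e _)⟩
  · have h1 : x.1 ^ k = z := unique_of_nse h (by
      rw [orderOf_pow_of_dvd hk.pos.ne' (by rw [x.2]; exact dvd_mul_left _ _), x.2, Nat.mul_div_cancel _ hk.pos]) hz2
    have h2 : (z * x.1) ^ k = 1 := by
      obtain ⟨j, hj⟩ := hk
      rw [(hc _).mul_pow, h1, ← pow_succ, ← orderOf_dvd_iff_pow_eq_one, hz2]
      omega
    have h3 := orderOf_dvd_of_pow_eq_one h2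
    have h4 := (hc (z * x.1)).orderOf_mul_eq_mul_orderOf_of_coprime
      (by rw [hz2]; exact Nat.coprime_two_left.2 (hk.of_dvd_nat h3))
    rw [e, x.2, hz2] at h4
    omega
  · rw [(hc _).orderOf_mul_eq_mul_orderOf_of_coprime (by rw [hz2, x.2]; exact Nat.coprime_two_left.2 hk),
      hz2, x.2]

theorem solvable_of_one_odd_prime
    (h : ∀ p q : ℕ, p.Prime → q.Prime → p ≠ 2 → q ≠ 2 → p ∣ Nat.card G → q ∣ Nat.card G → p = q) :
    Group.IsSolvable G := by
  obtain ⟨a, m, hm, e⟩ := Nat.exists_eq_two_pow_mul_odd (Nat.card_pos (α := G)).ne'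
  have h2 : ∀ p : ℕ, p ∣ m → p ≠ 2 := fun p hp h => by
    subst h; exact (Nat.not_even_iff_odd.2 hm) (even_iff_two_dvd.2 hp)
  by_cases h1 : m = 1
  · exact H6.isSolvable_of_card_dvd (a := a) (b := 0) Nat.prime_two Nat.prime_two (by rw [e, h1, pow_zero])
  have hq := Nat.minFac_prime h1
  refine H6.isSolvable_of_card_dvd (a := a) (b := m.primeFactorsList.length) Nat.prime_two hq ?_
  rw [e, ← Nat.eq_prime_pow_of_unique_prime_dvd hm.pos.ne' fun {d} hd hdm =>
    h d _ hd hq (h2 d hdm) (h2 _ m.minFac_dvd) (e ▸ hdm.mul_left _) (e ▸ m.minFac_dvd.mul_left _)]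

/-- two odd primes are impossible if all the counts agree -/
theorem eq_of_nse_eq {n : ℕ} (h : ∀ k, 2 < k → Odd k → nse G k = 0 ∨ nse G k = n) (p q : ℕ) (hp : p.Prime)
    (hq : q.Prime) (hp2 : p ≠ 2) (hq2 : q ≠ 2) (h1 : p ∣ Nat.card G) (h2 : q ∣ Nat.card G) : p = q := by
  by_contra hne
  have key : ∀ r : ℕ, r.Prime → r ≠ 2 → r ∣ Nat.card G → nse G r = n ∧ r ∣ 1 + n := fun r hr hr2 hd => by
    have h3 := nse_prime hr hd
    rcases h r (lt_of_le_of_ne hr.two_le hr2.symm) (hr.odd_of_ne_two hr2) with h4 | h4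
    · rw [h4] at h3; exact absurd (Nat.dvd_one.1 h3) hr.one_lt.ne'
    · exact ⟨h4, h4 ▸ h3⟩
  have h3 := nse_frob_mul hp h1 h2 ((Nat.coprime_primes hp hq).2 hne)
  rw [sum_div_prime hq, sum_div_prime hq, nse_one, mul_one, (key p hp hp2 h1).1, (key q hq hq2 h2).1,
    Nat.dvd_add_right (key p hp hp2 h1).2] at h3
  have h4 := (key p hp hp2 h1).2
  rcases h (p * q) (by nlinarith [hp.two_le, hq.two_le]) ((hp.odd_of_ne_two hp2).mul (hq.odd_of_ne_two hq2))
    with h5 | h5 <;> rw [h5] at h3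
  · exact hp.one_lt.ne' (Nat.dvd_one.1 ((Nat.dvd_add_left h3).1 h4))
  · refine hp2 ((Nat.prime_dvd_prime_iff_eq hp Nat.prime_two).1 ((Nat.dvd_add_left h3).1 ?_))
    rw [show 2 + (n + n) = 2 * (1 + n) by ring]
    exact h4.mul_left _

end Cfsg.Agent.H27
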