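import Mathlib
import Cfsg.Agent.H2.Balance

/-! Primitive pairs (Bender), maximal `p`-local subgroups. -/

set_option autoImplicit false

namespace Cfsg.Agent.H27

open Subgroup Cfsg.Agent.FT
open scoped commutatorElement

variable {G : Type*} [Group G] [Finite G]

theorem charP'_iff_cent {p : ℕ} (hp : p.Prime) (M : Subgroup G) :
    CharP' p M ↔ centralizer (pCore p M : Set M) ≤ pCore p M := by
  unfold CharP'
  rw [pcore_singleton hp, ← map_subtype_cen]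
  exact Subgroup.map_subtype_le_map_subtype

/-- normal closure of `Q` in `M` is normal -/
theorem comm_sup_nml {M Q : Subgroup G} (h : Q ≤ M) : ⁅M, Q⁆ ⊔ Q ⊴ M := by
  have hle : ⁅M, Q⁆ ⊔ Q ≤ M := sup_le (comm_le_of_le le_rfl h) h
  refine ⟨hle, norms_of_comm_le (le_trans ?_ le_sup_left)⟩
  exact comm_sup_le (hle.trans (norm_comm_left M Q)) (comm_le_left (norm_comm_left M Q))
    (by rw [commC])

theorem le_pcore_of_cj_le {π : Set ℕ} {M D Q : Subgroup G} (hQ : PiGrp π Q) (hM : Q ≤ M)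
    (hn : D ≤ N(Q)) (h : ∀ g ∈ M, cj g Q ≤ D) : Q ≤ O[π](M) := by
  have hQD : Q ≤ D := by simpa only [cj_one] using h 1 M.one_mem
  have hY : ⁅M, Q⁆ ⊔ Q ≤ D := by
    refine sup_le ?_ hQD
    rw [Subgroup.commutator_le]
    intro g hg x hx
    rw [commutatorElement_def]
    exact D.mul_mem (h g hg (conj_mem_cj.2 hx)) (D.inv_mem (hQD hx))
  have h1 : Q ⊴ ⁅M, Q⁆ ⊔ Q := ⟨le_sup_right, hY.trans hn⟩
  exact pcore_max_subn hQ (Subn.nml_trans h1 (comm_sup_nml hM).subn)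

/-- half of Bender's argument -/
theorem bender_half {M₁ M₂ : Subgroup G} {p q : ℕ} (hpq : p ≠ q)
    (hP : ∀ A : Subgroup G, A ≠ ⊥ → A ≤ M₁ ⊓ M₂ → M₂ ≤ N(A) → M₁ ⊓ N(A) = M₁ ⊓ M₂)
    (hc : M₁ ⊓ C(F(M₁)) ≤ F(M₁)) (h₁ : F(M₁) ≤ M₂) (h₂ : F(M₂) ≤ M₁) (hp : O[{p}](M₂) ≠ ⊥) :
    O[{q}](M₂) ≤ O[{q}](M₁) := by
  have hF1 : F(M₁) ≤ F(M₁ ⊓ M₂) :=
    fitting_max ⟨le_inf (fitting_le _) h₁, inf_le_left.trans (fitting_nrm _)⟩ (fitting_nil _)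
  have hF2 : F(M₂) ≤ F(M₁ ⊓ M₂) :=
    fitting_max ⟨le_inf h₂ (fitting_le _), inf_le_right.trans (fitting_nrm _)⟩ (fitting_nil _)
  have hnil : Nil F(M₁ ⊓ M₂) := fitting_nil _
  -- `O_r(M₂)` centralises `O_{r'}(F(M₁))`
  have hcen : ∀ r : ℕ, O[{r}](M₂) ≤ M₁ ⊓ C(O[{r}ᶜ](F(M₁))) := fun r => by
    refine le_inf ((pcore_le_fitting _ _).trans h₂) ?_
    have a1 : O[{r}](M₂) ≤ O[{r}](F(M₁ ⊓ M₂)) :=
      hnil.le_pcore (pcore_pi _ _) ((pcore_le_fitting _ _).trans hF2)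
    have a2 : O[{r}ᶜ](F(M₁)) ≤ O[{r}ᶜ](F(M₁ ⊓ M₂)) :=
      hnil.le_pcore (pcore_pi _ _) ((pcore_le _ _).trans hF1)
    exact a1.trans ((pcore_cents _ _).trans (cen_anti a2))
  have hnml : ∀ r : ℕ, M₁ ⊓ C(O[{r}ᶜ](F(M₁))) ⊴ M₁ := fun r =>
    ⟨inf_le_left, normsI le_normalizer (norms_cent (pcore_fitting_nml _ _).2)⟩
  refine le_pcore_of_cj_le (D := M₁ ⊓ M₂) (pcore_pi _ _) ((hcen q).trans inf_le_left)
    (inf_le_right.trans (pcore_nrm _ _)) fun g hg => ?_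
  have hX : cj g O[{q}](M₂) ≤ M₁ ⊓ C(O[{q}ᶜ](F(M₁))) := by
    have := cj_mono g (hcen q)
    rwa [cj_of_mem_nrm ((hnml q).2 hg)] at this
  have hXq : PGrp q (cj g O[{q}](M₂)) := (pcore_pi _ _).cj g
  generalize cj g O[{q}](M₂) = X at hX hXq ⊢
  have hZ : M₁ ⊓ C(F(M₁)) ⊴ M₁ := ⟨inf_le_left, normsI le_normalizer (norms_cent (fitting_nrm _))⟩
  have hPX : ⁅O[{p}](M₂), X⁆ ≤ M₁ ⊓ C(F(M₁)) := by
    have b1 : ⁅O[{p}](M₂), X⁆ ≤ M₁ ⊓ C(O[{p}ᶜ](F(M₁))) :=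
      (commSS (hcen p) (hX.trans inf_le_left)).trans (comm_le_left (hnml p).2)
    have b2 : ⁅O[{p}](M₂), X⁆ ≤ M₁ ⊓ C(O[{q}ᶜ](F(M₁))) :=
      (commSS ((hcen p).trans inf_le_left) hX).trans (comm_le_right (hnml q).2)
    refine le_inf (b1.trans inf_le_left) ?_
    have e : F(M₁) ≤ O[{p}ᶜ](F(M₁)) ⊔ O[{q}ᶜ](F(M₁)) := by
      refine (fitting_dp p M₁).sup.ge.trans (sup_le (le_sup_of_le_right ?_) le_sup_left)
      exact (fitting_nil _).le_pcore (PiGrp.p' (pcore_pi _ _) hpq) (pcore_le_fitting _ _)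
    refine le_trans ?_ (cen_anti e)
    rw [cen_sup]
    exact le_inf (b1.trans inf_le_right) (b2.trans inf_le_right)
  have hW : O[{p}](M₂) ⊔ (M₁ ⊓ C(F(M₁))) ≤ F(M₁ ⊓ M₂) :=
    sup_le ((pcore_le_fitting _ _).trans hF2) (hc.trans hF1)
  have hWX : ⁅O[{p}](M₂) ⊔ (M₁ ⊓ C(F(M₁))), X⁆ ≤ M₁ ⊓ C(F(M₁)) :=
    comm_sup_le ((sup_le ((hcen p).trans inf_le_left) inf_le_left).trans hZ.2) hPX
      (comm_le_left ((hX.trans inf_le_left).trans hZ.2))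
  have hPW : O[{p}](M₂) ≤ O[{p}](O[{p}](M₂) ⊔ (M₁ ⊓ C(F(M₁)))) :=
    (hnil.mono hW).le_pcore (pcore_pi _ _) le_sup_left
  have hXW : X ≤ N(O[{p}](M₂) ⊔ (M₁ ⊓ C(F(M₁)))) := norms_of_comm_le (hWX.trans le_sup_right)
  generalize O[{p}](M₂) ⊔ (M₁ ⊓ C(F(M₁))) = W at hW hWX hPW hXW
  have hXO : X ≤ N(O[{p}](W)) := norms_pcore _ hXW
  have hcX : X ≤ C(O[{p}](W)) := by
    refine stable_factor_cent (N := O[{q}ᶜ](F(M₁))) hXO ((pcore_pi _ _).cop_of_ne hXq hpq) ?_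
      (hX.trans inf_le_right)
    refine (fitting_nil _).le_pcore (PiGrp.p' ((pcore_pi {p} W).mono (comm_le_left hXO)) hpq) ?_
    exact ((commSS (pcore_le _ _) le_rfl).trans hWX).trans hc
  rw [← hP O[{p}](M₂) hp (le_inf ((hcen p).trans inf_le_left) (pcore_le _ _)) (pcore_nrm _ _)]
  exact le_inf (hX.trans inf_le_left) ((hcX.trans (cen_anti hPW)).trans (cen_le_nrm _))

theorem lay_eq_of_gfit_le {M D : Subgroup G} (h : F*(M) ≤ D) (hD : D ≤ M) : E(D) = E(M) := by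
  have hn : F*(M) ⊴ D := ⟨h, hD.trans (gfit_nrm _)⟩
  apply le_antisymm
  · rw [lay_le_iff]
    intro K hK
    rcases hK.le_or_cents hn.subn with h1 | h1
    · exact perf_le_lay hK.perf h1
    · exact absurd ((le_inf (hK.le.trans hD) h1).trans (cent_gfit M))
        (hK.qs.not_le_sol (fitting_nil M).sol)
  · rw [← lay_gfit M]
    exact lay_mono_subn hn.subn

theorem bender_pair {M₁ M₂ : Subgroup G} (hne : M₁ ≠ M₂)
    (hP : ∀ A : Subgroup G, A ≠ ⊥ → A ≤ M₁ ⊓ M₂ →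
      (M₁ ≤ N(A) → M₂ ⊓ N(A) = M₁ ⊓ M₂) ∧ (M₂ ≤ N(A) → M₁ ⊓ N(A) = M₁ ⊓ M₂))
    (h₁ : F*(M₁) ≤ M₂) (h₂ : F*(M₂) ≤ M₁) : ∃ p : ℕ, p.Prime ∧ CharP' p M₁ ∧ CharP' p M₂ := by
  have key : ∀ A : Subgroup G, A ≤ M₁ ⊓ M₂ → M₁ ≤ N(A) → M₂ ≤ N(A) → A = ⊥ := by
    intro A hA n1 n2
    by_contra h
    have e1 := (hP A h hA).1 n1
    have e2 := (hP A h hA).2 n2
    rw [inf_eq_left.2 n2] at e1
    rw [inf_eq_left.2 n1] at e2
    exact hne (e2.trans e1.symm)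
  have e1 : E(M₁ ⊓ M₂) = E(M₁) := lay_eq_of_gfit_le (le_inf (gfit_le _) h₁) inf_le_left
  have e2 : E(M₁ ⊓ M₂) = E(M₂) := lay_eq_of_gfit_le (le_inf h₂ (gfit_le _)) inf_le_right
  have e0 : E(M₁ ⊓ M₂) = ⊥ :=
    key _ (lay_le _) (by rw [e1]; exact lay_nrm _) (by rw [e2]; exact lay_nrm _)
  have l1 : E(M₁) = ⊥ := e1.symm.trans e0
  have l2 : E(M₂) = ⊥ := e2.symm.trans e0
  have c1 := cent_fitting_of_lay l1
  have c2 := cent_fitting_of_lay l2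
  rw [gfit_eq_fitting l1] at h₁
  rw [gfit_eq_fitting l2] at h₂
  have hP2 : ∀ A : Subgroup G, A ≠ ⊥ → A ≤ M₂ ⊓ M₁ → M₁ ≤ N(A) → M₂ ⊓ N(A) = M₂ ⊓ M₁ :=
    fun A hA hle hn => by rw [inf_comm M₂ M₁] at hle ⊢; exact (hP A hA hle).1 hn
  have hP1 : ∀ A : Subgroup G, A ≠ ⊥ → A ≤ M₁ ⊓ M₂ → M₂ ≤ N(A) → M₁ ⊓ N(A) = M₁ ⊓ M₂ :=
    fun A hA hle hn => (hP A hA hle).2 hn
  have hF1 : F(M₁) ≤ F(M₁ ⊓ M₂) :=
    fitting_max ⟨le_inf (fitting_le _) h₁, inf_le_left.trans (fitting_nrm _)⟩ (fitting_nil _)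
  have hF2 : F(M₂) ≤ F(M₁ ⊓ M₂) :=
    fitting_max ⟨le_inf h₂ (fitting_le _), inf_le_right.trans (fitting_nrm _)⟩ (fitting_nil _)
  -- same primes
  have same : ∀ {A B D : Subgroup G} (r : ℕ), A ⊓ C(F(A)) ≤ F(A) → F(A) ≤ F(D) → F(B) ≤ F(D) → D ≤ A →
      O[{r}](A) = ⊥ → O[{r}](B) = ⊥ := by
    intro A B D r c a b d h
    have hnil : Nil F(D) := fitting_nil _
    have a1 : O[{r}](B) ≤ O[{r}](F(D)) :=
      hnil.le_pcore (pcore_pi _ _) ((pcore_le_fitting _ _).trans b)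
    have a2 : F(A) ≤ O[{r}ᶜ](F(D)) := by
      refine hnil.le_pcore ?_ a
      have := (fitting_dp r A).sup
      rw [h, bot_sup_eq] at this
      rw [← this]
      exact pcore_pi _ _
    have a3 : O[{r}](B) ≤ F(A) :=
      (le_inf (a1.trans ((pcore_le _ _).trans ((fitting_le _).trans d)))
        (a1.trans ((pcore_cents _ _).trans (cen_anti a2)))).trans c
    exact le_bot_iff.1 (h ▸ (pcore_pi {r} B).le_pcore_of_le_fitting a3)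
  have hM1 : F(M₁) ≠ ⊥ := by
    intro h
    rw [h] at c1
    have m1 : M₁ = ⊥ := by simpa only [cen_bot, inf_top_eq, le_bot_iff] using c1
    rw [m1, le_bot_iff] at h₂
    rw [h₂] at c2
    have m2 : M₂ = ⊥ := by simpa only [cen_bot, inf_top_eq, le_bot_iff] using c2
    exact hne (m1.trans m2.symm)
  obtain ⟨p, hp, hp1⟩ : ∃ p : ℕ, p.Prime ∧ O[{p}](M₁) ≠ ⊥ := by
    by_contra h
    push Not at h
    exact hM1 (le_bot_iff.1 (fitting_le_of_forall_pcore fun p hp => (h p hp).le))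
  have hp2 : O[{p}](M₂) ≠ ⊥ := fun h => hp1 (same p c2 hF2 hF1 inf_le_right h)
  have hq : ∀ q, q ≠ p → O[{q}](M₁) = ⊥ ∧ O[{q}](M₂) = ⊥ := by
    intro q hq
    have a1 := bender_half (Ne.symm hq) hP1 c1 h₁ h₂ hp2
    have a2 := bender_half (Ne.symm hq) hP2 c2 h₂ h₁ hp1
    have e : O[{q}](M₁) = O[{q}](M₂) := le_antisymm a2 a1
    have : O[{q}](M₁) = ⊥ := key _ (le_inf (pcore_le _ _) (by rw [e]; exact pcore_le _ _))
      (pcore_nrm _ _) (by rw [e]; exact pcore_nrm _ _)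
    exact ⟨this, e ▸ this⟩
  have fin : ∀ M : Subgroup G, E(M) = ⊥ → (∀ q, q ≠ p → O[{q}](M) = ⊥) → CharP' p M := by
    intro M l h
    rw [charP'_iff_pGrp, gfit_eq_fitting l]
    refine (pcore_pi {p} M).mono (fitting_le_of_forall_pcore fun q _ => ?_)
    by_cases hqp : q = p
    · rw [hqp]
    · rw [h q hqp]; exact bot_le
  exact ⟨p, hp, fin _ l1 fun q h => (hq q h).1, fin _ l2 fun q h => (hq q h).2⟩

/-- `p`-local subgroups -/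
def PLoc (p : ℕ) (M : Subgroup G) : Prop := ∃ T : Subgroup G, IsPGroup p T ∧ T ≠ ⊥ ∧ M = N(T)

/-- maximal `p`-local subgroups -/
def MLoc (p : ℕ) (M : Subgroup G) : Prop := PLoc p M ∧ ∀ L, PLoc p L → M ≤ L → L = M

variable {p : ℕ} {M : Subgroup G}

theorem exists_mLoc (h : PLoc p M) : ∃ L, MLoc p L ∧ M ≤ L := by
  obtain ⟨L, hle, hL⟩ := Finite.exists_le_maximal (p := PLoc p) h
  exact ⟨L, ⟨hL.1, fun K hK hLK => le_antisymm (hL.2 hK hLK) hLK⟩, hle⟩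

omit [Finite G] in
theorem PLoc.cj (h : PLoc p M) (g : G) : PLoc p (cj g M) := by
  obtain ⟨T, h1, h2, rfl⟩ := h
  exact ⟨FT.cj g T, h1.map _, by rwa [Ne, cj_eq_bot], cj_nrm g T⟩

omit [Finite G] in
theorem MLoc.cj (h : MLoc p M) (g : G) : MLoc p (cj g M) :=
  ⟨h.1.cj g, fun L hL hle => by
    have := h.2 _ (hL.cj g⁻¹) (cj_le_iff.1 hle)
    rw [← this, cj_cj_inv]⟩

theorem MLoc.nrm_eq (hp : p.Prime) (h : MLoc p M) {T : Subgroup G} (hT : PGrp p T) (h1 : T ≠ ⊥)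
    (hn : M ≤ N(T)) : N(T) = M := h.2 _ ⟨T, hT.isPGroup, h1, rfl⟩ hn

theorem PLoc.pcore_ne (hp : p.Prime) (h : PLoc p M) : O[{p}](M) ≠ ⊥ := by
  obtain ⟨T, h1, h2, rfl⟩ := h
  exact pcore_ne_bot (pGrp_of_isPGroup hp h1) ⟨le_normalizer, le_rfl⟩ h2

theorem MLoc.nrm_nml (hp : p.Prime) (h : MLoc p M) (hc : CharP' p M) {A : Subgroup G} (hA : A ⊴ M)
    (h1 : A ≠ ⊥) : N(A) = M := by
  have hc' := hc.subn hA.subn
  have hO : O[{p}](A) ≠ ⊥ := by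
    intro h0
    unfold CharP' at hc'
    rw [h0] at hc'
    exact h1 (by simpa only [cen_bot, inf_top_eq, le_bot_iff] using hc')
  refine le_antisymm ?_ hA.2
  rw [← h.nrm_eq hp (pcore_pi {p} A) hO (norms_pcore _ hA.2)]
  exact nrm_le_nrm_pcore _ _

theorem exists_common_syl (hp : p.Prime) (hc : ∀ M : Subgroup G, MLoc p M → CharP' p M) {A B : Subgroup G}
    (hA : MLoc p A) (hB : MLoc p B) (hne : A ≠ B) (hd : p ∣ #(A ⊓ B)) :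
    ∃ M₁ M₂ T : Subgroup G, MLoc p M₁ ∧ MLoc p M₂ ∧ M₁ ≠ M₂ ∧ Syl p T M₁ ∧ Syl p T M₂ := by
  obtain ⟨T₀, hT₀⟩ := exists_syl p (A ⊓ B)
  let S : Subgroup G → Prop := fun T => PGrp p T ∧ ∃ M₁ M₂, MLoc p M₁ ∧ MLoc p M₂ ∧ M₁ ≠ M₂ ∧ T ≤ M₁ ⊓ M₂
  obtain ⟨T, hle, hT⟩ := Finite.exists_le_maximal (p := S) ⟨hT₀.pi, A, B, hA, hB, hne, hT₀.le⟩
  have h1 : T ≠ ⊥ := fun h => by
    rw [h, le_bot_iff, hT₀.syl_eq_bot_iff hp] at hle
    exact hle hd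
  obtain ⟨hTp, M₁, M₂, m1, m2, hne, hT12⟩ := hT.1
  obtain ⟨M₃, m3, h3⟩ := exists_mLoc (p := p) (M := N(T)) ⟨T, hTp.isPGroup, h1, rfl⟩
  have key : ∀ L, MLoc p L → T ≤ L → L ≠ M₃ → Syl p T L := by
    intro L mL hL hn
    refine syl_of_subnorm hL (syl_of_max hTp (le_inf hL le_normalizer) fun Q hQ h4 h5 => ?_)
    exact le_antisymm (hT.2 ⟨hQ, L, M₃, mL, m3, hn, h5.trans (inf_le_inf_left _ h3)⟩ h4) h4
  have main : ∀ L₁ L₂, MLoc p L₁ → MLoc p L₂ → L₁ ≠ L₂ → T ≤ L₂ → Syl p T L₁ →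
      ∃ M₁ M₂ T : Subgroup G, MLoc p M₁ ∧ MLoc p M₂ ∧ M₁ ≠ M₂ ∧ Syl p T M₁ ∧ Syl p T M₂ := by
    intro L₁ L₂ l1 l2 hn hT2 s1
    by_cases s2 : Syl p T L₂
    · exact ⟨L₁, L₂, T, l1, l2, hn, s1, s2⟩
    obtain ⟨P, hP, hTP⟩ := hTp.exists_syl hT2
    have hlt : T < P := lt_of_le_of_ne hTP fun h => s2 (h ▸ hP)
    obtain ⟨x, hx, hxT⟩ := SetLike.exists_of_lt (hP.pi.lt_subnorm hlt)
    have hx1 : x ∉ L₁ := by
      intro hx1
      have hle : T ⊔ ⟪x⟫ ≤ P := sup_le hTP (zpowers_le.2 hx.1)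
      have := s1.max (hP.pi.mono hle) le_sup_left (sup_le s1.le (zpowers_le.2 hx1))
      exact hxT (this ▸ mem_sup_right (mem_zpowers x))
    refine ⟨L₁, cj x L₁, T, l1, l1.cj x, fun h => hx1 ?_, s1, ?_⟩
    · have hL : L₁ ≠ ⊥ := fun h0 => h1 (le_bot_iff.1 (h0 ▸ s1.le))
      rw [← l1.nrm_nml hp (hc _ l1) (Nml.refl _) hL]
      exact cj_eq_self.1 h.symm
    · have := s1.cj x
      rwa [cj_of_mem_nrm hx.2] at this
  by_cases h : M₁ = M₃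
  · exact main M₂ M₁ m2 m1 hne.symm (hT12.trans inf_le_left)
      (key M₂ m2 (hT12.trans inf_le_right) fun h' => hne (h.trans h'.symm))
  · exact main M₁ M₂ m1 m2 hne (hT12.trans inf_le_right) (key M₁ m1 (hT12.trans inf_le_left) h)

end Cfsg.Agent.H27
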