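import Mathlib
import Cfsg.Agent.H13.SzEasy
import Cfsg.Agent.H13.SzModels

/-! Sets of involutions whose products have order at most two or a fixed prime: exclusion lemmas. -/

set_option autoImplicit false

namespace Cfsg.Agent.H27.Pt

open Cfsg Matrix

/-- conjugation invariant set with products killed by `2` or by `p` -/
structure W {G : Type*} [Group G] (D : Set G) (p : ℕ) : Prop where
  cj : ∀ d ∈ D, ∀ g : G, g * d * g⁻¹ ∈ D
  pr : ∀ a ∈ D, ∀ b ∈ D, (a * b) ^ 2 = 1 ∨ (a * b) ^ p = 1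

theorem W.map {G H : Type*} [Group G] [Group H] {D : Set G} {p : ℕ} (h : W D p) (f : G →* H)
    (hf : Function.Surjective f) : W (f '' D) p where
  cj := by
    rintro _ ⟨d, hd, rfl⟩ g
    obtain ⟨g, rfl⟩ := hf g
    exact ⟨_, h.cj d hd g, by simp⟩
  pr := by
    rintro _ ⟨a, ha, rfl⟩ _ ⟨b, hb, rfl⟩
    rcases h.pr a ha b hb with e | e
    · left; rw [← map_mul, ← map_pow, e, map_one]
    · right; rw [← map_mul, ← map_pow, e, map_one]

theorem eq_one_of_pow {G : Type*} [Group G] {x : G} {m n : ℕ} (hm : x ^ m = 1) (hn : x ^ n = 1)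
    (h : m.Coprime n) : x = 1 := by
  have := Nat.dvd_gcd (orderOf_dvd_of_pow_eq_one hm) (orderOf_dvd_of_pow_eq_one hn)
  rw [h, Nat.dvd_one] at this
  exact orderOf_eq_one_iff.1 this

section SL2

variable {F : Type*} [Field F] [CharP F 2]

theorem cube_of_trace (m : Matrix.SpecialLinearGroup (Fin 2) F) (h : m.1 0 0 + m.1 1 1 = 1) : m ^ 3 = 1 ∧ m ≠ 1 := by
  have h2 : (2 : F) = 0 := CharTwo.two_eq_zero
  have hd : m.1 0 0 * m.1 1 1 - m.1 0 1 * m.1 1 0 = 1 := by
    have := m.2; rwa [Matrix.det_fin_two] at this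
  refine ⟨?_, fun e => ?_⟩
  · ext i j
    simp only [pow_succ, pow_zero, one_mul, Matrix.SpecialLinearGroup.coe_mul, Matrix.SpecialLinearGroup.coe_one]
    fin_cases i <;> fin_cases j <;>
      simp only [Matrix.mul_apply, Fin.sum_univ_two, Fin.zero_eta, Fin.mk_one, Fin.isValue, Matrix.one_apply_eq,
        ne_eq, zero_ne_one, one_ne_zero, not_false_eq_true, Matrix.one_apply_ne] <;> grind
  · rw [e] at h
    simp only [Matrix.SpecialLinearGroup.coe_one, Matrix.one_apply_eq] at h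
    grind

theorem sl2_three (t : Matrix.SpecialLinearGroup (Fin 2) F) (h1 : t ≠ 1) (h2 : t * t = 1) :
    ∃ g : Matrix.SpecialLinearGroup (Fin 2) F, (t * (g * t * g⁻¹)) ^ 3 = 1 ∧ t * (g * t * g⁻¹) ≠ 1 := by
  have h2' : (2 : F) = 0 := CharTwo.two_eq_zero
  have hd : t.1 0 0 * t.1 1 1 - t.1 0 1 * t.1 1 0 = 1 := by
    have := t.2; rwa [Matrix.det_fin_two] at this
  have e (i j : Fin 2) : (t.1 * t.1) i j = (1 : Matrix (Fin 2) (Fin 2) F) i j := by
    have := congrArg Subtype.val h2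
    simp only [Matrix.SpecialLinearGroup.coe_mul, Matrix.SpecialLinearGroup.coe_one] at this
    rw [this]
  have e00 := e 0 0
  have e01 := e 0 1
  have e10 := e 1 0
  have e11 := e 1 1
  simp only [Matrix.mul_apply, Fin.sum_univ_two, Fin.isValue, Matrix.one_apply_eq,
        ne_eq, zero_ne_one, one_ne_zero, not_false_eq_true, Matrix.one_apply_ne] at e00 e01 e10 e11
  by_cases hb : t.1 0 1 = 0
  · have hc : t.1 1 0 ≠ 0 := by
      intro hc
      apply h1
      ext i j
      have a1 : t.1 0 0 = 1 := by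
        have : (t.1 0 0 - 1) ^ 2 = 0 := by grind
        exact sub_eq_zero.1 (pow_eq_zero_iff (two_ne_zero) |>.1 this)
      fin_cases i <;> fin_cases j <;> simp <;> grind
    obtain ⟨g, g0, g1, g2, g3⟩ : ∃ g : Matrix.SpecialLinearGroup (Fin 2) F, g.1 0 0 = 1 ∧ g.1 0 1 = (t.1 1 0)⁻¹ ∧
        g.1 1 0 = 0 ∧ g.1 1 1 = 1 := ⟨⟨!![1, (t.1 1 0)⁻¹; 0, 1], by simp [Matrix.det_fin_two]⟩, rfl, rfl, rfl, rfl⟩
    refine ⟨g, cube_of_trace _ ?_⟩
    simp only [Matrix.SpecialLinearGroup.coe_mul, Matrix.SpecialLinearGroup.coe_inv, Matrix.adjugate_fin_two,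
      Matrix.mul_apply, Fin.sum_univ_two, Matrix.of_apply, Matrix.cons_val', Matrix.cons_val_zero,
      Matrix.cons_val_one, Matrix.cons_val_fin_one, g0, g1, g2, g3]
    field_simp
    grind
  · obtain ⟨g, g0, g1, g2, g3⟩ : ∃ g : Matrix.SpecialLinearGroup (Fin 2) F, g.1 0 0 = 1 ∧ g.1 0 1 = 0 ∧
        g.1 1 0 = (t.1 0 1)⁻¹ ∧ g.1 1 1 = 1 := ⟨⟨!![1, 0; (t.1 0 1)⁻¹, 1], by simp [Matrix.det_fin_two]⟩, rfl, rfl, rfl, rfl⟩
    refine ⟨g, cube_of_trace _ ?_⟩
    simp only [Matrix.SpecialLinearGroup.coe_mul, Matrix.SpecialLinearGroup.coe_inv, Matrix.adjugate_fin_two,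
      Matrix.mul_apply, Fin.sum_univ_two, Matrix.of_apply, Matrix.cons_val', Matrix.cons_val_zero,
      Matrix.cons_val_one, Matrix.cons_val_fin_one, g0, g1, g2, g3]
    field_simp
    grind

theorem center_sl2 : Subgroup.center (Matrix.SpecialLinearGroup (Fin 2) F) = ⊥ := by
  rw [eq_bot_iff]
  intro A hA
  obtain ⟨r, hr, e⟩ := Matrix.SpecialLinearGroup.mem_center_iff.1 hA
  have h2' : (2 : F) = 0 := CharTwo.two_eq_zero
  simp only [Fintype.card_fin] at hr
  have : r = 1 := by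
    have : (r - 1) ^ 2 = 0 := by grind
    exact sub_eq_zero.1 (pow_eq_zero_iff (two_ne_zero) |>.1 this)
  rw [Subgroup.mem_bot]
  apply Subtype.ext
  rw [← e, this]
  simp

theorem not_psl {G : Type*} [Group G] {D : Set G} {p : ℕ} (h : W D p) (hp : p.Coprime 3) {d : G} (hd : d ∈ D)
    (h1 : d ≠ 1) (h2 : d * d = 1) (e : G ≃* Matrix.ProjectiveSpecialLinearGroup (Fin 2) F) : False := by
  let e2 : G ≃* Matrix.SpecialLinearGroup (Fin 2) F :=
    e.trans ((QuotientGroup.quotientMulEquivOfEq center_sl2).trans QuotientGroup.quotientBot)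
  obtain ⟨g, g1, g2⟩ := sl2_three (e2 d) (by simpa using h1) (by rw [← map_mul, h2, map_one])
  obtain ⟨g, rfl⟩ := e2.surjective g
  rw [← map_inv, ← map_mul, ← map_mul, ← map_mul] at g1 g2
  rw [← map_pow, map_eq_one_iff _ e2.injective] at g1
  rw [Ne, map_eq_one_iff _ e2.injective] at g2
  rcases h.pr d hd _ (h.cj d hd g) with k | k
  · exact g2 (eq_one_of_pow k g1 (by norm_num))
  · exact g2 (eq_one_of_pow k g1 hp)

end SL2

section Sz

open H13

variable {G : Type*} [Group G] {F : Type*} [Field F] (S : SzData G F)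

theorem sz_conj {t : G} (h1 : t ≠ 1) (h2 : t * t = 1) : ∃ g : G, t = g * S.u 0 1 * g⁻¹ := by
  obtain ⟨k, hk⟩ := S.exists_conj_mem_Z h2
  rw [SzData.mem_conj_Z, SzData.mem_Z] at hk
  obtain ⟨b, hb⟩ := hk
  obtain ⟨l, hl⟩ := S.mul_θ_surjective b
  have hl0 : l ≠ 0 := by
    rintro rfl
    simp only [zero_mul] at hl
    rw [← hl, S.u_zero] at hb
    apply h1
    have : t = k * (k⁻¹ * t * k) * k⁻¹ := by group
    rw [this, hb]; group
  refine ⟨k * S.h (Units.mk0 l hl0), ?_⟩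
  have := S.h_conj_u (Units.mk0 l hl0) 0 1
  simp only [Units.val_mk0, mul_zero, mul_one] at this
  simp only at hl
  rw [hl, ← hb] at this
  calc t = k * (k⁻¹ * t * k) * k⁻¹ := by group
    _ = _ := by rw [← this]; group

theorem sz_five : (S.w * S.u 0 1) ^ 5 = 1 := by
  haveI := S.charP
  have h2' : (2 : F) = 0 := CharTwo.two_eq_zero
  apply S.inj
  rw [map_pow, map_mul, S.ρ_w, S.ρ_u, map_one]
  have : suzukiForm F * szU S.θ 0 1 = !![0, 0, 0, 1; 0, 0, 1, 0; 0, 1, 0, 1; 1, 0, 1, 1] := by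
    ext i j
    fin_cases i <;> fin_cases j <;> simp [suzukiForm, szU, szf, Matrix.mul_apply, Fin.sum_univ_four]
  rw [this]
  ext i j
  fin_cases i <;> fin_cases j <;> simp [pow_succ, Matrix.mul_apply, Fin.sum_univ_four] <;> grind

include S in
theorem not_sz' {D : Set G} {p : ℕ} (h : W D p) (hp : p.Prime) {d : G} (hd : d ∈ D)
    (h1 : d ≠ 1) (h2 : d * d = 1) : False := by
  haveI := S.charP
  haveI := S.finiteF
  have all : ∀ t : G, t ≠ 1 → t * t = 1 → t ∈ D := by
    intro t t1 t2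
    obtain ⟨g, rfl⟩ := sz_conj S t1 t2
    obtain ⟨k, hk⟩ := sz_conj S h1 h2
    have := h.cj d hd (g * k⁻¹)
    rw [hk] at this
    convert this using 1
    group
  have wh (k : Fˣ) : S.w * S.h k ∈ D := by
    refine all _ (fun e => ?_) ?_
    · have := congrArg (· • S.inf) e
      simp only [mul_smul, S.h_smul_inf, S.w_smul_inf, one_smul] at this
      exact S.pt_ne_inf _ _ this
    · calc S.w * S.h k * (S.w * S.h k) = S.w * S.h k * S.w⁻¹ * S.h k := by rw [S.w_inv]; group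
        _ = 1 := by rw [S.w_conj_h]; group
  have w1 : S.w ∈ D := by simpa using wh 1
  have u1 : S.u 0 1 ∈ D := all _ S.u_one_ne_one (by
    rw [S.u_zero_mul, CharTwo.add_self_eq_zero, S.u_zero])
  have n1 : S.w * S.u 0 1 ≠ 1 := fun e => by
    have := congrArg (· • S.inf) e
    simp only [mul_smul, S.u_smul_inf, S.w_smul_inf, one_smul] at this
    exact S.pt_ne_inf _ _ this
  have p5 : p = 5 := by
    rcases h.pr _ w1 _ u1 with k | k
    · exact (n1 (eq_one_of_pow k (sz_five S) (by norm_num))).elim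
    · by_contra ne
      exact n1 (eq_one_of_pow k (sz_five S) ((Nat.coprime_primes hp (by norm_num)).2 ne))
  subst p5
  obtain ⟨ω, ω0, ω1⟩ := S.exists_ne_zero_one
  have hq : Units.mk0 ω ω0 ^ (S.q - 1) = 1 := by rw [← S.card_units]; exact pow_card_eq_one'
  have ne : Units.mk0 ω ω0 ≠ 1 := fun e => ω1 (by simpa using congrArg Units.val e)
  have := h.pr _ w1 _ (wh (Units.mk0 ω ω0))
  rw [← mul_assoc, S.w_mul_w, one_mul, ← map_pow, ← map_pow, map_eq_one_iff _ S.h_injective,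
    map_eq_one_iff _ S.h_injective] at this
  rcases this with k | k
  · exact ne (eq_one_of_pow k hq (Nat.coprime_two_left.2 S.odd_q_sub_one))
  · refine ne (eq_one_of_pow k hq ?_)
    rw [Nat.Prime.coprime_iff_not_dvd (by norm_num)]
    intro hdv
    have h8 := S.eight_le_q
    have : S.q % 5 = 1 := by omega
    have h4 : ∀ m : ℕ, 2 ^ (2 * m + 1) % 5 = 2 ∨ 2 ^ (2 * m + 1) % 5 = 3 := by
      intro m
      induction m with
      | zero => simp
      | succ n ih =>
        rw [show 2 * (n + 1) + 1 = 2 * n + 1 + 2 by ring, pow_add]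
        omega
    have := h4 S.m
    unfold SzData.q at *
    omega

end Sz

theorem not_sz {G : Type*} [Group G] {D : Set G} {p : ℕ} (h : W D p) (hp : p.Prime) {d : G} (hd : d ∈ D)
    (h1 : d ≠ 1) (h2 : d * d = 1) (e : Lie.IsoSuzuki G) : False := by
  obtain ⟨F, _, ⟨S⟩⟩ := H13.exists_szData_of_isoSuzuki e
  exact not_sz' S h hp hd h1 h2

theorem dih_comm {n : ℕ} {u v : DihedralGroup n} (hu : u * u ≠ 1) (hv : v * v ≠ 1) : Commute u v := by
  rcases u with i | i
  · rcases v with j | j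
    · simp [Commute, SemiconjBy, add_comm]
    · simp at hv
  · simp at hu

end Cfsg.Agent.H27.Pt
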