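import Mathlib
import Cfsg.Agent.H27.Pt1
import Cfsg.Agent.S5051
import Cfsg.Agent.H2.Cores

/-! Sets of `p`-transpositions with `p ≥ 5`. -/

set_option autoImplicit false

namespace Cfsg.Agent.H27.Pt

open Cfsg Subgroup

/-- a conjugation invariant set of involutions, non-commuting members having product of order `p ≥ 5` -/
structure PT {G : Type*} [Group G] (D : Set G) (p : ℕ) : Prop where
  pp : p.Prime
  p5 : 5 ≤ p
  cj : ∀ d ∈ D, ∀ g : G, g * d * g⁻¹ ∈ D
  ne : ∀ d ∈ D, d ≠ 1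
  sq : ∀ d ∈ D, d * d = 1
  pr : ∀ a ∈ D, ∀ b ∈ D, Commute a b ∨ (a * b) ^ p = 1

variable {G : Type*} [Group G] {D : Set G} {p : ℕ}

theorem comm_of_sq {a b : G} (ha : a * a = 1) (hb : b * b = 1) (h : (a * b) ^ 2 = 1) : Commute a b := by
  have ia : a⁻¹ = a := inv_eq_of_mul_eq_one_right ha
  have ib : b⁻¹ = b := inv_eq_of_mul_eq_one_right hb
  have : (a * b)⁻¹ = a * b := inv_eq_of_mul_eq_one_right (by rw [← h, sq])
  rw [mul_inv_rev, ia, ib] at this
  exact this.symm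

theorem sq_of_comm {a b : G} (ha : a * a = 1) (hb : b * b = 1) (h : Commute a b) : (a * b) ^ 2 = 1 := by
  rw [h.mul_pow, sq, sq, ha, hb, one_mul]

namespace PT

variable (h : PT D p)
include h

theorem odd : Odd p := h.pp.odd_of_ne_two (by have := h.p5; omega)

theorem cop2 : p.Coprime 2 := Nat.coprime_two_right.2 h.odd

theorem cop3 : p.Coprime 3 := (Nat.coprime_primes h.pp Nat.prime_three).2 (by have := h.p5; omega)

theorem inv {a : G} (ha : a ∈ D) : a⁻¹ = a := inv_eq_of_mul_eq_one_right (h.sq a ha)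

theorem cj' {a b : G} (ha : a ∈ D) (hb : b ∈ D) : a * b * a ∈ D := by
  have := h.cj b hb a
  rwa [h.inv ha] at this

theorem pw {a b : G} (ha : a ∈ D) (hb : b ∈ D) (hab : ¬ Commute a b) : (a * b) ^ p = 1 :=
  (h.pr a ha b hb).resolve_left hab

theorem toW : W D p where
  cj := h.cj
  pr a ha b hb := (h.pr a ha b hb).imp_left (sq_of_comm (h.sq a ha) (h.sq b hb))

theorem comm_of_pow {a b : G} (ha : a ∈ D) (hb : b ∈ D) {k : ℕ} (hk : p.Coprime k) (e : (a * b) ^ k = 1) :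
    Commute a b := by
  by_contra hab
  have := eq_one_of_pow (h.pw ha hb hab) e hk
  exact hab (comm_of_sq (h.sq a ha) (h.sq b hb) (by rw [this, one_pow]))

theorem comm_root {x z : G} (hx : x ^ p = 1) {k : ℕ} (hk : p.Coprime k) (e : Commute z (x ^ k)) : Commute z x := by
  have h1 : (orderOf x).Coprime k := Nat.Coprime.coprime_dvd_left (orderOf_dvd_of_pow_eq_one hx) hk
  obtain ⟨m, hm⟩ := exists_pow_eq_self_of_coprime h1.symm
  rw [← hm]
  exact e.pow_right m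

/-- a member commuting with a product of two different commuting members commutes with both -/
theorem lemC {a b d : G} (ha : a ∈ D) (hb : b ∈ D) (hd : d ∈ D) (hab : Commute a b) (hne : a * b ≠ 1)
    (e : Commute d (a * b)) : Commute d a := by
  by_contra hda
  have h1 := h.pw hd ha hda
  have ca : Commute a (a * b) := (Commute.refl a).mul_right hab
  have c1 : Commute (d * a) (a * b) := e.mul_left ca
  have e1 : d * b = d * a * (a * b) := by rw [mul_assoc, ← mul_assoc a, h.sq a ha, one_mul]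
  have s : (a * b) ^ 2 = 1 := sq_of_comm (h.sq a ha) (h.sq b hb) hab
  rcases h.toW.pr d hd b hb with k | k
  · rw [e1, c1.mul_pow, s, mul_one] at k
    exact hda (comm_of_sq (h.sq d hd) (h.sq a ha) k)
  · rw [e1, c1.mul_pow, h1, one_mul] at k
    exact hne (eq_one_of_pow k s h.cop2)

theorem lemC' {a b d : G} (ha : a ∈ D) (hb : b ∈ D) (hd : d ∈ D) (hab : Commute a b) (hne : a * b ≠ 1)
    (e : Commute d (a * b)) : Commute d b :=
  h.lemC hb ha hd hab.symm (hab.eq ▸ hne) (hab.eq ▸ e)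

theorem sub (H : Subgroup G) : PT {y : H | (y : G) ∈ D} p where
  pp := h.pp
  p5 := h.p5
  cj d hd g := h.cj d hd g
  ne d hd e := h.ne d hd (by rw [e]; rfl)
  sq d hd := Subtype.ext (h.sq d hd)
  pr a ha b hb := (h.pr a ha b hb).imp (fun e => Subtype.ext e) fun e => Subtype.ext (by simpa using e)

theorem oddT (hg : closure D = ⊤) : IsOddTranspositionSet D := by
  haveI : Fact (Nat.Prime 2) := ⟨Nat.prime_two⟩
  refine ⟨⟨fun d hd => orderOf_eq_prime (by rw [pow_two, h.sq d hd]) (h.ne d hd), hg, h.cj, fun a ha b hb => ?_⟩,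
    fun a ha b hb e => ?_⟩
  · rcases h.pr a ha b hb with k | k
    · exact Or.inl k
    · exact Or.inr (Or.inl (h.odd.of_dvd_nat (orderOf_dvd_of_pow_eq_one k)))
  · rcases h.toW.pr a ha b hb with k | k
    · have := orderOf_dvd_of_pow_eq_one k
      rw [e] at this; omega
    · have := h.odd.of_dvd_nat (orderOf_dvd_of_pow_eq_one k)
      rw [e] at this
      exact absurd this (by decide)

theorem eq_one_of_pgroup {N : Subgroup G} (hN : IsPGroup 2 N) {y : G} (hy : y ∈ N) (e : y ^ p = 1) : y = 1 := by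
  obtain ⟨k, hk⟩ := hN ⟨y, hy⟩
  exact eq_one_of_pow e (congrArg Subtype.val hk) (h.cop2.pow_right k)

theorem q_gen [Finite G] (hg : closure D = ⊤) {d x : G} (hd : d ∈ D) (hx : x ∈ D) (hdx : ¬ Commute d x) :
    ∃ N : Subgroup G, IsPGroup 2 N ∧ (∀ n ∈ N, x * n * x ∈ N) ∧ ∀ a ∈ D, ∀ b ∈ D,
      (∀ e ∈ D, Commute e a ↔ Commute e d) → (∀ e ∈ D, Commute e b ↔ Commute e d) → a * b ∈ N := by
  haveI : Fact (Nat.Prime 2) := ⟨Nat.prime_two⟩
  have key := S5051.result (h.oddT hg) hd (x := x) ⟨hx, fun e => hdx (e ▸ Commute.refl _),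
    h.odd.of_dvd_nat (orderOf_dvd_of_pow_eq_one (h.pw hd hx hdx))⟩
  have mE : ∀ a ∈ D, (∀ e ∈ D, Commute e a ↔ Commute e d) → a ∈ sameCommutingClass D d := fun a ha k =>
    ⟨ha, Set.ext fun e => and_congr_right fun he => (k e he).symm⟩
  generalize hX : closure (sameCommutingClass D d ∪ {x}) = X at key
  have xX : x ∈ X := hX ▸ subset_closure (Or.inr rfl)
  have aX : ∀ a ∈ sameCommutingClass D d, a ∈ X := fun a ha => hX ▸ subset_closure (Or.inl ha)
  have dX : d ∈ X := aX d (mE d hd fun _ _ => Iff.rfl)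
  let π := QuotientGroup.mk' (pCore 2 X)
  have hW := (h.sub X).toW.map π (QuotientGroup.mk'_surjective _)
  have nsq : ∀ a : X, (a : G) ∈ D → ¬ Commute (a : G) x → π (a * ⟨x, xX⟩) * π (a * ⟨x, xX⟩) ≠ 1 ∧
      π (a * ⟨x, xX⟩) ^ p = 1 := by
    intro a ha hax
    have e1 : (a * ⟨x, xX⟩ : X) ^ p = 1 := Subtype.ext (by simpa using h.pw ha hx hax)
    have e2 : π (a * ⟨x, xX⟩) ^ p = 1 := by rw [← map_pow, e1, map_one]
    refine ⟨fun e => ?_, e2⟩
    have e3 := eq_one_of_pow e2 ((pow_two _).trans e) h.cop2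
    have e4 := (h.sub X).eq_one_of_pgroup H2.pCore_isPGroup ((QuotientGroup.eq_one_iff _).1 e3) e1
    exact hax (h.comm_of_pow ha hx h.cop2 (by
      have := congrArg Subtype.val e4
      simp only [Subgroup.coe_mul, Subgroup.coe_one] at this
      rw [this, one_pow]))
  have xx : π ⟨x, xX⟩ * π ⟨x, xX⟩ = 1 := by rw [← map_mul, (h.sub X).sq ⟨x, xX⟩ hx, map_one]
  have d1 : π ⟨d, dX⟩ ≠ 1 := fun e => (nsq ⟨d, dX⟩ hd hdx).1 (by rw [map_mul, e, one_mul, xx])
  have dd : π ⟨d, dX⟩ * π ⟨d, dX⟩ = 1 := by rw [← map_mul, (h.sub X).sq ⟨d, dX⟩ hd, map_one]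
  rcases key with ⟨F, _, _, _, -, ⟨e⟩⟩ | e | ⟨n, ⟨e⟩⟩
  · exact (not_psl hW h.cop3 ⟨_, hd, rfl⟩ d1 dd e).elim
  · exact (not_sz hW h.pp ⟨_, hd, rfl⟩ d1 dd e).elim
  refine ⟨(pCore 2 X).map X.subtype, H2.pCore_isPGroup.map _, ?_, fun a ha b hb ka kb => ?_⟩
  · rintro _ ⟨n, hn, rfl⟩
    refine ⟨_, (inferInstance : (pCore 2 X).Normal).conj_mem n hn ⟨x, xX⟩, ?_⟩
    simp [h.inv hx]
  · have a1 := aX a (mE a ha ka)
    have b1 := aX b (mE b hb kb)
    have ax : ¬ Commute a x := fun k => hdx ((ka x hx).1 k.symm).symm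
    have bx : ¬ Commute b x := fun k => hdx ((kb x hx).1 k.symm).symm
    obtain ⟨u1, u2⟩ := nsq ⟨a, a1⟩ ha ax
    obtain ⟨v1, v2⟩ := nsq ⟨b, b1⟩ hb bx
    have c : Commute (π (⟨a, a1⟩ * ⟨x, xX⟩)) (π (⟨b, b1⟩ * ⟨x, xX⟩)) := by
      have := dih_comm (u := e (π (⟨a, a1⟩ * ⟨x, xX⟩))) (v := e (π (⟨b, b1⟩ * ⟨x, xX⟩)))
        (by rwa [← map_mul, Ne, map_eq_one_iff _ e.injective]) (by rwa [← map_mul, Ne, map_eq_one_iff _ e.injective])
      exact e.injective (by rw [map_mul e, map_mul e]; exact this.eq)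
    have e1 : (⟨a, a1⟩ * ⟨b, b1⟩ : X) = (⟨a, a1⟩ * ⟨x, xX⟩) * (⟨b, b1⟩ * ⟨x, xX⟩)⁻¹ :=
      Subtype.ext (by simp [h.inv hb])
    have e2 : π (⟨a, a1⟩ * ⟨b, b1⟩) ^ p = 1 := by
      rw [e1, map_mul, map_inv, c.inv_right.mul_pow, u2, inv_pow, v2]; simp
    have ab : Commute a b := (kb a ha).2 ((ka d hd).2 (Commute.refl d)).symm
    have e3 : π (⟨a, a1⟩ * ⟨b, b1⟩) ^ 2 = 1 := by
      rw [← map_pow, sq_of_comm ((h.sub X).sq ⟨a, a1⟩ ha) ((h.sub X).sq ⟨b, b1⟩ hb) (Subtype.ext ab.eq), map_one]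
    exact ⟨_, (QuotientGroup.eq_one_iff _).1 (eq_one_of_pow e2 e3 h.cop2), rfl⟩

theorem q [Finite G] {d x : G} (hd : d ∈ D) (hx : x ∈ D) (hdx : ¬ Commute d x) :
    ∃ N : Subgroup G, IsPGroup 2 N ∧ (∀ n ∈ N, x * n * x ∈ N) ∧ ∀ a ∈ D, ∀ b ∈ D,
      (∀ e ∈ D, Commute e a ↔ Commute e d) → (∀ e ∈ D, Commute e b ↔ Commute e d) → a * b ∈ N := by
  have cm : ∀ u v : closure D, Commute u v ↔ Commute (u : G) v := fun u v =>
    ⟨fun e => congrArg Subtype.val e.eq, fun e => Subtype.ext e.eq⟩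
  obtain ⟨N, n1, n2, n3⟩ := (h.sub (closure D)).q_gen (closure_closure_coe_preimage)
    (d := ⟨d, subset_closure hd⟩) (x := ⟨x, subset_closure hx⟩) hd hx (by rwa [cm])
  refine ⟨N.map (closure D).subtype, n1.map _, ?_, fun a ha b hb ka kb => ?_⟩
  · rintro _ ⟨n, hn, rfl⟩
    exact ⟨_, n2 n hn, rfl⟩
  · exact ⟨_, n3 ⟨a, subset_closure ha⟩ ha ⟨b, subset_closure hb⟩ hb (fun e he => by rw [cm, cm]; exact ka e he)
      (fun e he => by rw [cm, cm]; exact kb e he), rfl⟩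

/-- no four-group of members next to a non-commuting member -/
theorem no_four [Finite G] {a b c : G} (ha : a ∈ D) (hb : b ∈ D) (hab : a * b ∈ D) (hc : c ∈ D)
    (hac : ¬ Commute a c) : False := by
  have ab : Commute a b := comm_of_sq (h.sq a ha) (h.sq b hb) (by rw [pow_two, h.sq _ hab])
  have e1 : a * (a * b) = b := by rw [← mul_assoc, h.sq a ha, one_mul]
  have e2 : b * (a * b) = a := by rw [ab.eq, ← mul_assoc, h.sq b hb, one_mul]
  have ca : Commute a (a * b) := (Commute.refl a).mul_right ab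
  have cb : Commute b (a * b) := ab.symm.mul_right (Commute.refl b)
  have kb : ∀ e ∈ D, Commute e b ↔ Commute e a := fun e he =>
    ⟨fun k => h.lemC ha hab he ca (by rw [e1]; exact h.ne b hb) (by rwa [e1]),
     fun k => h.lemC hb hab he cb (by rw [e2]; exact h.ne a ha) (by rwa [e2])⟩
  obtain ⟨N, n1, n2, n3⟩ := h.q ha hc hac
  have m := n3 a ha b hb (fun _ _ => Iff.rfl) kb
  have nc : ¬ Commute (a * b) c := fun k => hac (h.lemC ha hb hc ab (h.ne _ hab) k.symm).symm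
  have m2 : (a * b * c) ^ 2 ∈ N := by
    have := N.mul_mem m (n2 _ m)
    rwa [pow_two, show a * b * c * (a * b * c) = a * b * (c * (a * b) * c) by group]
  have := h.eq_one_of_pgroup n1 m2 (by rw [← pow_mul, mul_comm, pow_mul, h.pw hab hc nc, one_pow])
  exact nc (h.comm_of_pow hab hc h.cop2 this)

end PT

end Cfsg.Agent.H27.Pt
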