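import Mathlib
import Cfsg.Agent.H27.Pt2
import Cfsg.Agent.S0199

/-! Sets of `p`-transpositions with `p ≥ 5`: commuting members and the largest normal `2`-subgroup. -/

set_option autoImplicit false

namespace Cfsg.Agent.H27.Pt

open Cfsg Subgroup

variable {G : Type*} [Group G] {D : Set G} {p : ℕ}

namespace PT

variable (h : PT D p)
include h

theorem quot {H : Type*} [Group H] (f : G →* H) (hf : Function.Surjective f) : PT (f '' D \ {1}) p where
  pp := h.pp
  p5 := h.p5
  cj := by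
    rintro d ⟨hd, d1⟩ g
    refine ⟨(h.toW.map f hf).cj d hd g, fun e => d1 ?_⟩
    rw [Set.mem_singleton_iff] at e ⊢
    simpa using e
  ne d hd := hd.2
  sq := by
    rintro _ ⟨⟨d, hd, rfl⟩, -⟩
    rw [← map_mul, h.sq d hd, map_one]
  pr := by
    rintro _ ⟨⟨a, ha, rfl⟩, -⟩ _ ⟨⟨b, hb, rfl⟩, -⟩
    exact (h.pr a ha b hb).imp (fun e => e.map f) fun e => by rw [← map_mul, ← map_pow, e, map_one]

theorem four [Finite G] {a b c : G} (ha : a ∈ D) (hb : b ∈ D) (hc : c ∈ D) (ab : Commute a b) (hne : a * b ≠ 1)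
    (ca : ¬ Commute c a) (cb : ¬ Commute c b) : (c * (a * b)) ^ 4 = 1 := by
  obtain ⟨e, he⟩ : ∃ e, e = a * b := ⟨_, rfl⟩
  rw [← he]
  have ee : e * e = 1 := by rw [← pow_two, he]; exact sq_of_comm (h.sq a ha) (h.sq b hb) ab
  have ie : e⁻¹ = e := inv_eq_of_mul_eq_one_right ee
  have cc := h.sq c hc
  have c' : e * c * e ∈ D := by simpa only [ie] using h.cj c hc e
  have e2 : c * (e * c * e) = (c * e) ^ 2 := by rw [pow_two]; group
  rcases h.toW.pr c hc _ c' with k | k
  · rwa [e2, ← pow_mul] at k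
  exfalso
  rw [e2, ← pow_mul, mul_comm, pow_mul, pow_two] at k
  obtain ⟨r, hr⟩ : ∃ r, r = c * e := ⟨_, rfl⟩
  rw [← hr] at k
  obtain ⟨z, hz⟩ : ∃ z, z = r ^ p := ⟨_, rfl⟩
  rw [← hz] at k
  have iz : z⁻¹ = z := inv_eq_of_mul_eq_one_right k
  have ir : r⁻¹ = e * c := by rw [hr, mul_inv_rev, ie, h.inv hc]
  have er : e * r * e⁻¹ = r⁻¹ := by rw [ir, hr]; group
  have cr : c * r * c⁻¹ = r⁻¹ := by rw [ir, hr, h.inv hc, ← mul_assoc, cc, one_mul]
  have ez : Commute e z := by
    have : e * z * e⁻¹ = z := by rw [hz, ← conj_pow, er, inv_pow, ← hz, iz]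
    exact mul_inv_eq_iff_eq_mul.1 this
  have cz : Commute c z := by
    have : c * z * c⁻¹ = z := by rw [hz, ← conj_pow, cr, inv_pow, ← hz, iz]
    exact mul_inv_eq_iff_eq_mul.1 this
  have fD : e * z ∈ D := by
    obtain ⟨m, hm⟩ := h.odd
    have h1 : e * r ^ (m + 1) * e⁻¹ = (r ^ (m + 1))⁻¹ := by rw [← conj_pow, er, inv_pow]
    have h2 : c = e * r⁻¹ := by rw [ir, ← mul_assoc, ee, one_mul]
    have := h.cj c hc (r ^ (m + 1))⁻¹
    rw [inv_inv] at this
    convert this using 1
    rw [← h1, hz, hm]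
    conv_rhs => rw [h2]
    group
  have fe : Commute (e * z) (a * b) := he ▸ (Commute.refl e).mul_left ez.symm
  have ae : Commute a e := he ▸ (Commute.refl a).mul_right ab
  have be : Commute b e := he ▸ ab.symm.mul_right (Commute.refl b)
  have zf : z = e * (e * z) := by rw [← mul_assoc, ee, one_mul]
  have az : Commute a z := zf ▸ ae.mul_right (h.lemC ha hb fD ab hne fe).symm
  have bz : Commute b z := zf ▸ be.mul_right (h.lemC' ha hb fD ab hne fe).symm
  let K := centralizer ({z} : Set G)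
  have mK : ∀ y, Commute y z → y ∈ K := fun y hy => mem_centralizer_singleton_iff.2 hy.eq
  have zK : z ∈ K := mK z (Commute.refl z)
  have cen : ∀ n ∈ zpowers (⟨z, zK⟩ : K), ∀ g : K, Commute g n := by
    rintro _ ⟨i, rfl⟩ g
    exact Commute.zpow_right (Subtype.ext (mem_centralizer_singleton_iff.1 g.2)) i
  have sqz : ∀ n ∈ zpowers (⟨z, zK⟩ : K), n ^ 2 = 1 := by
    rintro _ ⟨i, rfl⟩
    have : (⟨z, zK⟩ : K) ^ 2 = 1 := Subtype.ext (by simpa [pow_two] using k)
    show ((⟨z, zK⟩ : K) ^ i) ^ 2 = 1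
    rw [← zpow_natCast, ← zpow_mul, mul_comm, zpow_mul, zpow_natCast, this, one_zpow]
  haveI : (zpowers (⟨z, zK⟩ : K)).Normal := ⟨fun n hn g => by rwa [(cen n hn g).eq, mul_inv_cancel_right]⟩
  let π := QuotientGroup.mk' (zpowers (⟨z, zK⟩ : K))
  have hQ := (h.sub K).quot π (QuotientGroup.mk'_surjective _)
  have ker : ∀ y : K, π y = 1 → y ∈ zpowers (⟨z, zK⟩ : K) := fun y hy => (QuotientGroup.eq_one_iff _).1 hy
  have kc : ∀ y : K, π y = 1 → Commute c y := fun y hy =>
    congrArg Subtype.val (cen y (ker y hy) ⟨c, mK c cz⟩).eq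
  have a1 : π ⟨a, mK a az⟩ ∈ π '' {y : K | (y : G) ∈ D} \ {1} := ⟨⟨_, ha, rfl⟩, fun e => ca (kc _ e)⟩
  have b1 : π ⟨b, mK b bz⟩ ∈ π '' {y : K | (y : G) ∈ D} \ {1} := ⟨⟨_, hb, rfl⟩, fun e => cb (kc _ e)⟩
  have c1 : π ⟨c, mK c cz⟩ ∈ π '' {y : K | (y : G) ∈ D} \ {1} := ⟨⟨_, hc, rfl⟩, fun e =>
    ca (Commute.symm (congrArg Subtype.val (cen _ (ker _ e) ⟨a, mK a az⟩).eq))⟩
  refine hQ.no_four a1 b1 ⟨⟨⟨a, mK a az⟩ * ⟨b, mK b bz⟩ * ⟨z, zK⟩, ?_, ?_⟩, fun e => ?_⟩ c1 fun e => ?_
  · show a * b * z ∈ D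
    rwa [← he]
  · rw [map_mul, map_mul, show π ⟨z, zK⟩ = 1 from (QuotientGroup.eq_one_iff _).2 (mem_zpowers _), mul_one]
  · rw [Set.mem_singleton_iff, ← map_mul] at e
    exact ca (h.lemC ha hb hc ab hne (kc _ e))
  · have := sq_of_comm (hQ.sq _ a1) (hQ.sq _ c1) e
    rw [← map_mul, ← map_pow] at this
    have := congrArg Subtype.val (sqz _ (ker _ this))
    simp only [← pow_mul, Subgroup.coe_pow, Subgroup.coe_mul, Subgroup.coe_one] at this
    exact ca (h.comm_of_pow ha hc (h.cop2.mul_right h.cop2) this).symm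

theorem four' [Finite G] {a b c : G} (ha : a ∈ D) (hb : b ∈ D) (hc : c ∈ D) (ab : Commute a b) (hne : a * b ≠ 1)
    (ca : ¬ Commute c a) (cb : ¬ Commute c b) : Commute (a * b) (c * (a * b) * c) := by
  have ee : a * b * (a * b) = 1 := by rw [← pow_two]; exact sq_of_comm (h.sq a ha) (h.sq b hb) ab
  have k := h.four ha hb hc ab hne ca cb
  generalize a * b = e at *
  have cc := h.sq c hc
  refine (comm_of_sq ?_ ee ?_).symm
  · calc c * e * c * (c * e * c) = c * (e * (c * c) * e) * c := by group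
      _ = 1 := by rw [cc, mul_one, ee, mul_one, cc]
  · rw [← k]
    simp only [pow_succ, pow_zero, one_mul, mul_assoc]

/-- commuting members with a common non-commuting member have the same commuting members -/
theorem same [Finite G] {a b c d : G} (ha : a ∈ D) (hb : b ∈ D) (hc : c ∈ D) (ab : Commute a b) (hne : a * b ≠ 1)
    (ca : ¬ Commute c a) (cb : ¬ Commute c b) (hd : d ∈ D) (da : Commute d a) : Commute d b := by
  by_contra db
  have aa := h.sq a ha
  have cc := h.sq c hc
  have ia := h.inv ha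
  have ic := h.inv hc
  have wp : (a * c) ^ p = 1 := h.pw ha hc fun k => ca k.symm
  have n1 : ¬ Commute (a * c * a) a := fun k => ca (by
    exact (Commute.conj_iff a).1 (by rwa [ia, mul_assoc a a a, aa, mul_one]))
  have n2 : ¬ Commute (a * c * a) b := fun k => cb (
    (Commute.conj_iff a).1 (by rwa [ia, ab.eq, mul_assoc b a a, aa, mul_one]))
  have n3 : ¬ Commute (c * a * c) a := fun k => ca (h.comm_of_pow hc ha (h.cop2.mul_right h.cop2) (by
    rw [pow_mul, pow_two (c * a), ← mul_assoc]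
    exact sq_of_comm (h.sq _ (h.cj' hc ha)) aa k))
  have n4 : ¬ Commute (c * a * c) b := fun k => cb (by
    have k1 : Commute b ((a * c) ^ 2) := by
      rw [pow_two, show a * c * (a * c) = a * (c * a * c) by group]
      exact ab.symm.mul_right k.symm
    have k2 := ab.symm.mul_right (h.comm_root wp h.cop2 k1)
    rw [← mul_assoc, aa, one_mul] at k2
    exact k2.symm)
  have f1 := h.four' ha hb hc ab hne ca cb
  have f2 := h.four' ha hb (h.cj' ha hc) ab hne n1 n2
  have f3 := h.four' ha hb (h.cj' hc ha) ab hne n3 n4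
  have ee : a * b * (a * b) = 1 := by rw [← pow_two]; exact sq_of_comm aa (h.sq b hb) ab
  have ae : Commute a (a * b) := (Commute.refl a).mul_right ab
  have hbe : b = a * (a * b) := by rw [← mul_assoc, aa, one_mul]
  have LC := fun d hd => h.lemC (d := d) ha hb hd ab hne
  have dp := h.pw hd hb db
  generalize a * b = e at *
  subst hbe
  obtain ⟨u, hu⟩ : ∃ u, u = c * e * c := ⟨_, rfl⟩
  have aea : a * e * a = e := by rw [ae.eq, mul_assoc, aa, mul_one]
  have u' : a * c * a * e * (a * c * a) = a * u * a := by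
    rw [hu]; conv_rhs => rw [← aea]
    group
  have uu : u * u = 1 := by
    calc u * u = c * (e * (c * c) * e) * c := by rw [hu]; group
      _ = 1 := by rw [cc, mul_one, ee, mul_one, cc]
  have iu : u⁻¹ = u := inv_eq_of_mul_eq_one_right uu
  rw [u'] at f2
  rw [← hu] at f1
  have f4 : Commute u (a * u * a) := by
    have := (Commute.conj_iff c).2 f3
    rw [ic, ← hu] at this
    convert this using 1
    calc a * u * a = (c * c) * a * u * a * (c * c) := by rw [cc]; group
      _ = _ := by rw [hu]; group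
  obtain ⟨v, hv⟩ : ∃ v, v = a * u * a * u := ⟨_, rfl⟩
  have a'D : u * a * u ∈ D := by simpa only [iu] using h.cj a ha u
  have b'D : u * (a * e) * u ∈ D := by simpa only [iu] using h.cj _ hb u
  have a'e : u * a * u = a * v := by rw [hv, ← mul_assoc, ← mul_assoc, ← mul_assoc, aa, one_mul]
  have b'e : u * (a * e) * u = a * v * e := by rw [← a'e, mul_assoc, mul_assoc, f1.eq]; group
  have ev : Commute e v := hv ▸ f2.mul_right f1
  have av : Commute a v := by
    show a * v = v * a
    rw [← a'e, hv, ← f4.eq]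
    calc u * a * u = u * (a * u * (a * a)) := by rw [aa]; group
      _ = _ := by group
  have vv : v * v = 1 := by
    rw [← pow_two, hv]
    refine sq_of_comm ?_ uu f4.symm
    calc a * u * a * (a * u * a) = a * (u * (a * a) * u) * a := by group
      _ = 1 := by rw [aa, mul_one, uu, mul_one, aa]
  have v1 : v ≠ 1 := fun k => by
    have k1 : Commute a u := comm_of_sq aa uu (by rw [← k, hv, pow_two]; group)
    have := (Commute.conj_iff c).2 k1
    rw [ic, hu, show c * (c * e * c) * c = (c * c) * e * (c * c) by group, cc, one_mul, mul_one] at this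
    exact n3 (LC _ (h.cj' hc ha) this)
  have ve : v * e ≠ 1 := fun k => by
    have k0 : v = e := by rw [← mul_left_inj e, k, ee]
    obtain ⟨w, hw⟩ : ∃ w, w = a * c := ⟨_, rfl⟩
    have iw : w⁻¹ = c * a := by rw [hw, mul_inv_rev, ia, ic]
    have u1 : u = w⁻¹ * e * w := by
      rw [iw, hw, hu]; conv_lhs => rw [← aea]
      group
    have u2 : a * u * a = w * e * w⁻¹ := by rw [iw, hw, hu]; group
    have r0 : w * e * w⁻¹ * (w⁻¹ * e * w) = e := by rw [← u1, ← u2, ← hv, k0]
    have r1 : e * (w⁻¹ * u * w) = u := by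
      conv_rhs => rw [u1, ← r0]
      rw [u1]; group
    have r2 : u * (w⁻¹ * (w⁻¹ * u * w) * w) = w⁻¹ * u * w := by
      conv_rhs => rw [← r1]
      conv_lhs => rw [u1]
      rw [← u1]
      nth_rewrite 1 [u1]
      group
    have r3 : w⁻¹ * u * w = e * u := by
      conv_rhs => rw [← r1]
      rw [← mul_assoc e e, ee, one_mul]
    have r4 : w⁻¹ * (w⁻¹ * u * w) * w = e := by
      have : u * (w⁻¹ * (w⁻¹ * u * w) * w) = u * e := by rw [r2, r3, f1.eq]
      exact mul_left_cancel this
    have r5 : Commute e (w ^ 3) := by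
      show e * w ^ 3 = w ^ 3 * e
      conv_rhs => rw [← r4, u1]
      simp only [pow_succ, pow_zero, one_mul]
      group
    have r6 := ae.symm.mul_right (h.comm_root (hw ▸ wp) h.cop3 r5)
    rw [hw, ← mul_assoc, aa, one_mul] at r6
    exact ca (LC c hc r6.symm)
  rw [a'e] at a'D
  rw [b'e] at b'D
  have p1 : a * e * (a * v * e) = v := by
    calc a * e * (a * v * e) = (a * e * a) * (v * e) := by group
      _ = v := by rw [aea, ← ev.eq, ← mul_assoc, ee, one_mul]
  have p2 : a * e * (a * v) = v * e := by rw [← mul_assoc, aea, ev.eq]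
  have p3 : a * v * (a * v * e) = e := by
    rw [← mul_assoc, h.sq _ a'D, one_mul]
  have q1 : Commute (a * e) (a * v) :=
    ((Commute.refl a).mul_left ae.symm).mul_right (av.mul_left ev)
  have q2 : Commute (a * e) (a * v * e) := q1.mul_right (ae.mul_left (Commute.refl e))
  have q3 : Commute (a * v) (a * v * e) := (Commute.refl _).mul_right (ae.mul_left ev.symm)
  have m1 : ¬ Commute d (a * v) := fun k => by
    have := da.mul_right k
    rw [← mul_assoc, aa, one_mul] at this
    exact db (h.lemC hb b'D hd q2 (by rwa [p1]) (by rwa [p1]))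
  have m2 : ¬ Commute d (a * v * e) := fun k => by
    have := da.mul_right k
    rw [mul_assoc a v e, ← mul_assoc, aa, one_mul] at this
    exact db (h.lemC hb a'D hd q1 (by rwa [p2]) (by rwa [p2]))
  have f5 := h.four a'D b'D hd q3 (by rwa [p3]) m1 m2
  rw [p3] at f5
  refine db (h.comm_of_pow hd hb (k := 4) (h.cop2.mul_right h.cop2) ?_)
  have : d * (a * e) = a * (d * e) := by rw [← mul_assoc, da.eq, mul_assoc]
  rw [this, (da.symm.mul_right ae).mul_pow, f5, show 4 = 2 * 2 by rfl, pow_mul, pow_two a, aa]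
  simp

end PT

end Cfsg.Agent.H27.Pt
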