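import Mathlib
import Cfsg.Agent.H27.Pt3
import Cfsg.Agent.H8.ZStar
import Cfsg.Agent.FT.Main

/-! Rank three classes of involutions. -/

set_option autoImplicit false

namespace Cfsg.Agent.H27.Pt

open Cfsg Subgroup
open scoped commutatorElement

variable {G : Type*} [Group G] {D : Set G} {p : ℕ}

theorem dih_mem (cj : ∀ d ∈ D, ∀ g : G, g * d * g⁻¹ ∈ D) (ho : Odd p) {a r : G} (ha : a ∈ D)
    (ar : a * r * a⁻¹ = r⁻¹) (rp : r ^ p = 1) (k : ℕ) : a * r ^ k ∈ D := by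
  obtain ⟨m, hm⟩ := ho
  have h1 : a * r ^ (k * (m + 1)) * a⁻¹ = (r ^ (k * (m + 1)))⁻¹ := by rw [← conj_pow, ar, inv_pow]
  have := cj a ha (r ^ (k * (m + 1)))⁻¹
  rw [inv_inv, ← h1] at this
  convert this using 1
  have : r ^ (k * (m + 1)) * r ^ (k * (m + 1)) = r ^ k := by
    rw [← pow_add, show k * (m + 1) + k * (m + 1) = p * k + k by rw [hm]; ring, pow_add, pow_mul, rp, one_pow, one_mul]
  rw [← this]
  group

theorem pg_zpowers [Finite G] {e : G} {k : ℕ} (h : e ^ 2 ^ k = 1) : IsPGroup 2 (zpowers e) := by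
  rintro ⟨_, i, rfl⟩
  refine ⟨k, Subtype.ext ?_⟩
  show (e ^ i) ^ 2 ^ k = 1
  rw [← zpow_natCast, ← zpow_mul, mul_comm, zpow_mul, zpow_natCast, h, one_zpow]

theorem map_zp (e g : G) : (zpowers e).map (MulAut.conj g).toMonoidHom = zpowers (g * e * g⁻¹) := by
  rw [MonoidHom.map_zpowers]; rfl

theorem pg_dih [Finite G] {a b : G} (aa : a * a = 1) (bb : b * b = 1) {k : ℕ} (h : (a * b) ^ 2 ^ k = 1) :
    IsPGroup 2 ↥(zpowers a ⊔ zpowers b) := by
  haveI : Fact (Nat.Prime 2) := ⟨Nat.prime_two⟩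
  have ia : a⁻¹ = a := inv_eq_of_mul_eq_one_right aa
  have ib : b⁻¹ = b := inv_eq_of_mul_eq_one_right bb
  have ar : a * (a * b) * a⁻¹ = (a * b)⁻¹ := by rw [mul_inv_rev, ia, ib, ← mul_assoc, aa, one_mul]
  have h1 : IsPGroup 2 ↥(zpowers a ⊔ zpowers (a * b)) := by
    refine IsPGroup.to_sup_of_normal_right' (pg_zpowers (k := 1) (by rw [pow_one, pow_two, aa])) (pg_zpowers h) ?_
    rw [zpowers_le]
    refine mem_normalizer_fintype ?_
    rintro _ ⟨i, rfl⟩
    refine ⟨-i, ?_⟩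
    show (a * b) ^ (-i) = a * (a * b) ^ i * a⁻¹
    rw [← conj_zpow, ar, inv_zpow']
  refine h1.to_le (sup_le le_sup_left (zpowers_le.2 ?_))
  have := mul_mem (mem_sup_left (mem_zpowers a) : a ∈ zpowers a ⊔ zpowers (a * b)) (mem_sup_right (mem_zpowers (a * b)))
  rwa [← mul_assoc, aa, one_mul] at this

theorem PT.exists_triple (h : PT D p) (hg : closure D = ⊤) (hc : ∀ a ∈ D, ∀ b ∈ D, ∃ g : G, b = g * a * g⁻¹)
    {x y : G} (hx : x ∈ D) (hy : y ∈ D) (hne : x ≠ y) (xy : Commute x y) :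
    ∃ a ∈ D, ∃ b ∈ D, ∃ c ∈ D, Commute a b ∧ a * b ≠ 1 ∧ ¬ Commute c a ∧ ¬ Commute c b := by
  by_contra hn
  have tr : ∀ s ∈ D, ∀ t ∈ D, ∀ u ∈ D, (s = t ∨ ¬ Commute s t) → (t = u ∨ ¬ Commute t u) → (s = u ∨ ¬ Commute s u) := by
    rintro s hs t ht u hu (rfl | k1) k2
    · exact k2
    rcases k2 with rfl | k2
    · exact Or.inr k1
    by_contra k
    rw [not_or, not_not] at k
    exact hn ⟨s, hs, u, hu, t, ht, k.2, fun e => k.1 (by
      rw [← h.inv hu]; exact eq_inv_of_mul_eq_one_left e), fun e => k1 e.symm, k2⟩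
  have key : ∀ g ∈ closure D, ∀ s ∈ D, s = g * s * g⁻¹ ∨ ¬ Commute s (g * s * g⁻¹) := by
    intro g hg
    induction hg using closure_induction with
    | mem d hd =>
      intro s hs
      by_cases k : Commute s d
      · left; rw [← k.eq, mul_inv_cancel_right]
      · right
        intro e
        refine k (h.comm_of_pow hs hd (h.cop2.mul_right h.cop2) ?_)
        have := sq_of_comm (h.sq s hs) (h.sq _ (h.cj s hs d)) e
        rw [pow_mul, pow_two (s * d), ← this, h.inv hd]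
        simp only [mul_assoc]
    | one => intro s _; left; simp
    | mul g1 g2 _ _ i1 i2 =>
      intro s hs
      have := tr s hs _ (h.cj s hs g2) _ (h.cj _ (h.cj s hs g2) g1) (i2 s hs) (i1 _ (h.cj s hs g2))
      rwa [show g1 * (g2 * s * g2⁻¹) * g1⁻¹ = g1 * g2 * s * (g1 * g2)⁻¹ by group] at this
    | inv g _ i =>
      intro s hs
      have := i _ (h.cj s hs g⁻¹)
      rw [show g * (g⁻¹ * s * g⁻¹⁻¹) * g⁻¹ = s by group] at this
      exact this.imp Eq.symm fun k e => k e.symm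
  obtain ⟨g, rfl⟩ := hc x hx y hy
  rcases key g (hg ▸ mem_top g) x hx with k | k
  · exact hne k
  · exact k xy

theorem PT.main [Finite G] (h : PT D p) (hg : closure D = ⊤) (hc : ∀ a ∈ D, ∀ b ∈ D, ∃ g : G, b = g * a * g⁻¹)
    {x y : G} (hx : x ∈ D) (hy : y ∈ D) (hne : x ≠ y) (xy : Commute x y) :
    ∃ N : Subgroup G, N.Normal ∧ IsPGroup 2 N ∧ N ≠ ⊥ := by
  haveI : Fact (Nat.Prime 2) := ⟨Nat.prime_two⟩
  obtain ⟨a, ha, b, hb, c, hc, ab, ne, ca, cb⟩ := h.exists_triple hg hc hx hy hne xy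
  have E : ∀ d ∈ D, Commute d b ↔ Commute d a := fun d hd =>
    ⟨h.same hb ha hc ab.symm (ab.eq ▸ ne) cb ca hd, h.same ha hb hc ab ne ca cb hd⟩
  have E' : ∀ g : G, ∀ d ∈ D, Commute d (g * b * g⁻¹) ↔ Commute d (g * a * g⁻¹) := fun g d hd => by
    have := E _ (h.cj d hd g⁻¹)
    rw [← Commute.conj_iff g, ← Commute.conj_iff (a := g⁻¹ * d * g⁻¹⁻¹) g] at this
    rwa [show g * (g⁻¹ * d * g⁻¹⁻¹) * g⁻¹ = d by group] at this
  have ee : (a * b) ^ 2 = 1 := sq_of_comm (h.sq a ha) (h.sq b hb) ab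
  obtain ⟨N, n1, n2, n3⟩ := S0199.result (p := 2) (zpowers (a * b)) (pg_zpowers (k := 1) ee) fun g => by
    rw [map_zp]
    have a1 := h.cj a ha g
    have b1 := h.cj b hb g
    have e1 : g * (a * b) * g⁻¹ = g * a * g⁻¹ * (g * b * g⁻¹) := by group
    by_cases k : Commute a (g * a * g⁻¹)
    · have k1 : Commute b (g * a * g⁻¹) := ((E _ a1).2 k.symm).symm
      have k2 : Commute (a * b) (g * (a * b) * g⁻¹) := by
        rw [e1]
        exact (k.mul_left k1).mul_right (((E' g a ha).2 k).mul_left ((E' g b hb).2 k1))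
      have s1 : g * (a * b) * g⁻¹ * (g * (a * b) * g⁻¹) = 1 := by rw [← pow_two, conj_pow, ee]; simp
      exact pg_dih (k := 1) (by rw [← pow_two, ee]) s1 (sq_of_comm (by rw [← pow_two, ee]) s1 k2)
    · obtain ⟨m, hm⟩ := h.odd
      obtain ⟨r, hr⟩ : ∃ r, r = a * (g * a * g⁻¹) := ⟨_, rfl⟩
      have rp : r ^ p = 1 := hr ▸ h.pw ha a1 k
      have aa := h.sq a ha
      have a1e : g * a * g⁻¹ = a * r := by rw [hr, ← mul_assoc a a, aa, one_mul]
      have ar : a * r * a⁻¹ = r⁻¹ := by rw [← a1e, hr, mul_inv_rev, h.inv a1]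
      have xD := dih_mem h.cj h.odd ha ar rp (m + 1)
      obtain ⟨x, hx⟩ : ∃ x, x = a * r ^ (m + 1) := ⟨_, rfl⟩
      rw [← hx] at xD
      have h1 : a * r ^ (m + 1) * a⁻¹ = (r ^ (m + 1))⁻¹ := by rw [← conj_pow, ar, inv_pow]
      have xa : x * a * x⁻¹ = g * a * g⁻¹ := by
        have h2 : r ^ (m + 1) * r ^ (m + 1) = r := by
          rw [← pow_add, show m + 1 + (m + 1) = p + 1 by omega, pow_succ, rp, one_mul]
        calc x * a * x⁻¹ = a * r ^ (m + 1) * (a * r ^ (m + 1) * a⁻¹)⁻¹ := by rw [hx]; group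
          _ = _ := by rw [h1, inv_inv, mul_assoc, h2, a1e]
      have ax : ¬ Commute a x := fun e => k (by rw [← xa, ← e.eq, mul_inv_cancel_right])
      obtain ⟨N, n1, n2, n3⟩ := h.q ha xD ax
      have ix := h.inv xD
      have xx := h.sq x xD
      have m1 : a * b ∈ N := n3 a ha b hb (fun _ _ => Iff.rfl) E
      have a2 : x * g * a * (x * g)⁻¹ = a := by
        calc x * g * a * (x * g)⁻¹ = x * (g * a * g⁻¹) * x⁻¹ := by group
          _ = (x * x) * a * (x * x)⁻¹ := by rw [← xa]; group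
          _ = a := by rw [xx]; group
      have m2 : a * (x * g * b * (x * g)⁻¹) ∈ N := n3 a ha _ (h.cj b hb _) (fun _ _ => Iff.rfl) fun d hd => by
        have := E' (x * g) d hd
        rwa [a2] at this
      have m3 := n2 _ m2
      have e3 : x * (a * (x * g * b * (x * g)⁻¹)) * x = g * (a * b) * g⁻¹ := by
        calc x * (a * (x * g * b * (x * g)⁻¹)) * x = x * a * x * (g * b * g⁻¹) := by group
          _ = _ := by rw [e1, ← xa, ix]
      rw [e3] at m3
      exact n1.to_le (sup_le (zpowers_le.2 m1) (zpowers_le.2 m3))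
  exact ⟨N, n1, n2, fun e => ne (mem_bot.1 (e ▸ n3 (mem_zpowers _)))⟩

theorem exists_comm [Finite G] (hsol : ∀ N : Subgroup G, N.Normal → Group.IsSolvable N → N = ⊥) {x y : G}
    (hx : orderOf x = 2) (hy : y ∈ conjugatesOf x) (hne : y ≠ x) : ∃ s ∈ conjugatesOf x, s ≠ x ∧ Commute x s := by
  by_contra hn
  have iso : IsIsolatedInvolution x := ⟨hx, fun g k => by
    by_contra e
    exact hn ⟨_, isConj_iff.2 ⟨g, rfl⟩, e, k⟩⟩
  obtain ⟨g, rfl⟩ := isConj_iff.1 hy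
  have := H8.zstar iso g
  rw [hsol (oddCore G) inferInstance (FT.odd_order_solvable H2.odd_card_oddCore), mem_bot,
    commutatorElement_def] at this
  exact hne (mul_inv_eq_one.1 this)

theorem bot_of_pgroup [Finite G] (hsol : ∀ N : Subgroup G, N.Normal → Group.IsSolvable N → N = ⊥) {N : Subgroup G}
    (n1 : N.Normal) (n2 : IsPGroup 2 N) : N = ⊥ := by
  haveI : Fact (Nat.Prime 2) := ⟨Nat.prime_two⟩
  haveI := n2.isNilpotent
  exact hsol N n1 inferInstance

theorem exists_prime [Finite G] (hsol : ∀ N : Subgroup G, N.Normal → Group.IsSolvable N → N = ⊥) {x : G}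
    (hx : orderOf x = 2) : ∃ p : ℕ, p.Prime ∧ Odd p ∧ ∃ t ∈ conjugatesOf x, orderOf (x * t) = p := by
  haveI : Fact (Nat.Prime 2) := ⟨Nat.prime_two⟩
  by_contra hn
  have xx : x * x = 1 := by rw [← pow_two, ← hx, pow_orderOf_eq_one]
  have ix : x⁻¹ = x := inv_eq_of_mul_eq_one_right xx
  obtain ⟨N, n1, n2, n3⟩ := S0199.result (p := 2) (zpowers x) (pg_zpowers (k := 1) (by rw [pow_one, pow_two, xx]))
    fun g => by
    rw [map_zp]
    have yy : g * x * g⁻¹ * (g * x * g⁻¹) = 1 := by rw [← pow_two, conj_pow, pow_two, xx]; simp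
    generalize g * x * g⁻¹ = y at yy
    rcases Nat.eq_two_pow_or_exists_odd_prime_and_dvd (orderOf (x * y)) with ⟨k, hk⟩ | ⟨p, pp, pd, po⟩
    · exact pg_dih xx yy (k := k) (by rw [← hk, pow_orderOf_eq_one])
    · have o := orderOf_pow_orderOf_div (orderOf_pos (x * y)).ne' pd
      have ar : x * (x * y) * x⁻¹ = (x * y)⁻¹ := by
        rw [mul_inv_rev, ix, inv_eq_of_mul_eq_one_right yy, ← mul_assoc, xx, one_mul]
      have := dih_mem (D := conjugatesOf x) (fun d hd g => hd.trans (isConj_iff.2 ⟨g, rfl⟩)) po (IsConj.refl x)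
        (r := (x * y) ^ (orderOf (x * y) / p)) (by rw [← conj_pow, ar, inv_pow]) (by rw [← pow_mul, Nat.div_mul_cancel pd, pow_orderOf_eq_one]) 1
      exact (hn ⟨p, pp, po, _, this, by rw [← mul_assoc, xx, one_mul, pow_one, o]⟩).elim
  rw [bot_of_pgroup hsol n1 n2] at n3
  rw [mem_bot.1 (n3 (mem_zpowers x)), orderOf_one] at hx
  omega

theorem rank_three [Finite G] (hsol : ∀ N : Subgroup G, N.Normal → Group.IsSolvable N → N = ⊥) {x y : G}
    (hx : orderOf x = 2) (hgen : closure (conjugatesOf x) = ⊤) (hy : y ∈ conjugatesOf x) (hne : y ≠ x) {m n : ℕ}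
    (h : ∀ w ∈ conjugatesOf x, w = x ∨ orderOf (x * w) = m ∨ orderOf (x * w) = n) :
    ∀ a ∈ conjugatesOf x, ∀ b ∈ conjugatesOf x, (a * b) ^ 2 = 1 ∨ (a * b) ^ 3 = 1 := by
  haveI : Fact (Nat.Prime 2) := ⟨Nat.prime_two⟩
  obtain ⟨s, hs, sx, xs⟩ := exists_comm hsol hx hy hne
  obtain ⟨p, pp, po, t, ht, xt⟩ := exists_prime hsol hx
  have o : ∀ d ∈ conjugatesOf x, orderOf d = 2 := fun d hd => by
    obtain ⟨g, rfl⟩ := isConj_iff.1 hd
    rw [← hx]; exact (MulAut.conj g).orderOf_eq x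
  have sq : ∀ d ∈ conjugatesOf x, d * d = 1 := fun d hd => by rw [← pow_two, ← o d hd, pow_orderOf_eq_one]
  have xx := sq x (IsConj.refl x)
  have cj : ∀ d ∈ conjugatesOf x, ∀ g : G, g * d * g⁻¹ ∈ conjugatesOf x := fun d hd g =>
    hd.trans (isConj_iff.2 ⟨g, rfl⟩)
  have os : orderOf (x * s) = 2 := orderOf_eq_prime (sq_of_comm xx (sq s hs) xs) fun e =>
    sx (by rw [← inv_eq_of_mul_eq_one_right e]; exact inv_eq_of_mul_eq_one_right xx)
  have p2 : p ≠ 2 := by rintro rfl; exact absurd po (by decide)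
  have tx : t ≠ x := by
    rintro rfl
    rw [xx, orderOf_one] at xt
    exact pp.one_lt.ne xt
  have k1 : ∀ w ∈ conjugatesOf x, (x * w) ^ 2 = 1 ∨ (x * w) ^ p = 1 := fun w hw => by
    have h1 := (h s hs).resolve_left sx
    have h2 := (h t ht).resolve_left tx
    rcases h w hw with rfl | k
    · left; rw [xx, one_pow]
    · have : orderOf (x * w) = 2 ∨ orderOf (x * w) = p := by omega
      exact this.imp (fun e => by rw [← e, pow_orderOf_eq_one]) fun e => by rw [← e, pow_orderOf_eq_one]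
  have k2 : ∀ a ∈ conjugatesOf x, ∀ b ∈ conjugatesOf x, (a * b) ^ 2 = 1 ∨ (a * b) ^ p = 1 := fun a ha b hb => by
    obtain ⟨g, rfl⟩ := isConj_iff.1 ha
    have e : g * x * g⁻¹ * b = g * (x * (g⁻¹ * b * g⁻¹⁻¹)) * g⁻¹ := by group
    rw [e, conj_pow, conj_pow]
    exact (k1 _ (cj b hb g⁻¹)).imp (fun e => by rw [e]; simp) fun e => by rw [e]; simp
  by_cases p3 : p = 3
  · exact p3 ▸ k2
  have p5 : 5 ≤ p := pp.five_le_of_ne_two_of_ne_three p2 p3
  have hP : PT (conjugatesOf x) p := ⟨pp, p5, cj, fun d hd e => by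
      have := o d hd
      rw [e, orderOf_one] at this
      omega, sq, fun a ha b hb => (k2 a ha b hb).imp_left (comm_of_sq (sq a ha) (sq b hb))⟩
  obtain ⟨N, n1, n2, n3⟩ := hP.main hgen (fun a ha b hb => by
    obtain ⟨g, hg⟩ := isConj_iff.1 ((IsConj.symm ha).trans hb)
    exact ⟨g, hg.symm⟩) (IsConj.refl x) hs sx.symm xs
  exact (n3 (bot_of_pgroup hsol n1 n2)).elim

end Cfsg.Agent.H27.Pt
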