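import Mathlib
import Cfsg.Prelude.Def_KGroupFacts
import Cfsg.Agent.H27.Schur4

/-! Lifting projective representations to Schur covers. -/

namespace Cfsg.Agent.H27

open Subgroup
open scoped commutatorElement IsMulCommutative

universe u v w

/-- Extension of a character of a subgroup meeting the commutator subgroup trivially into a
divisible abelian group. -/
theorem exists_ext_of_rootable {E D : Type*} [Group E] [CommGroup D]
    (hD : ∀ n : ℕ, n ≠ 0 → Function.Surjective fun d : D => d ^ n) (K : Subgroup E)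
    (hK : K ⊓ commutator E = ⊥) (χ : K →* D) : ∃ l : E →* D, ∀ k : K, l k = χ k := by
  letI : DivisibleBy (Additive D) ℕ :=
    divisibleByOfSMulRightSurj _ _ fun {n} hn d => hD n hn d.toMul
  letI : DivisibleBy (Additive D) ℤ := AddGroup.divisibleByIntOfDivisibleByNat _
  let f : K →* Abelianization E := Abelianization.of.comp K.subtype
  have hf : Function.Injective f := by
    rw [injective_iff_map_eq_one]
    intro k hk
    have : (k : E) ∈ K ⊓ commutator E := ⟨k.2, (QuotientGroup.eq_one_iff _).1 hk⟩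
    rw [hK] at this
    exact Subtype.ext this
  haveI : IsMulCommutative K := ⟨⟨fun a b => hf (by rw [map_mul, map_mul, mul_comm])⟩⟩
  obtain ⟨h, hh⟩ := (Module.Baer.of_divisible (Additive D)).extension_property_addMonoidHom
    (MonoidHom.toAdditive f) hf (MonoidHom.toAdditive χ)
  exact ⟨(AddMonoidHom.toMultiplicative h).comp Abelianization.of, fun k =>
    congrArg Additive.toMul (DFunLike.congr_fun hh (Additive.ofMul k))⟩

theorem center_GL_rootable (n k : ℕ) (hk : k ≠ 0) :
    Function.Surjective fun d : center (GL (Fin n) ℂ) => d ^ k := by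
  rintro ⟨z, hz⟩
  rw [Matrix.GeneralLinearGroup.center_eq_range_scalar] at hz
  obtain ⟨a, rfl⟩ := hz
  obtain ⟨b, hb⟩ := IsAlgClosed.exists_pow_nat_eq (a : ℂ) (Nat.pos_of_ne_zero hk)
  have hb0 : b ≠ 0 := fun e => a.ne_zero (by rw [← hb, e, zero_pow hk])
  refine ⟨⟨Matrix.GeneralLinearGroup.scalar _ (Units.mk0 b hb0), ?_⟩, Subtype.ext ?_⟩
  · rw [Matrix.GeneralLinearGroup.center_eq_range_scalar]; exact ⟨_, rfl⟩
  · change Matrix.GeneralLinearGroup.scalar _ (Units.mk0 b hb0) ^ k = _
    rw [← map_pow]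
    congr 1
    exact Units.ext hb

/-- The product of a homomorphism and a homomorphism with central values. -/
def mulCentral {E X : Type*} [Group E] [Group X] (φ l : E →* X) (h : ∀ x, l x ∈ center X) :
    E →* X :=
  MonoidHom.mk' (fun x => φ x * l x) fun a b => by
    rw [map_mul, map_mul, mul_assoc, mul_assoc, ← mul_assoc (φ b), mem_center_iff.1 (h a) (φ b),
      mul_assoc]

theorem mulCentral_apply {E X : Type*} [Group E] [Group X] (φ l : E →* X)
    (h : ∀ x, l x ∈ center X) (x : E) : mulCentral φ l h x = φ x * l x := rfl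

variable {Q : Type u} [Group Q]

theorem exists_lift_of_inj {Γ : Type*} [Group Γ] {σ : Γ →* Q} (hσ : IsStemExtension σ)
    (η : stdE Q →* Γ) (hη : σ.comp η = stdMap Q) (hinj : Function.Injective (multMap η hη))
    {X : Type*} [Group X]
    (hX : ∀ n : ℕ, n ≠ 0 → Function.Surjective fun d : center X => d ^ n)
    (γ : Q →* X ⧸ center X) :
    ∃ ρ : Γ →* X, (QuotientGroup.mk' (center X)).comp ρ = γ.comp σ := by
  obtain ⟨φ, hφ⟩ := hopf_lift (stdPres Q) (QuotientGroup.mk' (center X)) (by simp) γ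
    fun q => QuotientGroup.mk'_surjective _ _
  have hker : ∀ x ∈ η.ker, stdMap Q x = 1 := fun x hx => by
    rw [← hη, MonoidHom.comp_apply, MonoidHom.mem_ker.1 hx, map_one]
  have hφ' : ∀ x, ((φ x : X) : X ⧸ center X) = γ (stdMap Q x) := fun x =>
    DFunLike.congr_fun hφ x
  have hc : ∀ x : η.ker, φ x ∈ center X := fun x => by
    rw [← QuotientGroup.eq_one_iff, hφ', hker x x.2, map_one]
  obtain ⟨l, hl⟩ := exists_ext_of_rootable hX η.ker (by
    rw [eq_bot_iff]
    intro x hx
    have := (injective_iff_map_eq_one _).1 hinj ⟨x, hker x hx.1, hx.2⟩ (Subtype.ext hx.1)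
    exact congrArg Subtype.val this) ((φ.comp η.ker.subtype).codRestrict _ hc)
  have hs := surjective_of_lift_stem (std_centExt Q).1 hσ hη
  have hl' : ∀ x, ((center X).subtype.comp l⁻¹) x ∈ center X := fun x => (l⁻¹ x).2
  obtain ⟨k, hk⟩ := exists_factor η hs
    (mulCentral φ ((center X).subtype.comp l⁻¹) hl') (fun x hx => by
      rw [MonoidHom.mem_ker, mulCentral_apply]
      have := congrArg Subtype.val (hl ⟨x, hx⟩)
      change φ x * ((l x)⁻¹ : center X) = 1
      rw [Subgroup.coe_inv, this]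
      exact mul_inv_cancel _)
  refine ⟨k, MonoidHom.ext fun g => ?_⟩
  obtain ⟨a, rfl⟩ := hs g
  rw [MonoidHom.comp_apply, hk, mulCentral_apply, map_mul, MonoidHom.comp_apply γ,
    ← MonoidHom.comp_apply σ, hη, QuotientGroup.mk'_apply, QuotientGroup.mk'_apply, hφ',
    (QuotientGroup.eq_one_iff _).2 (hl' a), mul_one]

/-- Projective representations lift to every Schur cover. -/
theorem exists_lift_of_cover {A : Type*} [CommGroup A] (hA : HasSchurMultiplier Q A)
    {Γ : Type*} [Group Γ] {σ : Γ →* Q} (hσ : IsStemExtension σ) (hk : Nonempty (σ.ker ≃* A))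
    (n : ℕ) (γ : Q →* GL (Fin n) ℂ ⧸ center (GL (Fin n) ℂ)) :
    ∃ ρ : Γ →* GL (Fin n) ℂ, (QuotientGroup.mk' _).comp ρ = γ.comp σ := by
  obtain ⟨η, hη⟩ := hopf_lift' (stdPres Q) (stem_centExt hσ)
  exact exists_lift_of_inj hσ η hη
    (multMap_bijective_of_cover hA hσ hk (std_centExt Q) η hη).1 (center_GL_rootable n) γ

/-- A representation in which a given central subgroup acts by scalars and a given element of it
acts nontrivially. -/
theorem exists_rep_central {Γ : Type*} [Group Γ] [Finite Γ] (Z : Subgroup Γ) (hZ : Z ≤ center Γ)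
    {x : Γ} (hx : x ∈ Z) (hx1 : x ≠ 1) :
    ∃ (n : ℕ) (R : Γ →* GL (Fin n) ℂ), (∀ z ∈ Z, R z ∈ center (GL (Fin n) ℂ)) ∧ R x ≠ 1 := by
  classical
  haveI := isMulCommutative_of_le_center hZ
  obtain ⟨χ, hχ⟩ := CommGroup.exists_apply_ne_one_of_hasEnoughRootsOfUnity Z ℂ
    (a := ⟨x, hx⟩) (fun e => hx1 (congrArg Subtype.val e))
  let V : Submodule ℂ (Γ → ℂ) :=
    { carrier := {f | ∀ (z : Z) (g : Γ), f (z * g) = χ z * f g}
      add_mem' := fun {a b} ha hb z g => by
        simp only [Pi.add_apply, ha z g, hb z g, mul_add]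
      zero_mem' := fun z g => by simp
      smul_mem' := fun c f hf z g => by
        simp only [Pi.smul_apply, hf z g, smul_eq_mul]; ring }
  let ρ : Γ →* Module.End ℂ V :=
    { toFun := fun g =>
        { toFun := fun f => ⟨fun y => f.1 (y * g), fun z y =>
            (congrArg f.1 (mul_assoc _ _ _)).trans (f.2 z _)⟩
          map_add' := fun _ _ => rfl
          map_smul' := fun _ _ => rfl }
      map_one' := by ext f y; simp
      map_mul' := fun a b => by ext f y; simp [mul_assoc] }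
  have hρ : ∀ z : Z, ρ z = algebraMap ℂ _ (χ z) := fun z => by
    ext f y
    change f.1 (y * z) = χ z * f.1 y
    rw [mem_center_iff.1 (hZ z.2) y]
    exact f.2 z y
  let b := Module.finBasis ℂ V
  let R : Γ →* GL (Fin (Module.finrank ℂ V)) ℂ :=
    (Units.map (LinearMap.toMatrixAlgEquiv b).toRingEquiv.toMonoidHom).comp ρ.toHomUnits
  have hR : ∀ z : Z, (R z).1 = algebraMap ℂ _ (χ z) := fun z => by
    change LinearMap.toMatrixAlgEquiv b (ρ z) = _
    rw [hρ, AlgEquiv.commutes]
  refine ⟨_, R, fun z hz => mem_center_iff.2 fun g => Units.ext ?_, fun e => hχ ?_⟩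
  · rw [Units.val_mul, Units.val_mul, hR ⟨z, hz⟩, Algebra.commutes]
  · let f0 : V := ⟨fun g => if h : g ∈ Z then χ ⟨g, h⟩ else 0, fun z g => by
      beta_reduce
      by_cases h : g ∈ Z
      · have h' : z * g ∈ Z := mul_mem z.2 h
        rw [dif_pos h, dif_pos h', ← Units.val_mul, ← map_mul]; rfl
      · have h' : z * g ∉ Z := fun h' => h ((mul_mem_cancel_left z.2).1 h')
        rw [dif_neg h, dif_neg h', mul_zero]⟩
    have h1 : ρ x = 1 := (LinearMap.toMatrixAlgEquiv b).injective (by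
      rw [map_one]; exact congrArg Units.val e)
    have h2 : (ρ x f0).1 1 = f0.1 1 := by rw [h1]; rfl
    change (if h : 1 * x ∈ Z then (χ ⟨1 * x, h⟩ : ℂ) else 0) =
      if h : (1 : Γ) ∈ Z then (χ ⟨1, h⟩ : ℂ) else 0 at h2
    rw [dif_pos (by rwa [one_mul]), dif_pos Z.one_mem] at h2
    simp only [one_mul] at h2
    apply Units.ext
    rw [h2]
    exact congrArg Units.val (map_one χ)

/-- A central extension to which all projective representations lift sees the whole multiplier. -/
theorem multMap_injective_of_lift [Finite Q] {Γ : Type*} [Group Γ] {σ : Γ →* Q}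
    (hlift : ∀ (n : ℕ) (γ : Q →* GL (Fin n) ℂ ⧸ center (GL (Fin n) ℂ)),
      ∃ ρ : Γ →* GL (Fin n) ℂ, (QuotientGroup.mk' _).comp ρ = γ.comp σ)
    (η : stdE Q →* Γ) (hη : σ.comp η = stdMap Q) : Function.Injective (multMap η hη) := by
  rw [injective_iff_map_eq_one]
  intro x hx
  obtain ⟨⟨Γ', _, _, σ', hσ', hk⟩, -⟩ := hasSchurMultiplier_std (Q := Q)
  obtain ⟨β, hβ⟩ := hopf_lift' (stdPres Q) (stem_centExt hσ')
  have hb := multMap_bijective_of_cover hasSchurMultiplier_std hσ' hk (std_centExt Q) β hβ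
  by_contra h1
  have h2 : β x ≠ 1 := fun e => h1 ((injective_iff_map_eq_one _).1 hb.1 x (Subtype.ext e))
  obtain ⟨n, R, hR, hRx⟩ := exists_rep_central σ'.ker hσ'.2.1 (multMap β hβ x).2.1 h2
  obtain ⟨γ, hγ⟩ := exists_factor σ' hσ'.1 ((QuotientGroup.mk' _).comp R)
    fun z hz => (QuotientGroup.eq_one_iff _).2 (hR z hz)
  obtain ⟨ρ, hρ⟩ := hlift n γ
  have := lift_eq_on_commutator (ξ := QuotientGroup.mk' (center (GL (Fin n) ℂ))) (by simp)
    (η₁ := ρ.comp η) (η₂ := R.comp β) (MonoidHom.ext fun y => by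
      have e1 := DFunLike.congr_fun hρ (η y)
      have e2 := DFunLike.congr_fun hη y
      have e3 := DFunLike.congr_fun hβ y
      simp only [MonoidHom.comp_apply] at e1 e2 e3 ⊢
      rw [e1, e2]
      exact (congrArg γ e3.symm).trans (hγ _)) x.2.2
  apply hRx
  have e : η x = 1 := congrArg Subtype.val hx
  change R (β x) = 1
  rw [← MonoidHom.comp_apply, ← this, MonoidHom.comp_apply, e, map_one]

theorem exists_onto_of_lift [Finite Q] {Γ : Type*} [Group Γ] {σ : Γ →* Q}
    (hσ : IsStemExtension σ)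
    (hlift : ∀ (n : ℕ) (γ : Q →* GL (Fin n) ℂ ⧸ center (GL (Fin n) ℂ)),
      ∃ ρ : Γ →* GL (Fin n) ℂ, (QuotientGroup.mk' _).comp ρ = γ.comp σ)
    {Δ : Type*} [Group Δ] {τ : Δ →* Q} (hτ : IsStemExtension τ) :
    ∃ π : σ.ker →* τ.ker, Function.Surjective π := by
  obtain ⟨η, hη⟩ := hopf_lift' (stdPres Q) (stem_centExt hσ)
  let e : stdM Q ≃* σ.ker := (MulEquiv.ofBijective (multMap η hη)
    ⟨multMap_injective_of_lift hlift η hη,
      multMap_surjective (std_centExt Q).1 hσ.2.1 η hη⟩).trans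
    (MulEquiv.subgroupCongr (stem_mult hσ))
  obtain ⟨p, hp⟩ := schur_onto_ker (hasSchurMultiplier_std (Q := Q)) hτ
  exact ⟨p.comp e.symm.toMonoidHom, hp.comp e.symm.surjective⟩

end Cfsg.Agent.H27
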