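import Mathlib
import Cfsg.Prelude.Def_KGroupFacts
import Cfsg.Agent.H27.Schur5
import Cfsg.Agent.H27.CycExt

/-! Rank of the multiplier of a finitely presented group, uniqueness of Schur covers. -/

namespace Cfsg.Agent.H27

open Subgroup
open scoped commutatorElement IsMulCommutative

universe u v w

theorem rank_le_finrank {N : Type*} [AddCommGroup N] [Module.Free ℤ N] [Module.Finite ℤ N]
    {M : Type*} [CommGroup M] [Group.FG M] (f : N →+ Additive M) (hf : Function.Surjective f) :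
    Group.rank M ≤ Module.finrank ℤ N := by
  classical
  let b := Module.finBasis ℤ N
  refine (Group.rank_le (S := Finset.univ.image fun i => (f (b i)).toMul) ?_).trans
    (Finset.card_image_le.trans (by simp))
  rw [eq_top_iff]
  intro m _
  obtain ⟨x, hx⟩ := hf (Additive.ofMul m)
  have : m = (f x).toMul := by rw [hx]; rfl
  rw [this, ← b.sum_repr x, map_sum, toMul_sum]
  refine prod_mem fun i _ => ?_
  rw [map_zsmul, toMul_zsmul]
  exact zpow_mem (subset_closure (by simp)) _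

theorem rank_le_sub {K : Type*} [CommGroup K] {ι : Type*} [Fintype ι] (v : ι → K)
    (hv : closure (Set.range v) = ⊤) (n : ℕ) (g : K →* Multiplicative (Fin n → ℤ)) (d : ℕ)
    (hd : d ≠ 0) (hg : ∀ i, Multiplicative.ofAdd (Pi.single i 1) ^ d ∈ g.range) (M : Subgroup K)
    [Group.FG M] (hM : M ≤ g.ker) : Group.rank M ≤ Fintype.card ι - n := by
  classical
  let f : (ι → ℤ) →ₗ[ℤ] Additive K := Fintype.linearCombination ℤ fun i => Additive.ofMul (v i)
  have hf : ∀ k : K, ∃ x, f x = Additive.ofMul k := fun k => by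
    have hk : k ∈ closure (Set.range v) := hv ▸ mem_top k
    induction hk using closure_induction with
    | mem x hx =>
      obtain ⟨i, rfl⟩ := hx
      exact ⟨Pi.single i 1, by simp [f]⟩
    | one => exact ⟨0, by simp⟩
    | mul x y _ _ hx hy =>
      obtain ⟨a, ha⟩ := hx
      obtain ⟨b, hb⟩ := hy
      exact ⟨a + b, by rw [map_add, ha, hb]; rfl⟩
    | inv x _ hx =>
      obtain ⟨a, ha⟩ := hx
      exact ⟨-a, by rw [map_neg, ha]; rfl⟩
  let h : (ι → ℤ) →ₗ[ℤ] (Fin n → ℤ) := (MonoidHom.toAdditiveLeft g).toIntLinearMap ∘ₗ f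
  let N : Submodule ℤ (ι → ℤ) := (AddSubgroup.toIntSubmodule (Subgroup.toAddSubgroup M)).comap f
  have hN : N ≤ LinearMap.ker h := fun x hx => hM hx
  have h1 := Submodule.finrank_quotient_add_finrank (LinearMap.ker h)
  rw [h.quotKerEquivRange.finrank_eq, Module.finrank_fintype_fun_eq_card] at h1
  have h2 : n ≤ Module.finrank ℤ (LinearMap.range h) := by
    have hm : ∀ i, (d : ℤ) • (Pi.single i 1 : Fin n → ℤ) ∈ LinearMap.range h := fun i => by
      obtain ⟨k, hk⟩ := hg i
      obtain ⟨x, hx⟩ := hf k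
      refine ⟨x, ?_⟩
      change (g (f x).toMul).toAdd = _
      rw [hx, toMul_ofMul, hk, toAdd_pow, toAdd_ofAdd, natCast_zsmul]
    have hli : LinearIndependent ℤ fun i => (⟨_, hm i⟩ : LinearMap.range h) := by
      apply LinearIndependent.of_comp (LinearMap.range h).subtype
      rw [Fintype.linearIndependent_iff]
      intro c hc i
      have := congrFun hc i
      simp [Pi.single_apply, hd] at this
      exact this
    simpa using hli.fintype_card_le_finrank
  have h3 := Submodule.finrank_mono hN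
  let φ : N →+ Additive M :=
    { toFun := fun x => Additive.ofMul ⟨(f x).toMul, x.2⟩
      map_zero' := congrArg Additive.ofMul (Subtype.ext (by simp))
      map_add' := fun a b => congrArg Additive.ofMul (Subtype.ext (by simp)) }
  have h4 := rank_le_finrank φ fun m => by
    obtain ⟨x, hx⟩ := hf m.toMul
    refine ⟨⟨x, ?_⟩, congrArg Additive.ofMul (Subtype.ext (congrArg Additive.toMul hx))⟩
    change (f x).toMul ∈ M
    rw [hx]
    exact m.toMul.2
  omega

theorem schur_rank_le (n : ℕ) (rels : Finset (FreeGroup (Fin n)))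
    [Finite (PresentedGroup (rels : Set (FreeGroup (Fin n))))] {A : Type*} [CommGroup A] [Finite A]
    (hA : HasSchurMultiplier (PresentedGroup (rels : Set (FreeGroup (Fin n)))) A) :
    Group.rank A ≤ rels.card - n := by
  classical
  let π := PresentedGroup.mk (rels : Set (FreeGroup (Fin n)))
  have hπ : Function.Surjective π := PresentedGroup.mk_surjective _
  have hc := hopf_ker_le_center π
  haveI := isMulCommutative_of_le_center hc
  haveI := isMulCommutative_of_le_center ((mult_le_ker _).trans hc)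
  haveI := finite_mult hc
  obtain ⟨e⟩ := schur_unique hA (hopf_formula π hπ (MulEquiv.refl _))
  let e' := e.trans (subgroupOfEquivOfLe (mult_le_ker (hopfMap π))).symm
  haveI : Finite ((mult (hopfMap π)).subgroupOf (hopfMap π).ker) := Finite.of_equiv _ e'.toEquiv
  rw [Group.rank_congr e', ← Fintype.card_coe]
  let g0 : FreeGroup (Fin n) →* Multiplicative (Fin n → ℤ) :=
    FreeGroup.lift fun i => Multiplicative.ofAdd (Pi.single i 1)
  let g := hopfDesc π g0 fun x _ => mem_center_iff.2 fun y => mul_comm _ _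
  let v : rels → (hopfMap π).ker := fun r => ⟨(r.1 : HE π), PresentedGroup.one_of_mem r.2⟩
  refine rank_le_sub v ?_ n (g.comp (hopfMap π).ker.subtype)
    (Nat.card (PresentedGroup (rels : Set (FreeGroup (Fin n))))) Nat.card_pos.ne'
    (fun i => ?_) _ fun x hx => ?_
  · apply map_injective (hopfMap π).ker.subtype_injective
    rw [MonoidHom.map_closure, ← MonoidHom.range_eq_map, range_subtype]
    refine le_antisymm (closure_le _ |>.2 ?_) ?_
    · rintro _ ⟨x, -, rfl⟩; exact x.2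
    · intro x hx
      obtain ⟨x, rfl⟩ := QuotientGroup.mk_surjective x
      have hx' : x ∈ normalClosure (rels : Set (FreeGroup (Fin n))) :=
        PresentedGroup.mk_eq_one_iff.1 hx
      haveI : (closure ((hopfMap π).ker.subtype '' Set.range v)).Normal :=
        normal_of_le_center' ((closure_le _ |>.2 (by rintro _ ⟨x, -, rfl⟩; exact x.2)).trans hc)
      have : normalClosure (rels : Set (FreeGroup (Fin n))) ≤
          (closure ((hopfMap π).ker.subtype '' Set.range v)).comap (QuotientGroup.mk' _) :=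
        normalClosure_le_normal fun r hr => subset_closure ⟨v ⟨r, hr⟩, ⟨_, rfl⟩, rfl⟩
      exact this hx'
  · refine ⟨⟨((FreeGroup.of i ^ Nat.card (PresentedGroup (rels : Set (FreeGroup (Fin n)))) :
      FreeGroup (Fin n)) : HE π), ?_⟩, ?_⟩
    · rw [MonoidHom.mem_ker, hopfMap_mk, map_pow, pow_card_eq_one']
    · change g0 _ = _
      rw [map_pow, FreeGroup.lift_apply_of]
  · exact Abelianization.commutator_subset_ker g hx.2

variable {Q : Type u} [Group Q]

/-- Two lifts to a central extension differ by a homomorphism with values in the kernel. -/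
theorem exists_lift_diff {E X : Type*} [Group E] [Group X] {ξ : X →* Q} (hξ : ξ.ker ≤ center X)
    {η₁ η₂ : E →* X} (h : ξ.comp η₁ = ξ.comp η₂) :
    ∃ l : E →* ξ.ker, ∀ x, η₂ x = η₁ x * l x := by
  have hm : ∀ x, (η₁ x)⁻¹ * η₂ x ∈ ξ.ker := fun x => by
    have := DFunLike.congr_fun h x
    simp only [MonoidHom.comp_apply] at this
    rw [MonoidHom.mem_ker, map_mul, map_inv, this, inv_mul_cancel]
  refine ⟨MonoidHom.mk' (fun x => ⟨_, hm x⟩) fun a b => Subtype.ext ?_, fun x => by simp⟩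
  have := mem_center_iff.1 (hξ (hm a)) (η₁ b)⁻¹
  change (η₁ (a * b))⁻¹ * η₂ (a * b) = (η₁ a)⁻¹ * η₂ a * ((η₁ b)⁻¹ * η₂ b)
  rw [← mul_assoc _ (η₁ b)⁻¹, ← this, map_mul, map_mul, mul_inv_rev]
  simp only [mul_assoc]

theorem exists_ker_mul_commutator {E : Type*} [Group E] {ε : E →* Q} (hε : Function.Surjective ε)
    {x : E} (hx : ε x ∈ commutator Q) : ∃ k ∈ ε.ker, ∃ c ∈ commutator E, x = k * c := by
  rw [commutator_def, ← map_top_of_surjective ε hε, ← map_commutator] at hx
  obtain ⟨c, hc, e⟩ := hx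
  exact ⟨x * c⁻¹, by rw [MonoidHom.mem_ker, map_mul, map_inv, e, mul_inv_cancel], c, hc, by group⟩

theorem exists_ext_of_coprime {E D : Type*} [Group E] [CommGroup D] (K : Subgroup E)
    (hK : K ⊓ commutator E = ⊥) (m : ℕ) (hm : ∀ x : E, ∃ k ∈ K, ∃ c ∈ commutator E, x ^ m = k * c)
    (hD : m.Coprime (Nat.card D)) (χ : K →* D) : ∃ l : E →* D, ∀ k : K, l k = χ k := by
  let f : K →* Abelianization E := Abelianization.of.comp K.subtype
  have hf : Function.Injective f := by
    rw [injective_iff_map_eq_one]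
    intro k hk
    have : (k : E) ∈ K ⊓ commutator E := ⟨k.2, (QuotientGroup.eq_one_iff _).1 hk⟩
    rw [hK] at this
    exact Subtype.ext this
  have hr : ∀ x : E, ((powMonoidHom m).comp Abelianization.of) x ∈ f.range := fun x => by
    obtain ⟨k, hk, c, hc, e⟩ := hm x
    refine ⟨⟨k, hk⟩, ?_⟩
    change Abelianization.of k = Abelianization.of x ^ m
    have : Abelianization.of c = 1 := (QuotientGroup.eq_one_iff _).2 hc
    rw [← map_pow, e, map_mul, this, mul_one]
  refine ⟨(zpowGroupHom (Nat.gcdA m (Nat.card D))).comp (χ.comp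
    ((MonoidHom.ofInjective hf).symm.toMonoidHom.comp (MonoidHom.codRestrict _ _ hr))), fun k => ?_⟩
  have : (MonoidHom.ofInjective hf).symm (MonoidHom.codRestrict _ _ hr k) = k ^ m := by
    rw [MulEquiv.symm_apply_eq]
    apply Subtype.ext
    rw [MonoidHom.ofInjective_apply, map_pow]
    rfl
  change χ ((MonoidHom.ofInjective hf).symm (MonoidHom.codRestrict _ _ hr k)) ^
    (Nat.gcdA m (Nat.card D)) = _
  rw [this, map_pow]
  have h1 := Nat.gcd_eq_gcd_ab m (Nat.card D)
  rw [hD] at h1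
  conv_rhs => rw [← zpow_one (χ k), ← Nat.cast_one, h1, zpow_add, zpow_mul, zpow_mul,
    zpow_natCast, zpow_natCast, pow_card_eq_one', one_zpow, mul_one]

theorem cover_iso_of_coprime {A : Type*} [CommGroup A] (hA : HasSchurMultiplier Q A)
    (h : (Nat.card (Abelianization Q)).Coprime (Nat.card A)) {Γ₁ Γ₂ : Type*} [Group Γ₁]
    [Group Γ₂] {σ₁ : Γ₁ →* Q} {σ₂ : Γ₂ →* Q} (h₁ : IsStemExtension σ₁) (h₂ : IsStemExtension σ₂)
    (k₁ : Nonempty (σ₁.ker ≃* A)) (k₂ : Nonempty (σ₂.ker ≃* A)) :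
    ∃ e : Γ₁ ≃* Γ₂, σ₂.comp e.toMonoidHom = σ₁ := by
  haveI := schur_finite hA
  haveI := schur_finite_group hA
  obtain ⟨η₁, hη₁⟩ := hopf_lift' (stdPres Q) (stem_centExt h₁)
  obtain ⟨η₂, hη₂⟩ := hopf_lift' (stdPres Q) (stem_centExt h₂)
  have hb := multMap_bijective_of_cover hA h₁ k₁ (std_centExt Q) η₁ hη₁
  have e₁ : ∀ x, σ₁ (η₁ x) = stdMap Q x := DFunLike.congr_fun hη₁
  have e₂ : ∀ x, σ₂ (η₂ x) = stdMap Q x := DFunLike.congr_fun hη₂
  have hker : ∀ x ∈ η₁.ker, stdMap Q x = 1 := fun x hx => by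
    rw [← e₁, MonoidHom.mem_ker.1 hx, map_one]
  have hc : ∀ x : η₁.ker, η₂ x ∈ σ₂.ker := fun x => by
    rw [MonoidHom.mem_ker, e₂, hker x x.2]
  haveI := isMulCommutative_of_le_center h₂.2.1
  obtain ⟨f₁⟩ := k₁
  obtain ⟨f₂⟩ := k₂
  obtain ⟨l, hl⟩ := exists_ext_of_coprime η₁.ker (by
    rw [eq_bot_iff]
    intro x hx
    have := (injective_iff_map_eq_one _).1 hb.1 ⟨x, hker x hx.1, hx.2⟩ (Subtype.ext hx.1)
    exact congrArg Subtype.val this) (Nat.card (Abelianization Q)) (fun x => by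
      obtain ⟨k, hk, c, hc, e⟩ := exists_ker_mul_commutator (std_centExt Q).1
        (x := x ^ Nat.card (Abelianization Q)) (by
          rw [← QuotientGroup.eq_one_iff, map_pow]
          change Abelianization.of (_ ^ _) = 1
          rw [map_pow, pow_card_eq_one'])
      obtain ⟨m, hm⟩ := hb.2 ⟨η₁ k, by
        rw [stem_mult h₁, MonoidHom.mem_ker, e₁]; exact hk⟩
      have hm' : η₁ m = η₁ k := congrArg Subtype.val hm
      refine ⟨k * m⁻¹, by
        rw [MonoidHom.mem_ker, map_mul, Subgroup.coe_inv, map_inv, hm', mul_inv_cancel],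
        m * c, mul_mem m.2.2 hc, by rw [e, Subgroup.coe_inv]; group⟩)
    (D := σ₂.ker) (by rwa [Nat.card_congr f₂.toEquiv]) ((η₂.comp η₁.ker.subtype).codRestrict _ hc)
  have hl' : ∀ x, (σ₂.ker.subtype.comp l⁻¹) x ∈ center Γ₂ := fun x => h₂.2.1 (l⁻¹ x).2
  have hs := surjective_of_lift_stem (std_centExt Q).1 h₁ hη₁
  obtain ⟨k, hk⟩ := exists_factor η₁ hs (mulCentral η₂ _ hl') (fun x hx => by
      rw [MonoidHom.mem_ker, mulCentral_apply]
      have := congrArg Subtype.val (hl ⟨x, hx⟩)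
      change η₂ x * ((l x)⁻¹ : σ₂.ker) = 1
      rw [Subgroup.coe_inv, this]
      exact mul_inv_cancel _)
  have hk' : σ₂.comp k = σ₁ := MonoidHom.ext fun g => by
    obtain ⟨a, rfl⟩ := hs g
    rw [MonoidHom.comp_apply, hk, mulCentral_apply, map_mul, e₁, e₂]
    exact mul_eq_left.2 (l⁻¹ a).2
  haveI : Finite σ₁.ker := Finite.of_equiv _ f₁.symm.toEquiv
  haveI := finite_of_finite_ker σ₁
  refine ⟨MulEquiv.ofBijective k ((Nat.bijective_iff_surjective_and_card k).2
    ⟨surjective_of_lift_stem h₁.1 h₂ hk', ?_⟩), hk'⟩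
  rw [← σ₁.ker.card_mul_index, ← σ₂.ker.card_mul_index, index_ker, index_ker,
    MonoidHom.range_eq_top.2 h₁.1, MonoidHom.range_eq_top.2 h₂.1, Nat.card_congr f₁.toEquiv,
    Nat.card_congr f₂.toEquiv]

theorem exists_functional {N : Type*} [AddCommGroup N] [Module.Free ℤ N] [Module.Finite ℤ N]
    (p : ℤ) (y : N) (hy : ∀ z, y ≠ p • z) : ∃ φ : N →ₗ[ℤ] ℤ, ¬ p ∣ φ y := by
  let b := Module.finBasis ℤ N
  by_contra h
  push Not at h
  choose c hc using fun i => h (b.coord i)
  refine hy (∑ i, c i • b i) ?_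
  rw [Finset.smul_sum, ← b.sum_repr y]
  exact Finset.sum_congr rfl fun i _ => by rw [smul_smul, ← hc, Module.Basis.coord_apply]

theorem coprime_of_cover_iso [Finite Q]
    (H : ∀ (Γ₁ Γ₂ : Type u) [Group Γ₁] [Finite Γ₁] [Group Γ₂] [Finite Γ₂] (σ₁ : Γ₁ →* Q)
      (σ₂ : Γ₂ →* Q), IsStemExtension σ₁ → IsStemExtension σ₂ → Nonempty (σ₁.ker ≃* stdM Q) →
      Nonempty (σ₂.ker ≃* stdM Q) → ∃ e : Γ₁ ≃* Γ₂, σ₂.comp e.toMonoidHom = σ₁) :
    (Nat.card (Abelianization Q)).Coprime (Nat.card (stdM Q)) := by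
  apply Nat.coprime_of_dvd
  intro p hp h1 h2
  haveI := Fact.mk hp
  have hε := std_centExt Q
  -- an element of the multiplier that is not a `p`-th power
  obtain ⟨a, ha⟩ : ∃ a : stdM Q, ∀ b, b ^ p ≠ a := by
    by_contra h
    push Not at h
    have hinj : Function.Injective (powMonoidHom p : stdM Q →* stdM Q) :=
      Finite.injective_iff_surjective.2 h
    obtain ⟨b, hb⟩ := exists_prime_orderOf_dvd_card' p h2
    have := (injective_iff_map_eq_one _).1 hinj b (by rw [powMonoidHom_apply, ← hb, pow_orderOf_eq_one])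
    rw [this, orderOf_one] at hb
    exact hp.ne_one hb.symm
  obtain ⟨C, hC, hC1, hC2⟩ := hopf_exists_complement (stdPres Q) _ le_rfl le_sup_left
  haveI : C.Normal := normal_of_le_center' (hC.trans hε.2)
  -- an element `x` with `x ^ p ∈ C E'`, `x ∉ K E'`
  obtain ⟨q, hq⟩ := exists_prime_orderOf_dvd_card' p h1
  obtain ⟨q, rfl⟩ : ∃ x, Abelianization.of x = q := QuotientGroup.mk_surjective q
  obtain ⟨x, rfl⟩ := hε.1 q
  obtain ⟨y, hy, c, hc, e⟩ : ∃ y ∈ C, ∃ c ∈ commutator (stdE Q), x ^ p = y * c := by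
    obtain ⟨k, hk, c, hc, e⟩ := exists_ker_mul_commutator hε.1 (x := x ^ p) (by
      rw [← QuotientGroup.eq_one_iff, map_pow]
      change Abelianization.of (_ ^ _) = 1
      rw [map_pow, ← hq, pow_orderOf_eq_one])
    have h3 : k ∈ ((C ⊔ stdM Q : Subgroup _) : Set (stdE Q)) := hC2 hk
    rw [normal_mul] at h3
    obtain ⟨y, hy, m, hm, rfl⟩ := h3
    exact ⟨y, hy, m * c, mul_mem hm.2 hc, by rw [e, mul_assoc]⟩
  haveI := hopf_fg_ker (stdPres Q)
  let g : (stdMap Q).ker →* Abelianization (stdE Q) := Abelianization.of.comp (stdMap Q).ker.subtype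
  haveI : Group.FG g.range := Group.fg_range g
  haveI : Module.Finite ℤ (Additive g.range) := Module.Finite.iff_addGroup_fg.2 inferInstance
  have htf : ∀ (z : Abelianization (stdE Q)) (n : ℕ), n ≠ 0 → z ^ n = 1 → z = 1 := fun z n hn h => by
    obtain ⟨z, rfl⟩ : ∃ x, Abelianization.of x = z := QuotientGroup.mk_surjective z
    rw [← map_pow] at h
    exact (QuotientGroup.eq_one_iff _).2
      (hopf_torsionFree _ z n hn ((QuotientGroup.eq_one_iff _).1 h))
  haveI : Module.IsTorsionFree ℤ (Additive g.range) := by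
    rw [Module.isTorsionFree_int_iff_isAddTorsionFree, isAddTorsionFree_iff_not_isOfFinAddOrder]
    intro a ha hfin
    obtain ⟨n, hn, hna⟩ := isOfFinAddOrder_iff_nsmul_eq_zero.1 hfin
    exact ha (congrArg Additive.ofMul (Subtype.ext (htf _ n hn.ne'
      (congrArg (fun x : Additive g.range => (x.toMul : Abelianization (stdE Q))) hna))))
  obtain ⟨φ, hφ⟩ := exists_functional (p : ℤ) (Additive.ofMul (g.rangeRestrict ⟨y, hC hy⟩))
    fun z hz => by
      obtain ⟨⟨_, ⟨k, hk⟩, rfl⟩, rfl⟩ := Additive.ofMul.surjective z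
      have h3 : Abelianization.of y = Abelianization.of k ^ (p : ℤ) :=
        congrArg (fun x : Additive g.range => (x.toMul : Abelianization (stdE Q))) hz
      have h4 : Abelianization.of c = 1 := (QuotientGroup.eq_one_iff _).2 hc
      have h5 := htf (Abelianization.of (k⁻¹ * x)) p hp.ne_zero (by
        rw [map_mul, mul_pow, ← map_pow _ x, e, map_mul, h3, h4, map_inv, zpow_natCast]; simp)
      have h6 : stdMap Q (k⁻¹ * x) ∈ commutator Q := by
        rw [commutator_def, ← map_top_of_surjective _ hε.1, ← map_commutator]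
        exact mem_map_of_mem _ ((QuotientGroup.eq_one_iff _).1 h5)
      rw [map_mul, map_inv, MonoidHom.mem_ker.1 hk, inv_one, one_mul] at h6
      have h7 : Abelianization.of (stdMap Q x) = 1 := (QuotientGroup.eq_one_iff _).2 h6
      rw [h7, orderOf_one] at hq
      exact hp.ne_one hq.symm
  let θ : C →* stdM Q := (zpowersHom _ a).comp ((AddMonoidHom.toMultiplicativeRight
    φ.toAddMonoidHom).comp (g.rangeRestrict.comp (inclusion hC)))
  have hθ : ∀ x, ((stdM Q).subtype.comp θ) x ∈ center (stdE Q) := fun x => stdM_le_center Q (θ x).2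
  let D := (mulCentral C.subtype _ hθ).range
  have hD : D ≤ (stdMap Q).ker := by
    rintro _ ⟨x, rfl⟩
    exact mul_mem (hC x.2) (θ x).2.1
  haveI : D.Normal := normal_of_le_center' (hD.trans hε.2)
  have hD1 : D ⊓ stdM Q = ⊥ := by
    rw [eq_bot_iff]
    rintro _ ⟨⟨x, rfl⟩, hx⟩
    have h3 : (x : stdE Q) ∈ C ⊓ stdM Q := ⟨x.2, (mul_mem_cancel_right (θ x).2).1 hx⟩
    rw [hC1] at h3
    rw [show x = 1 from Subtype.ext h3, map_one]
    exact one_mem _
  have hD2 : (stdMap Q).ker ≤ D ⊔ stdM Q := hC2.trans (sup_le (fun x hx => by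
    have := mul_mem (mem_sup_left ⟨⟨x, hx⟩, rfl⟩ : _ ∈ D ⊔ stdM Q)
      (inv_mem (mem_sup_right (θ ⟨x, hx⟩).2))
    rwa [mulCentral_apply, MonoidHom.comp_apply, subtype_apply, subtype_apply,
      mul_inv_cancel_right] at this) le_sup_right)
  obtain ⟨s₁, b₁⟩ := stem_of_complement hε C hC hC1 hC2
  obtain ⟨s₂, b₂⟩ := stem_of_complement hε D hD hD1 hD2
  let f₁ := (MulEquiv.ofBijective _ b₁).trans (MulEquiv.subgroupCongr (stem_mult s₁))
  let f₂ := (MulEquiv.ofBijective _ b₂).trans (MulEquiv.subgroupCongr (stem_mult s₂))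
  haveI := Finite.of_equiv _ f₁.toEquiv
  haveI := Finite.of_equiv _ f₂.toEquiv
  haveI := finite_of_finite_ker (QuotientGroup.lift C (stdMap Q) hC)
  haveI := finite_of_finite_ker (QuotientGroup.lift D (stdMap Q) hD)
  obtain ⟨i, hi⟩ := H _ _ _ _ s₁ s₂ ⟨f₁.symm⟩ ⟨f₂.symm⟩
  obtain ⟨l, hl⟩ := exists_lift_diff s₂.2.1 (η₁ := i.toMonoidHom.comp (QuotientGroup.mk' C))
    (η₂ := QuotientGroup.mk' D) (by rw [← MonoidHom.comp_assoc, hi]; rfl)
  haveI := isMulCommutative_of_le_center s₂.2.1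
  have h3 : l y = l x ^ p := by
    rw [← map_pow, e, map_mul, MonoidHom.mem_ker.1 (Abelianization.commutator_subset_ker l hc),
      mul_one]
  obtain ⟨m, hm⟩ := f₂.surjective (l x)
  have h4 : (y : stdE Q ⧸ D) = l y := by
    have := hl y
    rwa [MonoidHom.comp_apply, QuotientGroup.mk'_apply, QuotientGroup.mk'_apply,
      (QuotientGroup.eq_one_iff (N := C) y).2 hy, map_one, one_mul] at this
  have h5 : ((y * θ ⟨y, hy⟩ : stdE Q) : stdE Q ⧸ D) = 1 :=
    (QuotientGroup.eq_one_iff _).2 ⟨⟨y, hy⟩, rfl⟩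
  have h6 : m ^ p * θ ⟨y, hy⟩ = 1 := f₂.injective (Subtype.ext (by
    rw [map_mul, map_pow, hm, ← h3, map_one, Subgroup.coe_mul, ← h4]
    exact h5))
  have h7 : θ ⟨y, hy⟩ = a ^ φ (Additive.ofMul (g.rangeRestrict ⟨y, hC hy⟩)) := rfl
  obtain ⟨u, v, huv⟩ := (Int.isCoprime_iff_gcd_eq_one.2
    ((Int.isCoprime_iff_gcd_eq_one.1
      ((Nat.prime_iff_prime_int.1 hp).irreducible.coprime_iff_not_dvd.2 hφ))))
  refine ha (a ^ u * (m⁻¹) ^ v) ?_
  have h8 : m⁻¹ ^ p = a ^ φ (Additive.ofMul (g.rangeRestrict ⟨y, hC hy⟩)) := by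
    rw [← h7, inv_pow, inv_eq_of_mul_eq_one_right h6]
  rw [mul_pow, ← zpow_natCast (m⁻¹ ^ v), ← zpow_mul, mul_comm v, zpow_mul, zpow_natCast, h8,
    ← zpow_natCast, ← zpow_mul, ← zpow_mul, ← zpow_add, mul_comm _ v, huv, zpow_one]

end Cfsg.Agent.H27
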