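import Mathlib

set_option autoImplicit false

namespace Cfsg.Agent.H27.Stb
open Finset

section Alg
variable {A : Type*} [Ring A] (z : ℕ → A)

def w (a i j : ℕ) : A := if j = 0 then z (a + 1 + i) else if j ≤ 1 + i then z (1 + i - j) else 0

def B (k a : ℕ) : A :=
  ∑ κ : Equiv.Perm (Fin k), ((Equiv.Perm.sign κ : ℤˣ) : ℤ) • (List.ofFn fun i : Fin k => w z a i (κ i)).prod

theorem B_zero (a : ℕ) : B z 0 a = 1 := by
  simp [B]

theorem B_one (a : ℕ) : B z 1 a = z (a + 1) := by
  simp [B, w]

theorem B_succ (h0 : z 0 = 1) (k a : ℕ) :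
    B z (k + 2) a = z (a + 1) * B z (k + 1) 0 - B z (k + 1) (a + 1) := by
  unfold B
  rw [← Equiv.sum_comp Equiv.Perm.decomposeFin.symm, Fintype.sum_prod_type, Fin.sum_univ_succ,
    Fin.sum_univ_succ, Finset.sum_eq_zero (s := (univ : Finset (Fin k))), add_zero, Finset.mul_sum,
    sub_eq_add_neg, ← Finset.sum_neg_distrib]
  · congr 1
    · refine Finset.sum_congr rfl fun e _ => ?_
      rw [List.ofFn_succ, List.prod_cons, Equiv.Perm.decomposeFin.symm_sign, mul_smul_comm]
      simp only [Equiv.Perm.decomposeFin_symm_apply_zero, Equiv.Perm.decomposeFin_symm_apply_succ,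
        Equiv.swap_self, Equiv.refl_apply, if_true, one_mul]
      congr 2
      congr 2
      funext i
      simp only [w, Fin.val_succ]
      by_cases h : (e i).val = 0
      · simp [h, add_comm]
      · have h1 : (e i).val + 1 ≤ 1 + (i.val + 1) ↔ (e i).val ≤ 1 + i.val := by omega
        have h2 : 1 + (i.val + 1) - ((e i).val + 1) = 1 + i.val - (e i).val := by omega
        simp [h, h1, h2]
    · refine Finset.sum_congr rfl fun e _ => ?_
      rw [List.ofFn_succ, List.prod_cons, Equiv.Perm.decomposeFin.symm_sign, if_neg (Fin.succ_ne_zero _)]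
      simp only [Equiv.Perm.decomposeFin_symm_apply_zero, Equiv.Perm.decomposeFin_symm_apply_succ]
      have e1 : w z a ((0 : Fin (k + 2)) : ℕ) ((Fin.succ (0 : Fin (k + 1)) : Fin (k + 2)) : ℕ) = 1 := by
        simp [w, h0]
      rw [e1, one_mul, Units.val_mul, Units.val_neg, Units.val_one, neg_one_mul, neg_smul]
      congr 4
      funext i
      by_cases h : e i = 0
      · rw [h, Equiv.swap_apply_right]
        simp only [w, Fin.val_succ, Fin.val_zero, if_true]
        congr 1; omega
      · rw [Equiv.swap_apply_of_ne_of_ne (Fin.succ_ne_zero _) (fun h' => h (Fin.succ_injective _ h'))]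
        have h' : (e i).val ≠ 0 := fun h' => h (Fin.ext h')
        have h1 : (e i).val + 1 ≤ 1 + (i.val + 1) ↔ (e i).val ≤ 1 + i.val := by omega
        have h2 : 1 + (i.val + 1) - ((e i).val + 1) = 1 + i.val - (e i).val := by omega
        simp [w, h', h1, h2]
  · intro p _
    refine Finset.sum_eq_zero fun e _ => ?_
    rw [List.ofFn_succ, List.prod_cons, Equiv.Perm.decomposeFin_symm_apply_zero]
    have : w z a ((0 : Fin (k + 2)) : ℕ) ((Fin.succ (Fin.succ p) : Fin (k + 2)) : ℕ) = 0 := by
      simp [w]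
    rw [this, zero_mul, smul_zero]

theorem B_eq (h0 : z 0 = 1) (k a : ℕ) :
    B z (k + 1) a = ∑ j ∈ range (k + 1), (-1 : ℤ) ^ j • (z (a + 1 + j) * B z (k - j) 0) := by
  induction k generalizing a with
  | zero => simp [B_one, B_zero]
  | succ k ih =>
    rw [B_succ z h0, ih (a + 1), Finset.sum_range_succ' _ (k + 1), sub_eq_add_neg, add_comm,
      ← Finset.sum_neg_distrib]
    congr 1
    · refine Finset.sum_congr rfl fun j _ => ?_
      rw [pow_succ, mul_neg_one, neg_smul]
      congr 4
      · omega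
      · omega
    · simp

theorem B_rec (h0 : z 0 = 1) (k : ℕ) :
    ∑ j ∈ range (k + 2), (-1 : ℤ) ^ (k + 1 - j) • (z j * B z (k + 1 - j) 0) = 0 := by
  rw [Finset.sum_range_succ', h0, one_mul, Nat.sub_zero, B_eq z h0 k 0, Finset.smul_sum,
    ← Finset.sum_add_distrib]
  refine Finset.sum_eq_zero fun j hj => ?_
  have hj' : j ≤ k := by simpa [Nat.lt_succ_iff] using hj
  obtain ⟨m, rfl⟩ := Nat.exists_eq_add_of_le hj'
  rw [smul_smul, show j + m + 1 - (j + 1) = m by omega, show j + m - j = m by omega,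
    show 0 + 1 + j = j + 1 by omega, ← add_smul]
  have : (-1 : ℤ) ^ m + (-1) ^ (j + m + 1) * (-1) ^ j = 0 := by
    rw [← pow_add, show j + m + 1 + j = 2 * j + (m + 1) by omega, pow_add, pow_mul]
    simp [pow_succ]
  rw [this, zero_smul]

end Alg

section Path
variable {L : Type*} [Fintype L] [DecidableEq L]

theorem path_sum (k : ℕ) (M : Fin k → Matrix L L ℂ) (U W : L) :
    (List.ofFn M).prod U W = ∑ C : Fin (k + 1) → L,
      if C 0 = U ∧ C (Fin.last k) = W then ∏ i, M i (C i.castSucc) (C i.succ) else 0 := by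
  induction k generalizing U with
  | zero =>
    rw [← Equiv.sum_comp (Equiv.funUnique (Fin 1) L).symm]
    simp only [List.ofFn_zero, List.prod_nil, Matrix.one_apply]
    by_cases h : U = W
    · subst h; simp
    · rw [if_neg h]; symm
      refine Finset.sum_eq_zero fun x _ => if_neg ?_
      rintro ⟨h1, h2⟩
      exact h (h1.symm.trans h2)
  | succ k ih =>
    rw [List.ofFn_succ, List.prod_cons, Matrix.mul_apply,
      ← Equiv.sum_comp (Fin.consEquiv fun _ : Fin (k + 2) => L), Fintype.sum_prod_type]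
    symm
    rw [Finset.sum_eq_single U]
    · simp only [ih, Finset.mul_sum]
      rw [Finset.sum_comm]
      refine Finset.sum_congr rfl fun C _ => ?_
      rw [Finset.sum_eq_single (C 0)]
      · simp only [Fin.consEquiv_apply, true_and, Fin.prod_univ_succ, mul_ite, mul_zero]
        rw [← Fin.succ_last]
        simp only [Fin.cons_zero, Fin.cons_succ, Fin.castSucc_zero, true_and, ← Fin.succ_castSucc]
      · intro b _ hb
        rw [if_neg (fun h => hb h.1.symm), mul_zero]
      · simp
    · intro b _ hb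
      refine Finset.sum_eq_zero fun C _ => if_neg ?_
      rintro ⟨h1, -⟩
      exact hb (by simpa using h1)
    · simp

end Path

section Mob
variable {L : Type*} [Fintype L] [DecidableEq L] [PartialOrder L] [BoundedOrder L] (d : L → ℕ)

open Classical in
noncomputable def zz (m : ℕ) : Matrix L L ℂ := Matrix.of fun U W => if U ≤ W ∧ d W = d U + m then 1 else 0

theorem zz_zero (hd : StrictMono d) : zz d 0 = 1 := by
  ext U W
  simp only [zz, Matrix.of_apply, add_zero, Matrix.one_apply]
  by_cases h : U = W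
  · subst h; simp
  · rw [if_neg h, if_neg]
    rintro ⟨h1, h2⟩
    exact (hd (lt_of_le_of_ne h1 h)).ne' h2

open Classical in
theorem mob (hd : StrictMono d) (h0 : d ⊥ = 0) (val : L → ℂ)
    (hv : ∀ W, ∑ U with U ≤ W, val U = if W = ⊥ then 1 else 0) :
    val ⊤ = (-1) ^ d ⊤ * B (zz d) (d ⊤) 0 ⊥ ⊤ := by
  set g : L → ℂ := fun U => (-1) ^ (d ⊤ - d U) * B (zz d) (d ⊤ - d U) 0 U ⊤ with hg
  have key : ∀ U, ∑ W with U ≤ W, g W = if U = ⊤ then 1 else 0 := by
    intro U
    by_cases hU : U = ⊤
    · subst hU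
      rw [if_pos rfl, Finset.sum_eq_single ⊤]
      · simp [hg, B_zero]
      · intro b hb hb'
        exact absurd (top_le_iff.mp (by simpa using hb)) hb'
      · simp
    · rw [if_neg hU]
      have hlt : d U < d ⊤ := hd (lt_top_iff_ne_top.mpr hU)
      obtain ⟨k, hk⟩ := Nat.exists_eq_add_of_lt hlt
      have := congrFun (congrFun (B_rec (zz d) (zz_zero d hd) k) U) ⊤
      rw [Matrix.zero_apply, Matrix.sum_apply] at this
      rw [← this]
      simp only [Matrix.smul_apply, Matrix.mul_apply, Finset.smul_sum]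
      rw [Finset.sum_comm, Finset.sum_filter]
      refine Finset.sum_congr rfl fun W _ => ?_
      by_cases hW : U ≤ W
      · have h1 := hd.monotone hW
        have h2 := hd.monotone (le_top : W ≤ ⊤)
        rw [if_pos hW, Finset.sum_eq_single (d W - d U)]
        · rw [show k + 1 - (d W - d U) = d ⊤ - d W by omega]
          simp only [zz, Matrix.of_apply, hg]
          rw [if_pos ⟨hW, by omega⟩]
          simp [zz]
        · intro b _ hb
          simp only [zz, Matrix.of_apply]
          rw [if_neg (by rintro ⟨-, h⟩; omega), zero_mul, smul_zero]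
        · intro h
          exact absurd (Finset.mem_range.mpr (by omega)) h
      · rw [if_neg hW]
        symm
        refine Finset.sum_eq_zero fun j _ => ?_
        simp only [zz, Matrix.of_apply]
        rw [if_neg (fun h => hW h.1), zero_mul, smul_zero]
  have e1 : ∑ U, val U * (∑ W with U ≤ W, g W) = ∑ W, (∑ U with U ≤ W, val U) * g W := by
    simp only [Finset.sum_filter, Finset.mul_sum, Finset.sum_mul]
    rw [Finset.sum_comm]
    refine Finset.sum_congr rfl fun W _ => Finset.sum_congr rfl fun U _ => ?_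
    split_ifs <;> simp
  simp only [key, hv, mul_ite, mul_one, mul_zero, ite_mul, one_mul, zero_mul, Finset.sum_ite_eq',
    Finset.mem_univ, if_true] at e1
  rw [e1, hg]
  simp [h0]

open Classical in
theorem prod_zz (k : ℕ) (μ : Fin k → ℕ) :
    (List.ofFn fun i => zz d (μ i)).prod ⊥ ⊤ =
      Nat.card {C : Fin (k + 1) → L // C 0 = ⊥ ∧ C (Fin.last k) = ⊤ ∧
        ∀ i : Fin k, C i.castSucc ≤ C i.succ ∧ d (C i.succ) = d (C i.castSucc) + μ i} := by
  rw [path_sum, Nat.card_eq_fintype_card, Fintype.card_subtype, Finset.card_filter, Nat.cast_sum]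
  refine Finset.sum_congr rfl fun C _ => ?_
  simp only [zz, Matrix.of_apply, Finset.prod_boole]
  by_cases h1 : C 0 = ⊥ ∧ C (Fin.last k) = ⊤
  · by_cases h2 : ∀ i : Fin k, C i.castSucc ≤ C i.succ ∧ d (C i.succ) = d (C i.castSucc) + μ i
    · rw [if_pos h1, if_pos (fun i _ => h2 i), if_pos ⟨h1.1, h1.2, h2⟩]; simp
    · rw [if_pos h1, if_neg (fun h => h2 fun i => h i (Finset.mem_univ _)), if_neg (fun h => h2 h.2.2)]
      simp
  · rw [if_neg h1, if_neg (fun h => h1 ⟨h.1, h.2.1⟩)]; simp

open Classical in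
theorem B_apply (n : ℕ) :
    B (zz d) n 0 ⊥ ⊤ = ∑ κ : Equiv.Perm (Fin n), if ∀ i : Fin n, (κ i).val ≤ 1 + i.val then
      ((Equiv.Perm.sign κ : ℤ) : ℂ) * (Nat.card {C : Fin (n + 1) → L // C 0 = ⊥ ∧ C (Fin.last n) = ⊤ ∧
        ∀ i : Fin n, C i.castSucc ≤ C i.succ ∧
          d (C i.succ) = d (C i.castSucc) + (1 + i.val - (κ i).val)} : ℂ) else 0 := by
  unfold B
  rw [Matrix.sum_apply]
  refine Finset.sum_congr rfl fun κ _ => ?_
  rw [Matrix.smul_apply]
  split_ifs with h
  · rw [← prod_zz d n fun i => 1 + i.val - (κ i).val, zsmul_eq_mul]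
    have : (fun i : Fin n => w (zz d) 0 i (κ i)) = fun i : Fin n => zz d (1 + i.val - (κ i).val) := by
      funext i
      simp only [w, if_pos (h i)]
      split_ifs with h'
      · rw [h']; simp
      · rfl
    rw [this]
  · push Not at h
    obtain ⟨i, hi⟩ := h
    rw [List.prod_eq_zero]
    · simp
    · rw [List.mem_ofFn]
      refine ⟨i, ?_⟩
      simp only [w]
      rw [if_neg (by omega), if_neg (by omega)]

end Mob

end Cfsg.Agent.H27.Stb
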