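import Mathlib

set_option autoImplicit false

namespace Cfsg.Agent.H27.Stb
open Finset Polynomial UniqueFactorizationMonoid

universe u v
variable {F : Type u} [Field F]

variable (F) in
noncomputable def psi (M : Type*) [AddCommGroup M] [Module F M] [Module F[X] M] [IsScalarTower F F[X] M]
    [Finite M] : F[X] :=
  (Algebra.lsmul F F M (X : F[X])).charpoly

section Psi
variable {M N : Type*} [AddCommGroup M] [Module F M] [Module F[X] M] [IsScalarTower F F[X] M] [Finite M]
  [AddCommGroup N] [Module F N] [Module F[X] N] [IsScalarTower F F[X] N] [Finite N]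

theorem psi_monic : (psi F M).Monic := LinearMap.charpoly_monic _

theorem psi_deg : (psi F M).natDegree = Module.finrank F M := LinearMap.charpoly_natDegree _

theorem psi_congr (e : M ≃ₗ[F[X]] N) : psi F M = psi F N := by
  unfold psi
  rw [← (e.restrictScalars F).charpoly_conj]
  congr 1
  ext y
  simp [LinearEquiv.conj_apply, Algebra.lsmul_apply]

theorem psi_prod : psi F (M × N) = psi F M * psi F N := by
  unfold psi
  rw [← LinearMap.charpoly_prodMap]
  congr 1

theorem psi_compl {U W : Submodule F[X] M} (h : IsCompl U W) : psi F M = psi F U * psi F W := by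
  rw [← psi_prod, psi_congr (Submodule.prodEquivOfIsCompl U W h)]

theorem psi_smul (m : M) : psi F M • m = 0 := by
  have h := LinearMap.aeval_self_charpoly (Algebra.lsmul F F M (X : F[X]))
  rw [Polynomial.aeval_algHom_apply, aeval_X_left_apply] at h
  exact congrArg (fun f : Module.End F M => f m) h

theorem psi_triv [Subsingleton M] : psi F M = 1 := by
  apply (psi_monic (F := F) (M := M)).natDegree_eq_zero.mp
  rw [psi_deg, Module.finrank_zero_of_subsingleton]

theorem psi_simple [IsSimpleModule F[X] M] :
    Irreducible (psi F M) ∧ Nonempty (M ≃ₗ[F[X]] F[X] ⧸ Ideal.span {psi F M}) := by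
  classical
  obtain ⟨I, hI, ⟨e⟩⟩ := isSimpleModule_iff_quot_maximal.mp ‹IsSimpleModule F[X] M›
  obtain ⟨g, rfl⟩ := (IsPrincipalIdealRing.principal I).principal
  change (Ideal.span {g}).IsMaximal at hI
  change M ≃ₗ[F[X]] F[X] ⧸ Ideal.span {g} at e
  have hmem : psi F M ∈ Ideal.span {g} := by
    have := psi_smul (F := F) (e.symm 1)
    rw [← map_smul, LinearEquiv.map_eq_zero_iff] at this
    rw [← Ideal.Quotient.eq_zero_iff_mem, ← this, ← Ideal.Quotient.algebraMap_eq, Algebra.algebraMap_eq_smul_one]
  have hdvd : g ∣ psi F M := Ideal.mem_span_singleton.mp hmem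
  have hg0 : g ≠ 0 := by
    rintro rfl
    exact (psi_monic (F := F) (M := M)).ne_zero (zero_dvd_iff.mp hdvd)
  have hdeg : (psi F M).natDegree = g.natDegree := by
    rw [psi_deg, (e.restrictScalars F).finrank_eq, finrank_quotient_span_eq_natDegree]
  have has : Associated g (psi F M) :=
    Polynomial.associated_of_dvd_of_natDegree_le hdvd (psi_monic (F := F) (M := M)).ne_zero hdeg.le
  have hirr : Irreducible g := ((Ideal.span_singleton_prime hg0).mp hI.isPrime).irreducible
  refine ⟨has.irreducible hirr, ?_⟩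
  rw [← Ideal.span_singleton_eq_span_singleton.mpr has]
  exact ⟨e⟩

theorem card_end [IsSimpleModule F[X] M] : Nat.card (M →ₗ[F[X]] M) = Nat.card M := by
  have := IsSimpleModule.nontrivial F[X] M
  obtain ⟨m, hm⟩ := exists_ne (0 : M)
  refine Nat.card_congr (Equiv.ofBijective (fun φ => φ m) ⟨fun φ ψ h => ?_, fun s => ?_⟩)
  · ext y
    obtain ⟨r, rfl⟩ := IsSimpleModule.toSpanSingleton_surjective F[X] hm y
    simp only [LinearMap.toSpanSingleton_apply, map_smul]
    exact congrArg _ h
  · obtain ⟨r, rfl⟩ := IsSimpleModule.toSpanSingleton_surjective F[X] hm s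
    exact ⟨r • LinearMap.id, rfl⟩

theorem card_hom_simple [DecidableEq F] [IsSimpleModule F[X] M] [IsSimpleModule F[X] N] :
    Nat.card (M →ₗ[F[X]] N) = if psi F N = psi F M then Nat.card N else 1 := by
  split_ifs with h
  · obtain ⟨e1⟩ := (psi_simple (F := F) (M := M)).2
    obtain ⟨e2⟩ := (psi_simple (F := F) (M := N)).2
    rw [h] at e2
    rw [← card_end (F := F) (M := N)]
    exact Nat.card_congr (LinearEquiv.arrowCongr (e1.trans e2.symm) (LinearEquiv.refl F[X] N)).toEquiv
  · rw [Nat.card_eq_one_iff_unique]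
    refine ⟨⟨fun φ ψ => ?_⟩, ⟨0⟩⟩
    have : ∀ φ : M →ₗ[F[X]] N, φ = 0 := fun φ =>
      (LinearMap.bijective_or_eq_zero φ).resolve_left fun hb =>
        h (psi_congr (LinearEquiv.ofBijective φ hb)).symm
    rw [this φ, this ψ]

end Psi

theorem nf_mul [DecidableEq F] {f P : F[X]} (hf : Irreducible f) (hm : f.Monic) (hP : P ≠ 0) :
    normalizedFactors (f * P) = f ::ₘ normalizedFactors P := by
  rw [normalizedFactors_mul hf.ne_zero hP, normalizedFactors_irreducible hf, hm.normalize_eq_self,
    Multiset.singleton_add]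

theorem card_hom [DecidableEq F] {S : Type*} [AddCommGroup S] [Module F S] [Module F[X] S]
    [IsScalarTower F F[X] S] [Finite S] [IsSimpleModule F[X] S] (n : ℕ) :
    ∀ (M : Type v) [AddCommGroup M] [Module F M] [Module F[X] M] [IsScalarTower F F[X] M] [Finite M]
      [IsSemisimpleModule F[X] M], Module.finrank F M = n →
      Nat.card (M →ₗ[F[X]] S) = Nat.card S ^ (normalizedFactors (psi F M)).count (psi F S) := by
  induction n using Nat.strong_induction_on with
  | _ n ih =>
    intro M _ _ _ _ _ _ hn
    rcases subsingleton_or_nontrivial M with h | h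
    · rw [psi_triv (M := M), normalizedFactors_one, Multiset.count_zero, pow_zero, Nat.card_unique]
    · obtain ⟨U, hU⟩ := IsSemisimpleModule.exists_simple_submodule F[X] M
      obtain ⟨W, hW⟩ := exists_isCompl U
      have hp := psi_compl (F := F) hW
      have hirr := (psi_simple (F := F) (M := U)).1
      have hlt : Module.finrank F W < n := by
        rw [← hn, ← psi_deg, ← psi_deg, hp, (psi_monic).natDegree_mul psi_monic]
        have := hirr.natDegree_pos
        omega
      rw [← Nat.card_congr (LinearMap.ofIsComplProdEquiv (F := S) hW).toEquiv, Nat.card_prod,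
        ih _ hlt W rfl, card_hom_simple, hp, nf_mul hirr psi_monic psi_monic.ne_zero, Multiset.count_cons]
      split_ifs
      · rw [pow_succ, mul_comm]
      · simp

theorem card_compl {R M : Type*} [Ring R] [AddCommGroup M] [Module R M] {S U : Submodule R M}
    (h : IsCompl S U) : Nat.card {W // IsCompl S W} = Nat.card (U →ₗ[R] S) := by
  rw [Nat.card_congr S.isComplEquivProj]
  refine Nat.card_congr ⟨fun f => f.1 ∘ₗ U.subtype, fun g => ⟨LinearMap.ofIsCompl h LinearMap.id g, by simp⟩,
    fun f => Subtype.ext (LinearMap.ofIsCompl_eq h (fun u => (f.2 u).symm) fun _ => rfl), fun g => ?_⟩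
  ext u
  simp

/-- the target formula -/
noncomputable def phi [DecidableEq F] (q : ℕ) (P : F[X]) : ℂ :=
  ∏ f ∈ (normalizedFactors P).toFinset, (-1 : ℂ) ^ ((f.natDegree - 1) * (normalizedFactors P).count f) *
    (q : ℂ) ^ (f.natDegree * (normalizedFactors P).count f * ((normalizedFactors P).count f - 1) / 2)

theorem phi_one [DecidableEq F] (q : ℕ) : phi q (1 : F[X]) = 1 := by
  simp [phi]

theorem phi_mul [DecidableEq F] (q : ℕ) {f P : F[X]} (hf : Irreducible f) (hm : f.Monic) (hP : P ≠ 0) :
    phi q (f * P) = (-1) ^ (f.natDegree - 1) * ((q : ℂ) ^ f.natDegree) ^ (normalizedFactors P).count f *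
      phi q P := by
  unfold phi
  rw [nf_mul hf hm hP]
  generalize normalizedFactors P = s
  set h : F[X] → ℕ → ℂ := fun g c => (-1 : ℂ) ^ ((g.natDegree - 1) * c) *
    (q : ℂ) ^ (g.natDegree * c * (c - 1) / 2) with hh
  change ∏ g ∈ (f ::ₘ s).toFinset, h g ((f ::ₘ s).count g) = _ * ∏ g ∈ s.toFinset, h g (s.count g)
  have e1 : ∏ g ∈ s.toFinset, h g (s.count g) = ∏ g ∈ (f ::ₘ s).toFinset, h g (s.count g) := by
    refine Finset.prod_subset (by rw [Multiset.toFinset_cons]; exact Finset.subset_insert _ _) ?_
    intro g _ hg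
    rw [Multiset.count_eq_zero.mpr (by simpa using hg)]
    simp [hh]
  have hf' : f ∈ (f ::ₘ s).toFinset := by simp
  rw [e1, ← Finset.mul_prod_erase _ _ hf', ← Finset.mul_prod_erase _ _ hf', ← mul_assoc]
  congr 1
  · rw [Multiset.count_cons_self]
    generalize s.count f = c
    simp only [hh]
    have h2 : ∀ c : ℕ, f.natDegree * c * (c - 1) / 2 = f.natDegree * (c * (c - 1) / 2) := fun c => by
      rw [mul_assoc, Nat.mul_div_assoc _ (Nat.even_mul_pred_self c).two_dvd]
    rw [h2, h2, Nat.triangle_succ]
    ring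
  · refine Finset.prod_congr rfl fun g hg => ?_
    rw [Multiset.count_cons_of_ne (Finset.ne_of_mem_erase hg)]

noncomputable def vv [DecidableEq F] (q : ℕ) (P : F[X]) : ℂ := (-1) ^ P.natDegree * phi q P

theorem vv_mul [DecidableEq F] (q : ℕ) {f P : F[X]} (hf : Irreducible f) (hm : f.Monic) (hP : P.Monic) :
    vv q (f * P) = -(((q : ℂ) ^ f.natDegree) ^ (normalizedFactors P).count f * vv q P) := by
  unfold vv
  rw [phi_mul q hf hm hP.ne_zero, hm.natDegree_mul hP]
  obtain ⟨k, hk⟩ := Nat.exists_eq_add_of_lt hf.natDegree_pos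
  rw [zero_add] at hk
  have : (-1 : ℂ) ^ f.natDegree * (-1) ^ (f.natDegree - 1) = -1 := by
    rw [← pow_add, hk, show k + 1 + (k + 1 - 1) = 2 * k + 1 by omega, pow_succ, pow_mul]; simp
  linear_combination ((-1 : ℂ) ^ P.natDegree * ((q : ℂ) ^ f.natDegree) ^ (normalizedFactors P).count f *
    phi q P) * this

section Sum
variable [Fintype F] [DecidableEq F] {M : Type v} [AddCommGroup M] [Module F M] [Module F[X] M]
  [IsScalarTower F F[X] M] [Finite M] [IsSemisimpleModule F[X] M]

open Classical in
theorem sum_top [Fintype (Submodule F[X] M)] {S : Submodule F[X] M} (hS : IsAtom S) :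
    ∑ U : Submodule F[X] M with U ⊔ S = ⊤, vv (Fintype.card F) (psi F U) = 0 := by
  have hs : IsSimpleModule F[X] S := isSimpleModule_iff_isAtom.mpr hS
  obtain ⟨W, hW⟩ := exists_isCompl S
  have hirr := (psi_simple (F := F) (M := S)).1
  have hT : (⊤ : Submodule F[X] M) ∈ univ.filter fun U : Submodule F[X] M => U ⊔ S = ⊤ := by simp
  rw [← Finset.add_sum_erase _ _ hT]
  have e1 : (univ.filter fun U : Submodule F[X] M => U ⊔ S = ⊤).erase ⊤ = univ.filter fun U => IsCompl S U := by
    ext U
    simp only [Finset.mem_erase, Finset.mem_filter, Finset.mem_univ, true_and]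
    constructor
    · rintro ⟨h1, h2⟩
      refine ⟨?_, codisjoint_iff.mpr (by rw [sup_comm, h2])⟩
      by_contra hd
      have := hS.not_disjoint_iff_le.mp hd
      exact h1 (by rwa [sup_eq_left.mpr this] at h2)
    · intro h
      refine ⟨?_, by rw [sup_comm]; exact h.sup_eq_top⟩
      rintro rfl
      exact hS.1 (disjoint_top.mp h.disjoint)
  have e2 : ∀ U ∈ univ.filter fun U => IsCompl S U,
      vv (Fintype.card F) (psi F U) = vv (Fintype.card F) (psi F W) := by
    intro U hU
    have hU' : IsCompl S U := by simpa using hU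
    have := (psi_compl (F := F) hU').symm.trans (psi_compl (F := F) hW)
    rw [mul_left_cancel₀ hirr.ne_zero this]
  rw [e1, Finset.sum_congr rfl e2, Finset.sum_const, ← Fintype.card_subtype,
    ← Nat.card_eq_fintype_card (α := {x // IsCompl S x}),
    card_compl hW, card_hom _ W rfl, psi_congr (Submodule.topEquiv), psi_compl hW,
    vv_mul _ hirr psi_monic psi_monic, psi_deg, Module.natCard_eq_pow_finrank (K := F),
    Nat.card_eq_fintype_card]
  simp

open Classical in
theorem sum_sup [Fintype (Submodule F[X] M)] {S T : Submodule F[X] M} (hS : IsAtom S) (hT : S ≤ T) :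
    ∑ U : Submodule F[X] M with U ⊔ S = T, vv (Fintype.card F) (psi F U) = 0 := by
  have : Finite (Submodule F[X] T) := inferInstance
  have := Fintype.ofFinite (Submodule F[X] T)
  have hS' : IsAtom (S.comap T.subtype) := by
    have hs : IsSimpleModule F[X] S := isSimpleModule_iff_isAtom.mpr hS
    rw [← isSimpleModule_iff_isAtom]
    exact IsSimpleModule.congr (Submodule.comapSubtypeEquivOfLe hT)
  rw [← sum_top (F := F) hS']
  symm
  refine Finset.sum_bij (fun U _ => U.map T.subtype) ?_ ?_ ?_ ?_
  · intro U hU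
    have hU' : U ⊔ S.comap T.subtype = ⊤ := by simpa using hU
    have := congrArg (Submodule.map T.subtype) hU'
    rw [Submodule.map_sup, Submodule.map_comap_subtype, inf_eq_right.mpr hT, Submodule.map_subtype_top] at this
    simpa using this
  · intro U _ U' _ h
    exact Submodule.map_injective_of_injective T.injective_subtype h
  · intro U hU
    have hU' : U ⊔ S = T := by simpa using hU
    have hle : U ≤ T := hU' ▸ le_sup_left
    refine ⟨U.comap T.subtype, ?_, by rw [Submodule.map_comap_subtype, inf_eq_right.mpr hle]⟩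
    simp only [Finset.mem_filter, Finset.mem_univ, true_and]
    apply Submodule.map_injective_of_injective T.injective_subtype
    rw [Submodule.map_sup, Submodule.map_comap_subtype, Submodule.map_comap_subtype, inf_eq_right.mpr hT,
      inf_eq_right.mpr hle, Submodule.map_subtype_top, hU']
  · intro U _
    rw [psi_congr (Submodule.equivMapOfInjective T.subtype T.injective_subtype U)]

open Classical in
theorem sum_le [Fintype (Submodule F[X] M)] (W : Submodule F[X] M) :
    ∑ U : Submodule F[X] M with U ≤ W, vv (Fintype.card F) (psi F U) = if W = ⊥ then 1 else 0 := by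
  split_ifs with h
  · subst h
    rw [Finset.sum_eq_single ⊥]
    · rw [psi_triv]; simp [vv, phi_one]
    · intro b hb hb'
      exact absurd (le_bot_iff.mp (by simpa using hb)) hb'
    · simp
  · obtain ⟨S, hS, hSW⟩ := (eq_bot_or_exists_atom_le W).resolve_left h
    rw [← Finset.sum_fiberwise (s := univ.filter fun U => U ≤ W) (g := fun U => U ⊔ S)]
    refine Finset.sum_eq_zero fun T _ => ?_
    by_cases hT : S ≤ T ∧ T ≤ W
    · rw [← sum_sup (F := F) hS hT.1]
      refine Finset.sum_congr ?_ fun _ _ => rfl
      ext U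
      simp only [Finset.mem_filter, Finset.mem_univ, true_and]
      exact ⟨fun h => h.2, fun h => ⟨(le_sup_left.trans h.le).trans hT.2, h⟩⟩
    · refine Finset.sum_eq_zero fun U hU => absurd ?_ hT
      simp only [Finset.mem_filter, Finset.mem_univ, true_and] at hU
      exact hU.2 ▸ ⟨le_sup_right, sup_le hU.1 hSW⟩

end Sum

end Cfsg.Agent.H27.Stb
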