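import Mathlib
import Cfsg.Agent.H27.Stb1
import Cfsg.Agent.H27.Stb2
import Cfsg.Agent.H28.Par3

set_option autoImplicit false
set_option linter.unusedSectionVars false

namespace Cfsg.Agent.H27.Stb
open Finset Polynomial UniqueFactorizationMonoid Cfsg Cfsg.Agent.H28.Par Module
open scoped MatrixGroups

variable {n : ℕ} {F : Type*} [Field F] [Fintype F] [DecidableEq F] {μ : Fin n → ℕ}

def Ch (μ : Fin n → ℕ) (C : Fin (n + 1) → Submodule F (Fin n → F)) : Prop :=
  C 0 = ⊥ ∧ C (Fin.last n) = ⊤ ∧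
    ∀ i : Fin n, C i.castSucc ≤ C i.succ ∧ finrank F (C i.succ) = finrank F (C i.castSucc) + μ i

def fl (μ : Fin n → ℕ) (y : GL (Fin n) F) (j : Fin (n + 1)) : Submodule F (Fin n → F) :=
  Submodule.span F ((fun i => (y : Matrix (Fin n) (Fin n) F).col i) '' {i | compLabel μ i < j.val})

theorem map_fl (g y : GL (Fin n) F) (j : Fin (n + 1)) :
    (fl μ y j).map (Matrix.toLin' (g : Matrix (Fin n) (Fin n) F)) = fl μ (g * y) j := by
  unfold fl
  rw [Submodule.map_span, Set.image_image]
  congr 2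

theorem rk_fl (y : GL (Fin n) F) (j : Fin (n + 1)) :
    finrank F (fl μ y j) = #{i | compLabel μ i < j.val} := by
  have h := Matrix.linearIndependent_cols_iff_isUnit.mpr y.isUnit
  unfold fl
  rw [Set.image_eq_range]
  refine (finrank_span_eq_card (h.comp (Subtype.val : {i | compLabel μ i < j.val} → Fin n)
    Subtype.val_injective)).trans ?_
  rw [Fintype.card_subtype]
  rfl

theorem fl_eq_one (y : GL (Fin n) F) : fl μ 1 = fl μ y ↔ y ∈ parabolicGL n F μ := by
  have e : ∀ (j : Fin (n + 1)) (v : Fin n → F), v ∈ fl μ 1 j ↔ ∀ k, v k ≠ 0 → compLabel μ k < j.val := by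
    intro j v
    have : (fun i => ((1 : GL (Fin n) F) : Matrix (Fin n) (Fin n) F).col i) = Pi.basisFun F (Fin n) := by
      funext i k
      simp [Matrix.one_apply, Pi.single_apply]
    unfold fl
    rw [this, Basis.mem_span_image]
    simp [Set.subset_def]
  constructor
  · intro h i k hik
    have hk : compLabel μ i ≤ n := by
      unfold compLabel
      exact (Finset.card_le_univ _).trans (by simp)
    by_contra hne
    have h1 : (y : Matrix (Fin n) (Fin n) F).col k ∈ fl μ y ⟨compLabel μ i, by omega⟩ :=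
      Submodule.subset_span ⟨k, hik, rfl⟩
    rw [← h, e] at h1
    exact lt_irrefl _ (h1 i hne)
  · intro h
    funext j
    symm
    refine Submodule.eq_of_le_of_finrank_eq ?_ (by rw [rk_fl, rk_fl])
    rw [fl, Submodule.span_le]
    rintro _ ⟨i, hi, rfl⟩
    rw [SetLike.mem_coe, e]
    intro k hk
    by_contra hlt
    exact hk (h (show compLabel μ i < compLabel μ k from lt_of_lt_of_le hi (not_lt.mp hlt)))

theorem fl_eq (y y' : GL (Fin n) F) : fl μ y = fl μ y' ↔ y⁻¹ * y' ∈ parabolicGL n F μ := by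
  rw [← fl_eq_one]
  constructor
  · intro h
    funext j
    rw [← map_fl, ← h, map_fl, inv_mul_cancel]
  · intro h
    funext j
    have := map_fl (μ := μ) y 1 j
    rw [h, map_fl, mul_inv_cancel_left, mul_one] at this
    exact this.symm

theorem ch_fl (hμ : ∑ i, μ i = n) (y : GL (Fin n) F) : Ch μ (fl μ y) := by
  refine ⟨by simp [fl], ?_, fun i => ⟨?_, ?_⟩⟩
  · apply Submodule.eq_top_of_finrank_eq
    rw [rk_fl, Finset.filter_true_of_mem fun i _ => by simpa using compLabel_lt hμ i]
    simp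
  · refine Submodule.span_mono (Set.image_mono fun k hk => ?_)
    simp only [Set.mem_ofPred_eq, Fin.val_castSucc, Fin.val_succ] at hk ⊢
    omega
  · rw [rk_fl, rk_fl, ← card_fiber hμ i, ← Finset.card_union_of_disjoint]
    · congr 1
      ext k
      simp only [Finset.mem_filter, Finset.mem_univ, true_and, Finset.mem_union, Fin.val_castSucc, Fin.val_succ]
      omega
    · rw [Finset.disjoint_filter]
      intro k _ h1 h2
      simp only [Fin.val_castSucc] at h1
      omega

theorem ch_rk {C C' : Fin (n + 1) → Submodule F (Fin n → F)} (h : Ch μ C) (h' : Ch μ C') (j : Fin (n + 1)) :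
    finrank F (C j) = finrank F (C' j) := by
  induction j using Fin.induction with
  | zero => rw [h.1, h'.1]
  | succ i ih => rw [(h.2.2 i).2, (h'.2.2 i).2, ih]

theorem fl_surj (hμ : ∑ i, μ i = n) {C : Fin (n + 1) → Submodule F (Fin n → F)} (h : Ch μ C) :
    ∃ y : GL (Fin n) F, fl μ y = C := by
  have hm : Monotone C := Fin.monotone_iff_le_succ.mpr fun i => (h.2.2 i).1
  set W : Fin n → Submodule F (Fin n → F) :=
    fun i => C ⟨compLabel μ i + 1, Nat.succ_lt_succ (compLabel_lt hμ i)⟩ with hW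
  have hWm : Monotone W := fun i j hij => hm (by
    have := compLabel_mono μ hij
    simp only [Fin.mk_le_mk]; omega)
  have hpos : 0 < Nat.card {v : Fin n → (Fin n → F) // LinearIndependent F v ∧ ∀ j, v j ∈ W j} := by
    rw [card_li W hWm]
    refine Finset.prod_pos fun j _ => Nat.sub_pos_of_lt ?_
    rw [Module.natCard_eq_pow_finrank (K := F), Nat.card_eq_fintype_card]
    refine Nat.pow_lt_pow_right Fintype.one_lt_card ?_
    rw [hW, ch_rk h (ch_fl hμ 1), rk_fl]
    have : #(Finset.Iic j) ≤ #{i | compLabel μ i < compLabel μ j + 1} :=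
      Finset.card_le_card fun k hk => by
        have := compLabel_mono μ (Finset.mem_Iic.mp hk)
        simp only [Finset.mem_filter, Finset.mem_univ, true_and]; omega
    rw [Fin.card_Iic] at this
    exact this
  obtain ⟨⟨v, hv, hvW⟩⟩ := (Nat.card_pos_iff.mp hpos).1
  have hu : IsUnit (Matrix.of fun r c => v c r : Matrix (Fin n) (Fin n) F) :=
    Matrix.linearIndependent_cols_iff_isUnit.mp hv
  refine ⟨hu.unit, funext fun j => ?_⟩
  refine Submodule.eq_of_le_of_finrank_eq ?_ (ch_rk (ch_fl hμ _) h j)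
  rw [fl, Submodule.span_le]
  rintro _ ⟨i, hi, rfl⟩
  exact hm (show (⟨compLabel μ i + 1, Nat.succ_lt_succ (compLabel_lt hμ i)⟩ : Fin (n + 1)) ≤ j from hi) (hvW i)

theorem card_fixed (hμ : ∑ i, μ i = n) (x : GL (Fin n) F) :
    Nat.card (MulAction.fixedBy (GL (Fin n) F ⧸ parabolicGL n F μ) x) =
      Nat.card {C : Fin (n + 1) → Submodule F (Fin n → F) // Ch μ C ∧
        ∀ j, (C j).map (Matrix.toLin' (x : Matrix (Fin n) (Fin n) F)) ≤ C j} := by
  let Φ : (GL (Fin n) F ⧸ parabolicGL n F μ) → (Fin (n + 1) → Submodule F (Fin n → F)) :=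
    Quotient.lift (fl μ) fun a b hab => (fl_eq a b).mpr (QuotientGroup.leftRel_apply.mp hab)
  have hΦ : ∀ y : GL (Fin n) F, Φ (y : GL (Fin n) F ⧸ parabolicGL n F μ) = fl μ y := fun _ => rfl
  have hinj : Function.Injective Φ := by
    intro a b
    induction a using QuotientGroup.induction_on
    induction b using QuotientGroup.induction_on
    intro h
    exact QuotientGroup.eq.mpr ((fl_eq _ _).mp h)
  refine Nat.card_congr (Equiv.ofBijective (fun c => ⟨Φ c.1, ?_⟩) ⟨fun a b h => Subtype.ext (hinj (congrArg Subtype.val h)), ?_⟩)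
  · obtain ⟨c, hc⟩ := c
    induction c using QuotientGroup.induction_on with
    | H y =>
      refine ⟨ch_fl hμ y, fun j => ?_⟩
      have := congrArg Φ (MulAction.mem_fixedBy.mp hc)
      rw [MulAction.Quotient.smul_mk, smul_eq_mul, hΦ, hΦ] at this
      rw [hΦ, map_fl, this]
  · rintro ⟨C, h1, h2⟩
    obtain ⟨y, rfl⟩ := fl_surj hμ h1
    refine ⟨⟨y, MulAction.mem_fixedBy.mpr (hinj ?_)⟩, rfl⟩
    rw [MulAction.Quotient.smul_mk, smul_eq_mul, hΦ, hΦ]
    funext j
    refine Submodule.eq_of_le_of_finrank_eq ?_ (by rw [rk_fl, rk_fl])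
    rw [← map_fl]
    exact h2 j

theorem card_chain (f : Module.End F (Fin n → F)) :
    Nat.card {C : Fin (n + 1) → Submodule F (Fin n → F) // Ch μ C ∧ ∀ j, (C j).map f ≤ C j} =
      Nat.card {C : Fin (n + 1) → Submodule F[X] (AEval' f) // C 0 = ⊥ ∧ C (Fin.last n) = ⊤ ∧
        ∀ i : Fin n, C i.castSucc ≤ C i.succ ∧ finrank F (C i.succ) = finrank F (C i.castSucc) + μ i} := by
  let e := AEval.mapSubmodule F (Fin n → F) f
  let ρ : Submodule F[X] (AEval' f) → Submodule F (Fin n → F) := fun U => (e.symm U).1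
  have hinj : Function.Injective ρ := fun a b h => e.symm.injective (Subtype.ext h)
  have hle : ∀ a b, ρ a ≤ ρ b ↔ a ≤ b := fun a b => e.symm.le_iff_le
  have hrk : ∀ a, finrank F (ρ a) = finrank F a := fun a => by
    rw [(AEval.equiv_mapSubmodule f _ (e.symm a).2).finrank_eq]
    change finrank F (e (e.symm a)) = _
    rw [e.apply_symm_apply]
  have hbot : ρ ⊥ = ⊥ := by simp [ρ]
  have htop : ρ ⊤ = ⊤ := by simp [ρ]
  symm
  refine Nat.card_congr (Equiv.ofBijective (fun C => ⟨fun j => ρ (C.1 j), ⟨?_, ?_, fun i => ⟨?_, ?_⟩⟩, fun j => ?_⟩)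
    ⟨fun a b h => Subtype.ext (funext fun j => hinj (congrFun (congrArg Subtype.val h) j)), ?_⟩)
  · simp only [C.2.1, hbot]
  · simp only [C.2.2.1, htop]
  · exact (hle _ _).mpr (C.2.2.2 i).1
  · rw [hrk, hrk]; exact (C.2.2.2 i).2
  · exact (Module.End.mem_invtSubmodule_iff_map_le _).mp (e.symm (C.1 j)).2
  · rintro ⟨C, h1, h2⟩
    have hC : ∀ j, ρ (e ⟨C j, (Module.End.mem_invtSubmodule_iff_map_le _).mpr (h2 j)⟩) = C j := fun j => by
      simp only [ρ, e.symm_apply_apply]
    refine ⟨⟨fun j => e ⟨C j, (Module.End.mem_invtSubmodule_iff_map_le _).mpr (h2 j)⟩, hinj ?_, hinj ?_,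
      fun i => ⟨(hle _ _).mp ?_, ?_⟩⟩, Subtype.ext (funext hC)⟩
    · rw [hC, h1.1, hbot]
    · rw [hC, h1.2.1, htop]
    · rw [hC, hC]; exact (h1.2.2 i).1
    · rw [← hrk, ← hrk, hC, hC]; exact (h1.2.2 i).2

theorem main (x : GL (Fin n) F) (hx : Module.End.IsSemisimple (Matrix.toLin' (x : Matrix (Fin n) (Fin n) F))) :
    unipotentCharacterGL n F (fun _ => 1) x = phi (Fintype.card F) (x : Matrix (Fin n) (Fin n) F).charpoly := by
  classical
  set f : Module.End F (Fin n → F) := Matrix.toLin' (x : Matrix (Fin n) (Fin n) F) with hf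
  haveI : Finite (AEval' f) := inferInstanceAs (Finite (Fin n → F))
  haveI : IsSemisimpleModule F[X] (AEval' f) := hx
  haveI := Fintype.ofFinite (Submodule F[X] (AEval' f))
  let d : Submodule F[X] (AEval' f) → ℕ := fun U => finrank F U
  have hd : StrictMono d := fun a b h =>
    Submodule.finrank_lt_finrank_of_lt (s := a.restrictScalars F) (t := b.restrictScalars F)
      ((Submodule.restrictScalarsEmbedding F F[X] (AEval' f)).strictMono h)
  have h0 : d ⊥ = 0 := Module.finrank_zero_of_subsingleton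
  have hpsi : psi F (⊤ : Submodule F[X] (AEval' f)) = (x : Matrix (Fin n) (Fin n) F).charpoly := by
    rw [psi_congr Submodule.topEquiv, ← Matrix.charpoly_toLin', ← hf, ← (AEval'.of f).charpoly_conj]
    unfold psi
    congr 1
    ext y
    obtain ⟨y, rfl⟩ := (AEval'.of f).surjective y
    simp [LinearEquiv.conj_apply, Algebra.lsmul_apply, AEval.X_smul_of]
  have hn : d ⊤ = n := by
    refine (psi_deg (F := F) (M := (⊤ : Submodule F[X] (AEval' f)))).symm.trans ?_
    rw [hpsi]; simp
  have := mob d hd h0 (fun U => vv (Fintype.card F) (psi F U)) (by convert sum_le (F := F) (M := AEval' f))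
  rw [hpsi, hn, vv, Matrix.charpoly_natDegree_eq_dim, Fintype.card_fin] at this
  rw [mul_left_cancel₀ (by simp) this, B_apply]
  unfold unipotentCharacterGL
  refine Finset.sum_congr rfl fun κ _ => ?_
  split_ifs with h
  · unfold fixedPointCharacter
    rw [card_fixed (sum_sub (ν := fun _ => 1) (by simp) h), card_chain]
  · rfl

end Cfsg.Agent.H27.Stb
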