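import Mathlib

/-! Odd order automorphisms of doubly transitive groups. -/

set_option autoImplicit false

namespace Cfsg.Agent.H27

open Finset MulAction

variable {Ω : Type*} [Fintype Ω] [DecidableEq Ω]

theorem gram (M : Ω → Ω → ℤ) (k : ℤ) (h01 : ∀ a b, M a b * M a b = M a b) (hr : ∀ a, ∑ b, M a b = k)
    (hc : ∀ b, ∑ a, M a b = k)
    (ht : ∀ x y x' y', x ≠ y → x' ≠ y' → ∃ σ : Equiv.Perm Ω, ∀ b, M x' (σ b) = M x b ∧ M y' (σ b) = M y b)
    {x₀ y₀ : Ω} (h : x₀ ≠ y₀) : ∃ n lam : ℤ, (∀ x y, ∑ b, M x b * M y b = (if x = y then n else 0) + lam) ∧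
      n + lam = k ∧ n + Fintype.card Ω * lam = k ^ 2 := by
  have key : ∀ x y, ∑ b, M x b * M y b =
      (if x = y then k - ∑ b, M x₀ b * M y₀ b else 0) + ∑ b, M x₀ b * M y₀ b := by
    intro x y
    split_ifs with e
    · subst e; simp only [h01, hr]; ring
    · obtain ⟨σ, hσ⟩ := ht x y x₀ y₀ e h
      rw [zero_add, ← Equiv.sum_comp σ fun b => M x₀ b * M y₀ b]
      exact sum_congr rfl fun b _ => by rw [(hσ b).1, (hσ b).2]
  refine ⟨_, _, key, by ring, ?_⟩
  have h1 : ∑ y, ∑ b, M x₀ b * M y b = k ^ 2 := by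
    rw [sum_comm]; simp only [← mul_sum, hc]; rw [← sum_mul, hr, sq]
  rw [← h1, sum_congr rfl fun y _ => key x₀ y, sum_add_distrib, sum_ite_eq]; simp

theorem arith_two {v c ε m : ℤ} (h0 : 0 < c) (h1 : c < v) (h : ε ^ 2 * (v - 1) = c * (v - c))
    (hm : c - ε = v * m) : c = 1 ∨ c = v - 1 := by
  have a1 : ε ^ 2 ≤ c := by nlinarith
  have a2 : ε ^ 2 ≤ v - c := by nlinarith
  have a3 : ε ≤ ε ^ 2 := by nlinarith
  have a4 : -ε ≤ ε ^ 2 := by nlinarith
  have b1 : 0 ≤ m := by nlinarith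
  have b2 : m ≤ 1 := by nlinarith
  have : m = 0 ∨ m = 1 := by omega
  rcases this with rfl | rfl
  · left; nlinarith
  · right; nlinarith

theorem exists_fix_sq {G : Type*} [Group G] [MulAction G Ω]
    (h2 : ∀ a b c d : Ω, a ≠ b → c ≠ d → ∃ g : G, g • a = c ∧ g • b = d) [Nontrivial Ω]
    (o ω : Ω) (α : MulAut G) (Δ : Finset Ω) (hΔ : ∀ a, a ∈ Δ ↔ ∃ h : G, h • o = o ∧ α h • ω = a)
    (hk : Δ.card.Coprime (Fintype.card Ω)) :
    ∃ z : Ω, ∀ h : G, h • o = o → α (α h) • z = z := by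
  classical
  have htr : ∀ a c : Ω, ∃ g : G, g • a = c := fun a c => by
    obtain ⟨b, hb⟩ := exists_ne a
    obtain ⟨d, hd⟩ := exists_ne c
    exact (h2 a b c d hb.symm hd.symm).imp fun _ h => h.1
  set A : Ω → Ω → ℤ := fun a b => if ∃ g : G, a = α g • ω ∧ b = g • o then 1 else 0 with hA
  have inv : ∀ (g : G) a b, A (α g • a) (g • b) = A a b := by
    intro g a b
    simp only [hA]
    refine if_congr ⟨?_, ?_⟩ rfl rfl
    · rintro ⟨f, h1, h2⟩
      exact ⟨g⁻¹ * f, by rw [map_mul, mul_smul, ← h1, map_inv, inv_smul_smul],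
        by rw [mul_smul, ← h2, inv_smul_smul]⟩
    · rintro ⟨f, rfl, rfl⟩
      exact ⟨g * f, by rw [map_mul, mul_smul], by rw [mul_smul]⟩
  have hAo : ∀ a, A a o = if a ∈ Δ then 1 else 0 := fun a => by
    simp only [hA, hΔ]
    exact if_congr (exists_congr fun g => by tauto) rfl rfl
  have h01 : ∀ a b, A a b * A a b = A a b := fun a b => by simp only [hA]; split_ifs <;> simp
  set k : ℤ := (Δ.card : ℤ) with hkd
  set v : ℤ := (Fintype.card Ω : ℤ) with hv
  have hc : ∀ b, ∑ a, A a b = k := fun b => by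
    obtain ⟨g, rfl⟩ := htr o b
    rw [← Equiv.sum_comp (toPerm (α g))]
    simp only [toPerm_apply, inv, hAo]
    simp [hkd]
  have hr : ∀ a, ∑ b, A a b = k := by
    have h1 : ∀ a, ∑ b, A a b = ∑ b, A ω b := fun a => by
      obtain ⟨g, rfl⟩ := htr ω a
      obtain ⟨g, rfl⟩ := α.surjective g
      rw [← Equiv.sum_comp (toPerm g)]
      simp only [toPerm_apply, inv]
    have h3 : ∑ a, ∑ b, A a b = ∑ b, ∑ a, A a b := sum_comm
    simp only [h1, hc] at h3
    simp only [sum_const, card_univ, nsmul_eq_mul] at h3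
    intro a
    rw [h1]; exact mul_left_cancel₀ (by exact_mod_cast Fintype.card_ne_zero) h3
  have hω : ω ∈ Δ := (hΔ _).2 ⟨1, one_smul _ _, by rw [map_one, one_smul]⟩
  have hk0 : 0 < k := by rw [hkd]; exact_mod_cast card_pos.2 ⟨ω, hω⟩
  obtain ⟨x₀, hx₀⟩ : ∃ x, x ∉ Δ := by
    by_contra hn
    push Not at hn
    rw [eq_univ_of_forall hn, card_univ, Nat.coprime_self] at hk
    exact (Fintype.one_lt_card (α := Ω)).ne' hk
  have hkv : k < v := by
    rw [hkd, hv]; exact_mod_cast card_lt_univ_of_notMem hx₀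
  obtain ⟨o', ho'⟩ := exists_ne o
  obtain ⟨n, lam, hg, e1, e2⟩ := gram A k h01 hr hc (fun x y x' y' h h' => by
    obtain ⟨g, rfl, rfl⟩ := h2 x y x' y' h h'
    obtain ⟨g, rfl⟩ := α.surjective g
    exact ⟨toPerm g, fun b => ⟨inv _ _ _, inv _ _ _⟩⟩) ho'
  obtain ⟨n', lam', hg', e1', e2'⟩ := gram (fun a b => A b a) k (fun a b => h01 b a) hc hr
    (fun x y x' y' h h' => by
      obtain ⟨g, rfl, rfl⟩ := h2 x y x' y' h h'
      exact ⟨toPerm (α g), fun b => ⟨inv _ _ _, inv _ _ _⟩⟩) ho'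
  rw [← hv] at e2 e2'
  have hn : n ≠ 0 := by rintro rfl; nlinarith
  have hn' : n' ≠ 0 := by rintro rfl; nlinarith
  obtain ⟨γ, γ', hγ⟩ : ∃ γ γ' : Ω, ∀ h : G, h • o = o → α (α h) • γ ≠ γ' := by
    by_contra hcon
    push Not at hcon
    have u1 : ∀ x, ∑ b, A x b * A b o = ∑ b, A o b * A b o := fun x => by
      obtain ⟨h, h1, rfl⟩ := hcon o x
      rw [← Equiv.sum_comp (toPerm (α h))]
      refine sum_congr rfl fun b _ => ?_
      rw [toPerm_apply, inv]
      conv_lhs => rw [← h1]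
      rw [inv, h1]
    have u2 : ∀ z, n' * A z o + lam' * k = k * ∑ b, A o b * A b o := fun z => by
      have : ∑ x, A x z * ∑ b, A x b * A b o = ∑ b, (∑ x, A x z * A x b) * A b o := by
        simp only [mul_sum, sum_mul]; rw [sum_comm]; simp only [mul_assoc]
      simp only [u1, ← sum_mul, hc, hg', add_mul, sum_add_distrib, ← mul_sum, ite_mul, zero_mul,
        sum_ite_eq, mem_univ, if_true] at this
      exact this.symm
    have a1 := u2 ω
    have a2 := u2 x₀
    rw [hAo, if_pos hω] at a1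
    rw [hAo, if_neg hx₀] at a2
    exact hn' (by linarith)
  set Γ : Finset Ω := {x | ∃ h : G, h • o = o ∧ α (α h) • γ = x} with hΓ
  have hΓi : ∀ h : G, h • o = o → ∀ x, α (α h) • x ∈ Γ ↔ x ∈ Γ := by
    intro h hh x
    simp only [hΓ, mem_filter, mem_univ, true_and]
    constructor
    · rintro ⟨f, h1, h3⟩
      exact ⟨h⁻¹ * f, by rw [mul_smul, h1, inv_smul_eq_iff, hh],
        by rw [map_mul, map_mul, mul_smul, h3, map_inv, map_inv, inv_smul_smul]⟩
    · rintro ⟨f, h1, rfl⟩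
      exact ⟨h * f, by rw [mul_smul, h1, hh], by rw [map_mul, map_mul, mul_smul]⟩
  have hγ1 : γ ∈ Γ := by
    simp only [hΓ, mem_filter, mem_univ, true_and]
    exact ⟨1, one_smul _ _, by rw [map_one, map_one, one_smul]⟩
  have hγ2 : γ' ∉ Γ := by
    simp only [hΓ, mem_filter, mem_univ, true_and]
    rintro ⟨h, h1, h3⟩; exact hγ h h1 h3
  set c : Ω → ℤ := fun x => if x ∈ Γ then 1 else 0 with hcd
  have hci : ∀ h : G, h • o = o → ∀ x, c (α (α h) • x) = c x := fun h hh x => by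
    simp only [hcd, hΓi h hh]
  have hcc : ∀ x, c x * c x = c x := fun x => by simp only [hcd]; split_ifs <;> simp
  have hcs : ∑ x, c x = Γ.card := by simp [hcd]
  set d : Ω → ℤ := fun b => ∑ x, A x b * c x with hd
  have hdi : ∀ h : G, h • o = o → ∀ b, d (α h • b) = d b := fun h hh b => by
    simp only [hd]
    rw [← Equiv.sum_comp (toPerm (α (α h)))]
    simp only [toPerm_apply, inv, hci h hh]
  set e : Ω → ℤ := fun z => ∑ b, A b z * d b with he
  have hei : ∀ z, e z = (if z = o then e o - e o' else 0) + e o' := fun z => by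
    split_ifs with hz
    · rw [hz]; ring
    · obtain ⟨h, hh, rfl⟩ := h2 o o' o z ho'.symm (Ne.symm hz)
      simp only [he]
      rw [zero_add, ← Equiv.sum_comp (toPerm (α h))]
      simp only [toPerm_apply, inv, hdi h hh]
  have hdx : ∀ x, n * d x + lam * ∑ b, d b = A x o * (e o - e o') + k * e o' := fun x => by
    have h1 : ∑ z, A x z * e z = ∑ b, (∑ z, A x z * A b z) * d b := by
      simp only [he, mul_sum, sum_mul]; rw [sum_comm]; simp only [mul_assoc]
    have h3 : ∑ z, A x z * e z = A x o * (e o - e o') + k * e o' := by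
      rw [sum_congr rfl fun z _ => congrArg (A x z * ·) (hei z)]
      simp only [mul_add, sum_add_distrib, mul_ite, mul_zero, sum_ite_eq', mem_univ, if_true, ← sum_mul, hr]
    rw [← h3, h1]
    simp only [hg, add_mul, sum_add_distrib, ite_mul, zero_mul, sum_ite_eq, mem_univ, if_true, ← mul_sum]
  obtain ⟨ε, y, hεy⟩ : ∃ ε y : ℤ, ∀ x, d x = y + ε * A x o := by
    refine ⟨d ω - d x₀, d x₀, fun x => mul_left_cancel₀ hn ?_⟩
    have a1 := hdx ω
    have a2 := hdx x₀
    have a3 := hdx x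
    rw [hAo, if_pos hω] at a1
    rw [hAo, if_neg hx₀] at a2
    linear_combination a3 - a2 - A x o * (a1 - a2)
  have s1 : k * Γ.card = v * y + ε * k := by
    have h1 : ∑ b, d b = k * Γ.card := by
      simp only [hd]; rw [sum_comm]; simp only [← sum_mul, hr]; rw [← mul_sum, hcs]
    rw [← h1]; simp only [hεy, sum_add_distrib, ← mul_sum, hc]; simp [hv]
  have s2 : n * Γ.card + lam * Γ.card ^ 2 = v * y ^ 2 + 2 * y * ε * k + ε ^ 2 * k := by
    have h1 : ∑ b, d b * d b = ∑ x, ∑ x', (∑ b, A x b * A x' b) * (c x * c x') := by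
      simp only [hd, sum_mul_sum]
      simp only [sum_mul]
      rw [sum_comm]
      refine sum_congr rfl fun x _ => ?_
      rw [sum_comm]
      exact sum_congr rfl fun x' _ => sum_congr rfl fun b _ => by ring
    have h3 : ∑ b, d b * d b = ∑ b, (y ^ 2 + (2 * y * ε + ε ^ 2) * A b o) :=
      sum_congr rfl fun b _ => by rw [hεy]; linear_combination ε ^ 2 * h01 b o
    rw [h3] at h1
    simp only [hg, add_mul, sum_add_distrib, ite_mul, zero_mul, sum_ite_eq, mem_univ, if_true, hcc,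
      ← mul_sum, ← sum_mul, hcs, hc, sum_const, card_univ, nsmul_eq_mul] at h1
    rw [← hv] at h1
    linear_combination -h1
  have s3 : ε ^ 2 * (v - 1) = Γ.card * (v - Γ.card) := by
    apply mul_left_cancel₀ hn
    linear_combination (-v) * s2 + (Γ.card : ℤ) ^ 2 * e2 + (v * y + ε * k + k * Γ.card) * s1
      + ε ^ 2 * (v * e1 - e2)
  obtain ⟨m, hm⟩ : v ∣ Γ.card - ε :=
    (Nat.isCoprime_iff_coprime.2 hk.symm).dvd_of_dvd_mul_left ⟨y, by linear_combination s1⟩
  rcases arith_two (by exact_mod_cast card_pos.2 ⟨γ, hγ1⟩)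
    (by rw [hv]; exact_mod_cast card_lt_univ_of_notMem hγ2) s3 hm with h1 | h1
  · exact ⟨γ, fun h hh => card_le_one.1 (by omega) _ ((hΓi h hh _).2 hγ1) _ hγ1⟩
  · refine ⟨γ', fun h hh => (card_le_one (s := Γᶜ)).1 ?_ _ ?_ _ (mem_compl.2 hγ2)⟩
    · rw [card_compl]; omega
    · rw [mem_compl, hΓi h hh]; exact hγ2

omit [DecidableEq Ω] in
theorem exists_perm_of_fix {G : Type*} [Group G] [MulAction G Ω] (htr : ∀ a c : Ω, ∃ g : G, g • a = c)
    (o z : Ω) (γ : MulAut G) (h : ∀ h : G, h • o = o → γ h • z = z) :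
    ∃ σ : Equiv.Perm Ω, ∀ (g : G) x, σ (g • x) = γ g • σ x := by
  choose s hs using htr o
  have key : ∀ g : G, γ (s (g • o)) • z = γ g • z := fun g => by
    rw [← inv_smul_eq_iff, smul_smul, ← map_inv, ← map_mul]
    exact h _ (by rw [mul_smul, hs, inv_smul_smul])
  have hsurj : Function.Surjective fun x => γ (s x) • z := fun y => by
    obtain ⟨g, hg⟩ := γ.surjective (s y * (s z)⁻¹)
    exact ⟨g • o, by simp only [key, hg, mul_smul]; rw [inv_smul_eq_iff.2 (hs z).symm, hs]⟩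
  refine ⟨Equiv.ofBijective _ (Finite.surjective_iff_bijective.1 hsurj), fun g x => ?_⟩
  simp only [Equiv.ofBijective_apply]
  conv_lhs => rw [← hs x, smul_smul, key, map_mul, mul_smul]

omit [DecidableEq Ω] in
theorem odd_aut_perm (G : Subgroup (Equiv.Perm Ω)) (h2 : IsMultiplyPretransitive G Ω 2) (o : Ω)
    (α : MulAut G) (hα : Odd (orderOf α)) (ω : Ω)
    (hk : (Nat.card (orbit ((stabilizer G o).map α.toMonoidHom) ω)).Coprime (Fintype.card Ω)) :
    (∃ σ : Equiv.Perm Ω, σ ∈ Subgroup.normalizer (G : Set (Equiv.Perm Ω)) ∧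
      ∀ g : G, ((α g : G) : Equiv.Perm Ω) = σ * (g : Equiv.Perm Ω) * σ⁻¹) ∧
    (Nat.card (orbit ((stabilizer G o).map α.toMonoidHom) ω) = 1 ∨
      Nat.card (orbit ((stabilizer G o).map α.toMonoidHom) ω) = Fintype.card Ω - 1) := by
  classical
  rw [is_two_pretransitive_iff] at h2
  have hm : ∀ a, a ∈ orbit ((stabilizer G o).map α.toMonoidHom) ω ↔ ∃ h : G, h • o = o ∧ α h • ω = a :=
    fun a => ⟨by rintro ⟨⟨_, h, h1, rfl⟩, rfl⟩; exact ⟨h, h1, rfl⟩,
      by rintro ⟨h, h1, rfl⟩; exact ⟨⟨_, h, h1, rfl⟩, rfl⟩⟩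
  rcases subsingleton_or_nontrivial Ω with hs | hs
  · exact ⟨⟨1, one_mem _, fun g => Subsingleton.elim _ _⟩,
      Or.inl (Nat.card_eq_one_iff_unique.2 ⟨inferInstance, ⟨⟨ω, mem_orbit_self _⟩⟩⟩)⟩
  have htr : ∀ a c : Ω, ∃ g : G, g • a = c := fun a c => by
    obtain ⟨b, hb⟩ := exists_ne a
    obtain ⟨d, hd⟩ := exists_ne c
    exact (h2 hb.symm hd.symm).imp fun _ h => h.1
  obtain ⟨z, hz⟩ := exists_fix_sq (fun a b c d => h2) o ω α
    (orbit ((stabilizer G o).map α.toMonoidHom) ω).toFinset (fun a => by rw [Set.mem_toFinset, hm])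
    (by rwa [Set.toFinset_card, ← Nat.card_eq_fintype_card])
  obtain ⟨σ, hσ⟩ := exists_perm_of_fix htr o z (α ^ 2) fun h hh => hz h hh
  have hpow : ∀ (t : ℕ) (g : G) x, (σ ^ t) (g • x) = ((α ^ 2) ^ t) g • (σ ^ t) x := by
    intro t
    induction t with
    | zero => simp
    | succ t ih => intro g x; rw [pow_succ', pow_succ', Equiv.Perm.mul_apply, ih, hσ]; rfl
  obtain ⟨t, ht⟩ := hα
  have e : (α ^ 2) ^ (t + 1) = α := by
    rw [← pow_mul, show 2 * (t + 1) = orderOf α + 1 by omega, pow_succ, pow_orderOf_eq_one, one_mul]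
  have hτ := hpow (t + 1)
  rw [e] at hτ
  generalize σ ^ (t + 1) = τ at hτ
  have hc : ∀ g : G, ((α g : G) : Equiv.Perm Ω) = τ * (g : Equiv.Perm Ω) * τ⁻¹ := fun g => by
    ext x
    obtain ⟨x, rfl⟩ := τ.surjective x
    simp only [Equiv.Perm.mul_apply, Equiv.Perm.coe_inv, Equiv.symm_apply_apply]
    exact (hτ g x).symm
  refine ⟨⟨τ, Subgroup.mem_normalizer_fintype fun g hg => hc ⟨g, hg⟩ ▸ (α ⟨g, hg⟩).2, hc⟩, ?_⟩
  obtain ⟨w, rfl⟩ := τ.surjective ω
  by_cases hw : w = o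
  · left
    rw [Nat.card_eq_one_iff_unique]
    refine ⟨⟨fun a b => Subtype.ext ?_⟩, ⟨⟨_, mem_orbit_self _⟩⟩⟩
    obtain ⟨g, h1, h3⟩ := (hm _).1 a.2
    obtain ⟨g', h1', h3'⟩ := (hm _).1 b.2
    rw [← h3, ← h3', ← hτ, ← hτ, hw, h1, h1']
  · right
    have : orbit ((stabilizer G o).map α.toMonoidHom) (τ w) = {τ o}ᶜ := by
      ext a
      obtain ⟨a, rfl⟩ := τ.surjective a
      rw [hm, Set.mem_compl_singleton_iff, τ.injective.ne_iff]
      constructor
      · rintro ⟨g, h1, h3⟩ h4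
        rw [← hτ, h4, ← h1] at h3
        exact hw (smul_left_cancel _ (τ.injective h3))
      · intro h1
        obtain ⟨g, h3, h4⟩ := h2 (Ne.symm hw) (Ne.symm h1)
        exact ⟨g, h3, by rw [← hτ, h4]⟩
    rw [this, Nat.card_eq_fintype_card, Fintype.card_compl_set, Set.card_singleton]

end Cfsg.Agent.H27
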