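import Cfsg.Agent.L0.Zsig

/-! Lower bounds for the primitive part of `q ^ e - 1`. -/

set_option autoImplicit false

namespace Cfsg.Agent.H27

open Polynomial Cfsg.Agent.L0

theorem cyc_split {q e : ℕ} (hq : 1 < q) (he : 3 ≤ e) : ∃ m c, cyc e q = m * c ∧ c ≤ e ∧
    ∀ s : ℕ, s.Prime → s ∣ m → orderOf (q : ZMod s) = e := by
  by_cases H : ∀ s : ℕ, s.Prime → s ∣ cyc e q → orderOf (q : ZMod s) = e
  · exact ⟨_, 1, (mul_one _).symm, by omega, H⟩
  push Not at H
  obtain ⟨r, hr, hr2, hr3⟩ := H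
  have key : ∀ r : ℕ, r.Prime → r ∣ cyc e q → orderOf (q : ZMod r) ≠ e →
      ∃ k m, e = r ^ (k + 1) * m ∧ ¬ r ∣ m ∧ orderOf (q : ZMod r) = m ∧ m < r := by
    intro r hr h h'
    obtain ⟨k, m, hm, rfl⟩ := Nat.exists_eq_pow_mul_and_not_dvd (by omega : e ≠ 0) r hr.ne_one
    have h1 := (dvd_cyc_iff hr hm).1 h
    rcases k with _ | k
    · exact absurd (by simpa using h1) h'
    refine ⟨k, m, rfl, hm, h1, ?_⟩
    haveI := Fact.mk hr
    have := orderOf_le_card_univ (x := (q : ZMod r))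
    rw [ZMod.card, h1] at this
    exact lt_of_le_of_ne this fun h => hm h.symm.dvd
  obtain ⟨k, m, h3, h4, h5, h7⟩ := key r hr hr2 hr3
  have hm0 : 0 < m := Nat.pos_of_ne_zero (by rintro rfl; simp at h4)
  have h9 : ¬ r ^ 2 ∣ cyc e q := by
    have := not_sq_dvd_cyc (t := r ^ k * m) hq hr (Nat.mul_pos (pow_pos hr.pos _) hm0)
      ((dvd_pow_sub_one_iff (by omega) _ _).2 (h5 ▸ dvd_mul_left _ _)) (by
        rintro rfl
        obtain rfl : m = 1 := by omega
        rcases k with _ | k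
        · simp at h3; omega
        · rw [pow_succ']; simp [parity_simps])
    rwa [mul_right_comm, ← pow_succ, ← h3] at this
  have hre : r ∣ e := by rw [h3, pow_succ', mul_assoc]; exact dvd_mul_right _ _
  obtain ⟨n, hn⟩ := hr2
  refine ⟨n, r, by rw [hn, mul_comm], Nat.le_of_dvd (by omega) hre, fun s hs h => ?_⟩
  by_contra hne'
  obtain ⟨k', m', h3', h4', -, h7'⟩ := key s hs (hn ▸ h.mul_left r) hne'
  have hm0' : 0 < m' := Nat.pos_of_ne_zero (by rintro rfl; simp at h4')
  by_cases hne : s = r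
  · exact h9 (by rw [hn, pow_two]; exact Nat.mul_dvd_mul_left _ (hne ▸ h))
  have a1 : s ∣ r ^ (k + 1) * m := by rw [← h3, h3', pow_succ', mul_assoc]; exact dvd_mul_right _ _
  have a2 : r ∣ s ^ (k' + 1) * m' := h3' ▸ hre
  have hc := (Nat.coprime_primes hs hr).2 hne
  have := Nat.le_of_dvd hm0 ((hc.pow_right _).dvd_of_dvd_mul_left a1)
  have := Nat.le_of_dvd hm0' ((hc.symm.pow_right _).dvd_of_dvd_mul_left a2)
  omega

theorem pow_le_cyc {q : ℕ} (hq : 1 < q) (e : ℕ) : (q - 1) ^ e.totient ≤ cyc e q := by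
  have := sub_one_pow_totient_le_cyclotomic_eval (q := (q : ℝ)) (by exact_mod_cast hq) e
  rw [← cyc_cast_real hq, ← Nat.cast_pred (by omega)] at this
  exact_mod_cast this

theorem cyc_le_pow {q : ℕ} (hq : 1 < q) (e : ℕ) : cyc e q ≤ (q + 1) ^ e.totient := by
  have := cyclotomic_eval_le_add_one_pow_totient (q := (q : ℝ)) (by exact_mod_cast hq) e
  rw [← cyc_cast_real hq] at this
  exact_mod_cast this

theorem three_pow_le_cyc {q e : ℕ} (hq : 1 < q) (he : 3 ≤ e) : 3 ^ e.totient ≤ 2 ^ e.totient * cyc e q := by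
  rcases (show 2 ≤ q from hq).eq_or_lt with rfl | h3
  swap
  · refine le_trans ?_ (Nat.mul_le_mul_left _ (pow_le_cyc hq e))
    rw [← mul_pow]; exact Nat.pow_le_pow_left (by omega) _
  have k1 : ∀ r, 3 ^ (r + 2) ≤ 2 ^ (r + 2) * (2 ^ (r + 2) - 1) := fun r => by
    induction r with
    | zero => norm_num
    | succ r ih =>
      have : 1 ≤ 2 ^ (r + 2) := Nat.one_le_two_pow
      rw [show r + 1 + 2 = r + 2 + 1 by ring, pow_succ 3, pow_succ 2]
      obtain ⟨c, hc⟩ := Nat.exists_eq_add_of_le this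
      rw [hc] at ih ⊢
      rw [show (1 + c) * 2 - 1 = 2 * c + 1 by omega]
      rw [Nat.add_sub_cancel_left] at ih
      nlinarith
  have k2 : ∀ r, 3 ^ (r + 2) * 3 ≤ 2 ^ (r + 2) * (2 ^ (r + 3) - 1) := fun r => by
    induction r with
    | zero => norm_num
    | succ r ih =>
      have : 1 ≤ 2 ^ (r + 3) := Nat.one_le_two_pow
      rw [show r + 1 + 2 = r + 2 + 1 by ring, show r + 1 + 3 = r + 3 + 1 by ring, pow_succ 3, pow_succ 2,
        pow_succ 2 (r + 3)]
      obtain ⟨c, hc⟩ := Nat.exists_eq_add_of_le this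
      rw [hc] at ih ⊢
      rw [show (1 + c) * 2 - 1 = 2 * c + 1 by omega]
      rw [Nat.add_sub_cancel_left] at ih
      nlinarith [Nat.zero_le (2 ^ (r + 2) * c), Nat.zero_le (2 ^ (r + 2))]
  obtain ⟨r, n, hr, rfl, h⟩ : ∃ r n, r.Prime ∧ e = r * n ∧ (r ∣ n ∨ r ≠ 2) := by
    by_cases h4 : 4 ∣ e
    · obtain ⟨n, rfl⟩ := h4
      exact ⟨2, 2 * n, Nat.prime_two, by ring, Or.inl (dvd_mul_right _ _)⟩
    · rcases Nat.four_dvd_or_exists_odd_prime_and_dvd_of_two_lt (show 2 < e from he) with h | ⟨r, hr, ⟨n, hn⟩, ho⟩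
      · exact absurd h h4
      · exact ⟨r, n, hr, hn, Or.inr (by rintro rfl; exact absurd ho (by decide))⟩
  have hb := Nat.one_lt_pow hr.ne_zero hq
  by_cases hd : r ∣ n
  · have := cyc_pow_mul hr 1 hd 2
    rw [pow_one] at this
    rw [this, Nat.totient_mul_of_prime_of_dvd hr hd, pow_mul, pow_mul]
    refine le_trans ?_ (Nat.mul_le_mul_left _ (pow_le_cyc hb n))
    rw [← mul_pow]
    obtain ⟨s, rfl⟩ := Nat.exists_eq_add_of_le' hr.two_le
    exact Nat.pow_le_pow_left (k1 s) _
  · have h1 := pow_le_cyc hb n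
    rw [← cyc_mul_cyc hr hd, mul_comm n] at h1
    replace h1 := h1.trans (Nat.mul_le_mul_left _ (cyc_le_pow hq n))
    rw [Nat.totient_mul_of_prime_of_not_dvd hr hd, pow_mul, pow_mul]
    obtain ⟨s, rfl⟩ : ∃ s, r = s + 3 := ⟨r - 3, by have := hr.two_le; have := h.resolve_left hd; omega⟩
    refine Nat.le_of_mul_le_mul_right ?_ (pow_pos (show 0 < 2 + 1 by norm_num) n.totient)
    rw [mul_assoc]
    refine le_trans ?_ (Nat.mul_le_mul_left _ h1)
    rw [← mul_pow, ← mul_pow]
    exact Nat.pow_le_pow_left (k2 s) _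

theorem sq_le_totient (n : ℕ) : 2 * n ^ 2 ≤ 9 * n.totient ^ 3 := by
  have key : ∀ n : ℕ, (if 2 ∣ n then 2 else 8) * (if 3 ∣ n then 8 else 9) * n ^ 2 ≤ 72 * n.totient ^ 3 := by
    intro n
    induction n using induction_on_primes with
    | zero => simp
    | one => simp
    | prime_mul p a hp ih =>
      have e : ∀ s, s.Prime → s ≠ p ∨ p ∣ a → (s ∣ p * a ↔ s ∣ a) := fun s hs h => by
        rw [hs.dvd_mul, Nat.prime_dvd_prime_iff_eq hs hp]
        exact or_iff_right_of_imp fun e => e ▸ h.resolve_left (not_not.2 e)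
      by_cases hd : p ∣ a
      · simp only [e 2 Nat.prime_two (Or.inr hd), e 3 Nat.prime_three (Or.inr hd)]
        rw [Nat.totient_mul_of_prime_of_dvd hp hd, mul_pow, mul_pow, mul_left_comm, mul_left_comm 72]
        exact Nat.mul_le_mul (Nat.pow_le_pow_right hp.pos (by norm_num)) ih
      rw [Nat.totient_mul_of_prime_of_not_dvd hp hd]
      by_cases h2 : p = 2
      · subst h2
        simp only [e 3 Nat.prime_three (Or.inl (by norm_num)), dvd_mul_right, if_true, hd, if_false] at ih ⊢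
        linarith
      by_cases h3 : p = 3
      · subst h3
        simp only [e 2 Nat.prime_two (Or.inl (by norm_num)), dvd_mul_right, if_true, hd, if_false] at ih ⊢
        nlinarith
      simp only [e 2 Nat.prime_two (Or.inl (Ne.symm h2)), e 3 Nat.prime_three (Or.inl (Ne.symm h3))]
      rw [mul_pow, mul_pow, mul_left_comm, mul_left_comm 72]
      refine Nat.mul_le_mul ?_ ih
      obtain ⟨s, rfl⟩ : ∃ s, p = s + 4 := ⟨p - 4, by have := hp.two_le; omega⟩
      rw [show s + 4 - 1 = s + 3 by omega]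
      nlinarith [Nat.zero_le (s ^ 3), Nat.zero_le (s ^ 2)]
  have := key n
  split_ifs at this <;> omega

/-- candidate for the primitive part -/
def cand (q e : ℕ) : ℕ :=
  let m := (List.range e).foldl (fun m i => cond (Nat.beq (e % (i + 1)) 0 && Nat.blt (i + 1) e)
    (m / m.gcd (q ^ (i + 1) - 1)) m) (q ^ e - 1)
  m / m.gcd (e ^ 12)

/-- the exceptional pairs -/
def exc : List (ℕ × ℕ) :=
  [(2, 6), (2, 4), (2, 10), (2, 12), (2, 18), (3, 4), (3, 6), (5, 6), (2, 3), (2, 8), (2, 20), (4, 3), (4, 6)]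

def chk (q e m : ℕ) : Bool :=
  (q ^ e - 1) % m == 0 && 3 * e + 1 ≤ m && (List.range e).all fun i => i == 0 || m.gcd (q ^ i - 1) == 1

theorem chk_all : ((List.range 12).all fun q => (List.range (if q = 2 then 385 else if q = 3 then 124 else 49)).all
    fun e => q < 2 || e < 3 || exc.contains (q, e) || chk q e (cand q e)) = true := by decide +kernel

theorem prim_big {q e : ℕ} (hq : 1 < q) (he : 3 ≤ e) (h : (q, e) ∉ exc) :
    ∃ m : ℕ, m ∣ q ^ e - 1 ∧ (∀ i : ℕ, 1 ≤ i → i < e → Nat.Coprime m (q ^ i - 1)) ∧ 3 * e + 1 ≤ m := by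
  obtain ⟨m, c, h1, h2, h3⟩ := cyc_split hq he
  by_cases hm : 3 * e + 1 ≤ m
  · refine ⟨m, (h1 ▸ dvd_mul_right m c).trans (cyc_dvd e hq), fun i h4 h5 => ?_, hm⟩
    refine Nat.Coprime.symm (Nat.coprime_of_dvd fun s hs h6 h7 => ?_)
    rw [dvd_pow_sub_one_iff (by omega), h3 s hs h7] at h6
    exact absurd (Nat.le_of_dvd h4 h6) (by omega)
  have a1 : cyc e q ≤ 3 * e * e := h1 ▸ Nat.mul_le_mul (by omega) h2
  have a2 := sq_le_totient e
  have a3 : 2 * cyc e q ≤ 27 * e.totient ^ 3 := by nlinarith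
  have a4 : e.totient ≤ 32 := by
    by_contra hc
    have k : ∀ f, 2 ^ (f + 33) * (27 * (f + 33) ^ 3) < 2 * 3 ^ (f + 33) := fun f => by
      induction f with
      | zero => norm_num
      | succ f ih =>
        rw [show f + 1 + 33 = f + 33 + 1 by ring, pow_succ 2, pow_succ 3]
        have : 2 * (f + 33 + 1) ^ 3 ≤ 3 * (f + 33) ^ 3 := by
          nlinarith [Nat.zero_le (f ^ 3), Nat.zero_le (f ^ 2)]
        nlinarith [Nat.mul_le_mul_left (2 ^ (f + 33)) this]
    obtain ⟨f, hf⟩ := Nat.exists_eq_add_of_le' (show 33 ≤ e.totient by omega)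
    have b1 := three_pow_le_cyc hq he
    have b2 := k f
    rw [hf] at b1 a3
    have b3 := Nat.mul_le_mul_left (2 ^ (f + 33)) a3
    rw [mul_left_comm] at b3
    omega
  have a5 : e < if q = 2 then 385 else if q = 3 then 124 else 49 := by
    have b1 := pow_le_cyc hq e
    split_ifs with c1 c2
    · have := Nat.pow_le_pow_left a4 3
      nlinarith
    · subst c2
      rw [show 3 - 1 = 2 from rfl] at b1
      have : e.totient ≤ 15 := by
        by_contra hc
        generalize e.totient = f at *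
        have : 2 * 2 ^ f ≤ 27 * f ^ 3 := by omega
        interval_cases f <;> omega
      have := Nat.pow_le_pow_left this 3
      nlinarith
    · have b2 := (Nat.pow_le_pow_left (show 3 ≤ q - 1 by omega) _).trans b1
      have : e.totient ≤ 8 := by
        by_contra hc
        generalize e.totient = f at *
        have : 2 * 3 ^ f ≤ 27 * f ^ 3 := by omega
        interval_cases f <;> omega
      have := Nat.pow_le_pow_left this 3
      nlinarith
  have a6 : q < 12 := by
    by_contra hc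
    have b1 := (Nat.pow_le_pow_left (show 11 ≤ q - 1 by omega) _).trans (pow_le_cyc hq e)
    have b2 : 2 ≤ e.totient := Nat.le_of_dvd (Nat.totient_pos.2 (by omega)) (Nat.totient_even he).two_dvd
    generalize e.totient = f at *
    have : 2 * 11 ^ f ≤ 27 * f ^ 3 := by omega
    interval_cases f <;> omega
  have := chk_all
  simp only [List.all_eq_true, List.mem_range] at this
  have := this q a6 e a5
  simp only [Bool.or_eq_true, decide_eq_true_eq, List.contains_eq_mem, chk, Bool.and_eq_true, beq_iff_eq,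
    List.all_eq_true, List.mem_range] at this
  rcases this with ((h4 | h4) | h4) | ⟨⟨h4, h5⟩, h6⟩
  · omega
  · omega
  · exact absurd h4 h
  · exact ⟨_, Nat.dvd_of_mod_eq_zero h4, fun i h7 h8 => (h6 i h8).resolve_left (by omega), h5⟩

end Cfsg.Agent.H27
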